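import Cfsg.Agent.H40.BlockBasic
import Cfsg.Agent.H40.BlockDefect
import Cfsg.Agent.H40.InducedBlocks

/-!
A criterion for a group to have a single `p`-block: the centralisers of the elements of order `p`
are `p`-constrained with trivial `p'`-core, and no degree has full `p`-part.
-/

set_option autoImplicit false

namespace Cfsg.Agent.H11

open Cfsg.Agent.H41 (localRing res ResField omegaBar idemBar groupAlgCenter omegaLoc blockIdem)

variable {G : Type*} [Group G] [Finite G] {p : ℕ} [Fact p.Prime]

omit [Finite G] in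
/-- An element of `p`-power order becomes nilpotent after subtracting one. -/
theorem isNilpotent_single_sub_one {R : Type*} [CommRing R] [CharP R p] {Q : Subgroup G}
    (hQ : IsPGroup p Q) {y : G} (hy : y ∈ Q) :
    IsNilpotent (MonoidAlgebra.single y (1 : R) - 1) := by
  obtain ⟨k, hk⟩ := hQ ⟨y, hy⟩
  have hyk : y ^ p ^ k = 1 := congrArg Subtype.val hk
  have : Nontrivial R := CharP.nontrivial_of_char_ne_one (Fact.out : p.Prime).ne_one
  have : CharP (MonoidAlgebra R G) p :=
    charP_of_injective_algebraMap (R := R) MonoidAlgebra.single_right_injective p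
  refine ⟨p ^ k, ?_⟩
  rw [sub_pow_char_pow_of_commute _ _ (Commute.one_right _), MonoidAlgebra.single_pow, one_pow,
    hyk, one_pow, ← MonoidAlgebra.one_def, sub_self]

/-- In a group with a self-centralising normal `p`-subgroup a central idempotent with zero
coefficient sum vanishes. -/
theorem eq_zero_of_sum_coeff_eq_zero [Fintype G] {R : Type*} [CommRing R] [CharP R p]
    {Q : Subgroup G} [Q.Normal] (hQ : IsPGroup p Q) (hCQ : Subgroup.centralizer (Q : Set G) ≤ Q)
    {a : MonoidAlgebra R G} (ha : a ∈ Subalgebra.center R (MonoidAlgebra R G))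
    (hid : IsIdempotentElem a) (h0 : ∑ g, a.coeff g = 0) : a = 0 := by
  classical
  have hpR : ∀ m : R, p • m = 0 := fun m => by rw [nsmul_eq_mul, CharP.cast_eq_zero, zero_mul]
  have hinv := H40.mem_center_iff_coeff.1 ha
  set S := Finset.univ.filter (· ∈ Subgroup.centralizer (Q : Set G)) with hS
  have hsum : ∑ y ∈ S, a.coeff y = 0 := by
    rw [← H40.sum_eq_sum_centralizer (p := p) hQ hpR (fun g => a.coeff g)
      (fun q _ x => hinv x q), h0]
  set b : MonoidAlgebra R G := ∑ y ∈ S, MonoidAlgebra.single y (a.coeff y) with hb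
  have hb' : b = ∑ y ∈ S, a.coeff y • (MonoidAlgebra.single y (1 : R) - 1) := by
    simp only [smul_sub, MonoidAlgebra.smul_single, smul_eq_mul, mul_one, Finset.sum_sub_distrib,
      ← Finset.sum_smul, hsum, zero_smul, sub_zero, hb]
  have hbc : ∀ g, b.coeff g = if g ∈ S then a.coeff g else 0 := by
    intro g
    simp [hb, MonoidAlgebra.coeff_sum, MonoidAlgebra.coeff_single, Finsupp.single_apply]
  have hconjS : ∀ g h : G, h * g * h⁻¹ ∈ S ↔ g ∈ S := by
    intro g h
    simp only [hS, Finset.mem_filter, Finset.mem_univ, true_and]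
    refine H40.conj_mem_centralizer_iff (P := Q) ?_
    rw [Subgroup.normalizer_eq_top]
    exact Subgroup.mem_top h
  have hbZ : b ∈ Subalgebra.center R (MonoidAlgebra R G) := by
    refine H40.mem_center_iff_coeff.2 fun g h => ?_
    rw [hbc, hbc, hinv]
    simp only [hconjS]
  have hnil : IsNilpotent (a - b) := by
    refine H40.isNilpotent_of_coeff_eq_zero hQ (Subalgebra.sub_mem _ ha hbZ) fun x hx => ?_
    simp [hbc, hS, hx]
  have hnb : IsNilpotent b := by
    rw [hb']
    refine Commute.isNilpotent_sum (fun y hy => ?_) fun y z hy hz => ?_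
    · exact (isNilpotent_single_sub_one hQ (hCQ (Finset.mem_filter.1 hy).2)).smul _
    · have hyQ : y ∈ Q := hCQ (Finset.mem_filter.1 hy).2
      have hyz : Commute y z := Subgroup.mem_centralizer_iff.1 (Finset.mem_filter.1 hz).2 y hyQ
      have e : Commute (MonoidAlgebra.single y (1 : R)) (MonoidAlgebra.single z (1 : R)) := by
        simp only [Commute, SemiconjBy, MonoidAlgebra.single_mul_single, hyz.eq]
      exact (((e.sub_left (Commute.one_left _)).sub_right (Commute.one_right _)).smul_left _)
        |>.smul_right _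
  have hcomm : Commute (a - b) b := (Subalgebra.mem_center_iff.1 hbZ (a - b))
  have hn := hcomm.isNilpotent_add hnil hnb
  rw [sub_add_cancel] at hn
  exact hid.eq_zero_of_isNilpotent hn

variable {M : Ideal Cfsg.AlgInt} [M.IsMaximal]

/-- The reduced central character of the trivial character is the coefficient sum. -/
theorem omegaBar_oneIrr [Fintype G] (z : groupAlgCenter (ResField M) G) :
    omegaBar M (H26.oneIrr G) z = ∑ g, (z : MonoidAlgebra (ResField M) G).coeff g := by
  obtain ⟨z, rfl⟩ := H41.redZ_surjective M z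
  rw [H41.omegaBar_redZ]
  simp only [H41.coeff_redZ, ← map_sum]
  congr 1
  apply Subtype.ext
  rw [H41.coe_omegaLoc, H41.omega_apply, AddSubmonoidClass.coe_finsetSum]
  simp [H26.oneIrr]

/-- A block with a defect class centralising an element of order `p` whose centraliser is
constrained is the principal block. -/
theorem oneIrr_mem_of_constrained (hM : Cfsg.IsPModular p M) {B : Set (Cfsg.IrrCharacter G)}
    (hB : Cfsg.IsPBlock M B) {g : G} (hg : Cfsg.IsDefectClass M B g) {z : G}
    (hz : orderOf z = p) (hgz : g * z = z * g)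
    (Q : Subgroup (Subgroup.centralizer ({z} : Set G))) [Q.Normal] (hQ : IsPGroup p Q)
    (hCQ : Subgroup.centralizer (Q : Set (Subgroup.centralizer ({z} : Set G))) ≤ Q) :
    H26.oneIrr G ∈ B := by
  classical
  have : Fintype G := Fintype.ofFinite G
  have := H41.IsPModular.charP hM
  set H := Subgroup.centralizer ({z} : Set G)
  have : Fintype H := Fintype.ofFinite H
  set P := Subgroup.zpowers z
  have hP : IsPGroup p P := IsPGroup.of_card (n := 1) (by rw [Nat.card_zpowers, hz, pow_one])
  have hcP : ∀ x : G, x ∈ Subgroup.centralizer (P : Set G) ↔ x ∈ H := by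
    intro x
    rw [Subgroup.mem_centralizer_singleton_iff, Subgroup.mem_centralizer_iff]
    refine ⟨fun h => (h z (Subgroup.mem_zpowers z)).symm, fun h y hy => ?_⟩
    obtain ⟨n, rfl⟩ := Subgroup.mem_zpowers_iff.1 hy
    exact ((show Commute x z from h).zpow_right n).symm.eq
  have hHN : H ≤ Subgroup.normalizer (P : Set G) := fun x hx =>
    Subgroup.centralizer_le_normalizer _ ((hcP x).2 hx)
  have hgH : g ∈ H := Subgroup.mem_centralizer_singleton_iff.2 hgz
  set e := idemBar hB
  let Br := H40.brauerCenterHom (R := ResField M) (p := p) (P := P) (H := H) hP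
    (fun x hx => (hcP x).1 hx) hHN
  set E := Br e with hE
  have hEne : (E : MonoidAlgebra (ResField M) H) ≠ 0 := by
    intro h0
    apply (H41.coeff_idemBar_ne_zero_iff hB g).2 ⟨hg.1, hg.2.1⟩
    have := congrArg (fun a => a.coeff (⟨g, hgH⟩ : H)) h0
    simpa [E, Br, H40.coeff_brauerMap, (hcP g).2 hgH] using this
  have hid : IsIdempotentElem (E : MonoidAlgebra (ResField M) H) := by
    have h := (H41.isIdempotentElem_idemBar hB).map Br
    exact congrArg Subtype.val h
  have hsum : ∑ h, (E : MonoidAlgebra (ResField M) H).coeff h =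
      ∑ x, (e : MonoidAlgebra (ResField M) G).coeff x := by
    rw [H40.sum_eq_sum_centralizer (p := p) hP
      (fun m => by rw [nsmul_eq_mul, CharP.cast_eq_zero, zero_mul])
      (fun x => (e : MonoidAlgebra (ResField M) G).coeff x)
      (fun q _ x => H40.mem_center_iff_coeff.1 e.2 x q)]
    rw [show (Finset.univ.filter (· ∈ Subgroup.centralizer (P : Set G))) =
      Finset.univ.filter (· ∈ H) from Finset.filter_congr fun x _ => by rw [hcP],
      Finset.sum_subtype (p := fun x => x ∈ H) _ (fun x => by simp)]
    refine Finset.sum_congr rfl fun h _ => ?_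
    simp [E, Br, H40.coeff_brauerMap, (hcP h.1).2 h.2]
  by_contra hne
  refine hEne (eq_zero_of_sum_coeff_eq_zero hQ hCQ E.2 hid ?_)
  rw [hsum, ← omegaBar_oneIrr, H41.omegaBar_idemBar, if_neg hne]

/-- One `p`-block: constrained centralisers of the elements of order `p` and no degree of full
`p`-part. -/
theorem sameBlock_of_constrained (hM : Cfsg.IsPModular p M)
    (hC : ∀ z : G, orderOf z = p → ∃ (Q : Subgroup (Subgroup.centralizer ({z} : Set G)))
      (_ : Q.Normal), IsPGroup p Q ∧
        Subgroup.centralizer (Q : Set (Subgroup.centralizer ({z} : Set G))) ≤ Q)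
    (hdeg : ∀ χ : Cfsg.IrrCharacter G,
      ¬ (Nat.card G).factorization p ≤ (Cfsg.charDegree (χ : G → ℂ)).factorization p)
    (χ ψ : Cfsg.IrrCharacter G) : Cfsg.SameBlock M (χ : G → ℂ) (ψ : G → ℂ) := by
  have key : ∀ φ : Cfsg.IrrCharacter G, H26.oneIrr G ∈ Cfsg.blockOf M (φ : G → ℂ) := by
    intro φ
    have hB := H41.isPBlock_blockOf (M := M) φ
    obtain ⟨g, hg⟩ := H40.exists_isDefectClass hM hB
    have hp : p ∣ Nat.card (Subgroup.centralizer ({g} : Set G)) := by
      by_contra hn
      refine hdeg φ ?_
      refine le_trans (le_of_eq ?_) (H40.index_factorization_le hM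
        (hg.2.2 φ (H41.mem_blockOf_self φ)))
      rw [← (Subgroup.centralizer ({g} : Set G)).card_mul_index,
        Nat.factorization_mul Nat.card_pos.ne' Subgroup.index_ne_zero_of_finite, Finsupp.add_apply,
        Nat.factorization_eq_zero_of_not_dvd hn, zero_add]
    obtain ⟨z, hz⟩ := exists_prime_orderOf_dvd_card' p hp
    obtain ⟨Q, hQn, hQ, hCQ⟩ := hC (z : G) (by rw [Subgroup.orderOf_coe, hz])
    exact oneIrr_mem_of_constrained hM hB hg (by rw [Subgroup.orderOf_coe, hz])
      (Subgroup.mem_centralizer_singleton_iff.1 z.2).symm Q hQ hCQ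
  exact H41.sameBlock_trans (key χ) (H41.sameBlock_symm (key ψ))

end Cfsg.Agent.H11
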