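import Cfsg.Agent.H11.NormBound

/-!
The squared norm of an irreducible character is at least the part on the elements of given
orders, and that part is bounded below by the degree modulo the orders.
-/

set_option autoImplicit false

open scoped Classical ComplexConjugate

namespace Cfsg.Agent.H11

section Roots

variable {ι : Type*} [Fintype ι]

/-- Pairs with equal values, counted by fibres. -/
theorem card_equal_pairs {κ β : Type*} [Fintype κ] [DecidableEq κ] [DecidableEq β] {a : ι → κ}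
    {f : ι → β} (h : ∀ i j, a i = a j ↔ f i = f j) :
    ((Finset.univ : Finset (ι × ι)).filter fun ij => f ij.1 = f ij.2).card =
      ∑ c, (Finset.univ.filter fun i => a i = c).card ^ 2 := by
  rw [Finset.filter_congr (q := fun ij : ι × ι => a ij.1 = a ij.2) fun ij _ => (h _ _).symm]
  rw [Finset.card_eq_sum_card_fiberwise (t := Finset.univ) (f := fun ij : ι × ι => a ij.1)
    (fun _ _ => Finset.mem_univ _)]
  refine Finset.sum_congr rfl fun c _ => ?_
  rw [sq, ← Finset.card_product]
  congr 1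
  ext ⟨i, j⟩
  simp only [Finset.mem_filter, Finset.mem_univ, true_and, Finset.mem_product]
  exact ⟨fun h => ⟨h.2, h.1 ▸ h.2⟩, fun h => ⟨h.1.trans h.2.symm, h.1⟩⟩

/-- A sum of roots of unity over all powers counts the equal pairs. -/
theorem sum_range_normSq (μ : ι → ℂ) {q : ℕ} (hq : 0 < q) (hμ : ∀ i, μ i ^ q = 1) :
    ∑ t ∈ Finset.range q, Complex.normSq (∑ i, μ i ^ t) =
      (q : ℝ) * ((Finset.univ : Finset (ι × ι)).filter fun ij => μ ij.1 = μ ij.2).card := by
  apply Complex.ofReal_injective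
  rw [Complex.ofReal_sum, Complex.ofReal_mul, Complex.ofReal_natCast, Complex.ofReal_natCast]
  have hinv : ∀ i, conj (μ i) = (μ i)⁻¹ := fun i =>
    (Complex.inv_eq_conj (Complex.norm_eq_one_of_pow_eq_one (hμ i) hq.ne')).symm
  have h : ∀ t, ((Complex.normSq (∑ i, μ i ^ t) : ℝ) : ℂ) =
      ∑ ij : ι × ι, (μ ij.1 * (μ ij.2)⁻¹) ^ t := by
    intro t
    rw [← Complex.mul_conj, map_sum, Finset.sum_mul_sum, ← Finset.sum_product']
    refine Finset.sum_congr rfl fun ij _ => ?_
    rw [map_pow, hinv, mul_pow]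
  simp only [h]
  rw [Finset.sum_comm, Finset.card_filter, Nat.cast_sum, Finset.mul_sum]
  refine Finset.sum_congr rfl fun ij _ => ?_
  have hw : (μ ij.1 * (μ ij.2)⁻¹) ^ q = 1 := by rw [mul_pow, inv_pow, hμ, hμ, inv_one, mul_one]
  have hne : μ ij.2 ≠ 0 := fun e => by
    have := hμ ij.2
    rw [e, zero_pow hq.ne'] at this
    exact zero_ne_one this
  split_ifs with e
  · rw [e, mul_inv_cancel₀ hne]; simp
  · have h1 : μ ij.1 * (μ ij.2)⁻¹ ≠ 1 := fun e' => e (by
      rwa [mul_inv_eq_one₀ hne] at e')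
    rw [geom_sum_eq h1, hw]; simp

omit [Fintype ι] in
/-- The classes of roots of unity. -/
theorem exists_root_index (μ : ι → ℂ) {q : ℕ} (hq : 0 < q) (hμ : ∀ i, μ i ^ q = 1) :
    ∃ a : ι → Fin q, ∀ i j, a i = a j ↔ μ i = μ j := by
  have : NeZero q := ⟨hq.ne'⟩
  have hζ := Complex.isPrimitiveRoot_exp q hq.ne'
  choose k hk hk' using fun i => hζ.eq_pow_of_pow_eq_one (hμ i)
  refine ⟨fun i => ⟨k i, hk i⟩, fun i j => ⟨fun h => ?_, fun h => Fin.ext ?_⟩⟩
  · rw [← hk' i, ← hk' j, show k i = k j from congrArg Fin.val h]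
  · exact hζ.pow_inj (hk i) (hk j) (by rw [hk' i, hk' j, h])

/-- The fibre sizes of an index sum to the number of items. -/
theorem sum_card_fiber {κ : Type*} [Fintype κ] [DecidableEq κ] (a : ι → κ) :
    ∑ c, (Finset.univ.filter fun i => a i = c).card = Fintype.card ι :=
  (Finset.card_eq_sum_card_fiberwise (fun _ _ => Finset.mem_univ _)).symm

end Roots

variable {G : Type*} [Group G] [Fintype G] (χ : Cfsg.IrrCharacter G)

/-- The norm of a character on the elements of a given order. -/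
noncomputable def orderNorm (o : ℕ) : ℝ :=
  ∑ y ∈ Finset.univ.filter (fun y : G => orderOf y = o), Complex.normSq ((χ : G → ℂ) y)

/-- The norm on the elements of a given order is nonnegative. -/
theorem orderNorm_nonneg (o : ℕ) : 0 ≤ orderNorm χ o :=
  Finset.sum_nonneg fun _ _ => Complex.normSq_nonneg _

/-- The norm of an irreducible character. -/
theorem sum_normSq : ∑ y, Complex.normSq ((χ : G → ℂ) y) = Nat.card G := by
  have h := H26.classInner_irr χ χ
  rw [if_pos rfl, Cfsg.classInner, inv_mul_eq_one₀ (Nat.cast_ne_zero.2 Nat.card_pos.ne')] at h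
  have h' := congrArg Complex.re h
  rw [Complex.natCast_re, Complex.re_sum] at h'
  rw [h']
  simp [Complex.mul_conj]

/-- The degree and the parts on elements of given orders stay below the group order. -/
theorem sq_degree_add_le (O : Finset ℕ) (h1 : 1 ∉ O) :
    ((Cfsg.charDegree (χ : G → ℂ) : ℝ)) ^ 2 + ∑ o ∈ O, orderNorm χ o ≤ Nat.card G := by
  obtain ⟨d, -, hd⟩ := H26.exists_degree χ
  rw [H26.charDegree_eq hd, ← sum_normSq χ, ← Finset.add_sum_erase _ _ (Finset.mem_univ (1 : G)),
    hd, Complex.normSq_natCast, ← sq]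
  refine add_le_add_right ?_ _
  simp only [orderNorm]
  rw [← Finset.sum_biUnion (fun a _ b _ hab => Finset.disjoint_left.2 fun y ha hb =>
    hab ((Finset.mem_filter.1 ha).2.symm.trans (Finset.mem_filter.1 hb).2))]
  refine Finset.sum_le_sum_of_subset_of_nonneg (fun y hy => ?_) fun y _ _ => Complex.normSq_nonneg _
  obtain ⟨o, ho, hy⟩ := Finset.mem_biUnion.1 hy
  refine Finset.mem_erase.2 ⟨fun e => h1 ?_, Finset.mem_univ _⟩
  have hyo := (Finset.mem_filter.1 hy).2
  rw [e, orderOf_one] at hyo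
  exact hyo.symm ▸ ho

/-- The exponents prime to the order. -/
def primeExps (o : ℕ) : Finset ℕ := (Finset.range o).filter fun k => k.Coprime o

/-- The elements mapping an element into a power of itself. -/
noncomputable def powNormalizer (x : G) : Finset G :=
  Finset.univ.filter fun g => ∃ k : ℕ, g * x * g⁻¹ = x ^ k

/-- The norm over the generators of a cyclic subgroup and over all elements of that order. -/
theorem card_mul_sum_le {o : ℕ} {x : G} (hx : orderOf x = o) :
    (Nat.card G : ℝ) * ∑ k ∈ primeExps o, Complex.normSq ((χ : G → ℂ) (x ^ k)) ≤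
      (powNormalizer x).card * orderNorm χ o := by
  set f := fun y : G => Complex.normSq ((χ : G → ℂ) y) with hf
  have e : (Nat.card G : ℝ) * ∑ k ∈ primeExps o, f (x ^ k) =
      ∑ gk ∈ (Finset.univ : Finset G) ×ˢ primeExps o, f (gk.1 * x ^ gk.2 * gk.1⁻¹) := by
    rw [Finset.sum_product]
    simp only [hf, H26.irr_conj, Finset.sum_const, Finset.card_univ, nsmul_eq_mul,
      Nat.card_eq_fintype_card]
  rw [e, orderNorm, Finset.mul_sum,
    ← Finset.sum_fiberwise_of_maps_to (t := Finset.univ.filter fun y : G => orderOf y = o)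
      (g := fun gk : G × ℕ => gk.1 * x ^ gk.2 * gk.1⁻¹)]
  · refine Finset.sum_le_sum fun y _ => ?_
    rw [Finset.sum_congr rfl (g := fun _ => f y) (fun gk hgk => by rw [(Finset.mem_filter.1 hgk).2]),
      Finset.sum_const, nsmul_eq_mul]
    refine mul_le_mul_of_nonneg_right (Nat.cast_le.2 ?_) (Complex.normSq_nonneg _)
    set F := ((Finset.univ : Finset G) ×ˢ primeExps o).filter
      (fun gk => gk.1 * x ^ gk.2 * gk.1⁻¹ = y) with hF
    rcases F.eq_empty_or_nonempty with h0 | ⟨⟨g0, k0⟩, h0⟩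
    · rw [h0]; simp
    have hk : ∀ gk ∈ F, gk.2 < o ∧ gk.2.Coprime o ∧ gk.1 * x ^ gk.2 * gk.1⁻¹ = y := by
      intro gk hgk
      simp only [hF, primeExps, Finset.mem_filter, Finset.mem_product, Finset.mem_univ, true_and,
        Finset.mem_range] at hgk
      exact ⟨hgk.1.1, hgk.1.2, hgk.2⟩
    obtain ⟨-, -, hy0⟩ := hk _ h0
    refine Finset.card_le_card_of_injOn (fun gk => g0⁻¹ * gk.1) (fun gk hgk => ?_) ?_
    · obtain ⟨-, hco, hy⟩ := hk gk hgk
      obtain ⟨m, hm⟩ := exists_pow_eq_self_of_coprime (x := x) (by rw [hx]; exact hco)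
      refine Finset.mem_filter.2 ⟨Finset.mem_univ _, k0 * m, ?_⟩
      rw [pow_mul]
      conv_lhs => rw [← hm]
      rw [← conj_pow]
      congr 1
      calc g0⁻¹ * gk.1 * x ^ gk.2 * (g0⁻¹ * gk.1)⁻¹
          = g0⁻¹ * (gk.1 * x ^ gk.2 * gk.1⁻¹) * g0 := by group
        _ = x ^ k0 := by rw [hy, ← hy0]; group
    · intro a ha b hb hab
      obtain ⟨hao, -, hay⟩ := hk a ha
      obtain ⟨hbo, -, hby⟩ := hk b hb
      have h1 : a.1 = b.1 := mul_left_cancel hab
      refine Prod.ext h1 (pow_injOn_Iio_orderOf (x := x) (by rwa [hx]) (by rwa [hx]) ?_)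
      have h := hay.trans hby.symm
      rw [h1] at h
      exact mul_left_cancel (mul_right_cancel h)
  · intro gk hgk
    simp only [primeExps, Finset.mem_product, Finset.mem_filter, Finset.mem_univ, true_and] at hgk ⊢
    rw [show gk.1 * x ^ gk.2 * gk.1⁻¹ = MulAut.conj gk.1 (x ^ gk.2) from rfl,
      MulEquiv.orderOf_eq, (Nat.Coprime.orderOf_pow (by rw [hx]; exact hgk.2.symm)), hx]

/-- The normaliser of a cyclic subgroup is bounded by the centraliser and the exponents. -/
theorem card_powNormalizer_le {o c : ℕ} {x : G} (hx : orderOf x = o) (ho : 0 < o)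
    (hC : Nat.card {g : G // g * x = x * g} ≤ c) :
    (powNormalizer x).card ≤
      c * ((primeExps o).filter fun k => ∃ g : G, g * x * g⁻¹ = x ^ k).card := by
  refine Finset.card_le_mul_card_image_of_maps_to
    (f := fun g => Function.invFunOn (fun k => x ^ k) (Finset.range o : Set ℕ) (g * x * g⁻¹))
    ?_ _ ?_
  · intro g hg
    obtain ⟨k, hk⟩ := (Finset.mem_filter.1 hg).2
    have hex : ∃ a ∈ (Finset.range o : Set ℕ), x ^ a = g * x * g⁻¹ :=
      ⟨k % o, by simpa using Nat.mod_lt _ ho, by rw [hk, ← hx, pow_mod_orderOf]⟩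
    have h1 := Function.invFunOn_eq hex
    have h2 := Function.invFunOn_mem hex
    set j := Function.invFunOn (fun k => x ^ k) (Finset.range o : Set ℕ) (g * x * g⁻¹)
    refine Finset.mem_filter.2 ⟨Finset.mem_filter.2 ⟨by simpa using h2, ?_⟩, g, h1.symm⟩
    have h3 : orderOf (x ^ j) = orderOf x := by
      rw [h1, show g * x * g⁻¹ = MulAut.conj g x from rfl, MulEquiv.orderOf_eq]
    rw [orderOf_pow, hx] at h3
    have h4 := Nat.div_eq_self.1 h3
    rw [Nat.coprime_iff_gcd_eq_one, Nat.gcd_comm]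
    omega
  · intro j _
    set F := (powNormalizer x).filter fun g =>
      Function.invFunOn (fun k => x ^ k) (Finset.range o : Set ℕ) (g * x * g⁻¹) = j with hF
    rcases F.eq_empty_or_nonempty with h0 | ⟨g0, hg0⟩
    · rw [h0]; simp
    have hval : ∀ g ∈ F, g * x * g⁻¹ = x ^ j := by
      intro g hg
      obtain ⟨hg, hj⟩ := Finset.mem_filter.1 hg
      obtain ⟨k, hk⟩ := (Finset.mem_filter.1 hg).2
      rw [← hj]
      exact (Function.invFunOn_eq (f := fun k => x ^ k)
        ⟨k % o, by simpa using Nat.mod_lt _ ho, by rw [hk, ← hx]; exact pow_mod_orderOf x k⟩).symm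
    refine le_trans (Finset.card_le_card_of_injOn (t := Finset.univ.filter fun g : G => g * x = x * g)
      (fun g => g0⁻¹ * g) (fun g hg => ?_)
      fun a _ b _ h => mul_left_cancel h) (le_trans (le_of_eq ?_) hC)
    rotate_left
    · rw [Nat.card_eq_fintype_card, Fintype.card_subtype]
    refine Finset.mem_filter.2 ⟨Finset.mem_univ _, ?_⟩
    have e := (hval g hg).trans (hval g0 hg0).symm
    calc g0⁻¹ * g * x = g0⁻¹ * (g * x * g⁻¹) * g := by group
      _ = x * (g0⁻¹ * g) := by rw [e]; group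

/-- A power not conjugate to the element halves the exponents. -/
theorem two_mul_card_conjExps_le {o e : ℕ} {x : G} (hx : orderOf x = o) (he : e.Coprime o)
    (hne : ∀ g : G, g * x * g⁻¹ ≠ x ^ e) :
    2 * ((primeExps o).filter fun k => ∃ g : G, g * x * g⁻¹ = x ^ k).card ≤
      (primeExps o).card := by
  set H := (primeExps o).filter fun k => ∃ g : G, g * x * g⁻¹ = x ^ k with hH
  have h2 : H.card ≤ (primeExps o \ H).card := by
    refine Finset.card_le_card_of_injOn (fun k => k * e % o) (fun k hk => ?_) ?_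
    · obtain ⟨hk, g1, hg1⟩ := Finset.mem_filter.1 hk
      simp only [primeExps, Finset.mem_filter, Finset.mem_range] at hk
      have hke : (k * e % o).Coprime o := by
        rw [Nat.coprime_iff_gcd_eq_one, ← Nat.gcd_rec, Nat.gcd_comm]
        exact Nat.Coprime.mul_left hk.2 he
      refine Finset.mem_sdiff.2 ⟨Finset.mem_filter.2
        ⟨Finset.mem_range.2 (Nat.mod_lt _ (by omega)), hke⟩, ?_⟩
      rintro h
      obtain ⟨-, g2, hg2⟩ := Finset.mem_filter.1 h
      rw [← hx, pow_mod_orderOf, pow_mul, ← hg1, conj_pow] at hg2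
      apply hne (g1⁻¹ * g2)
      calc g1⁻¹ * g2 * x * (g1⁻¹ * g2)⁻¹ = g1⁻¹ * (g2 * x * g2⁻¹) * g1 := by group
        _ = x ^ e := by rw [hg2]; group
    · intro a ha b hb hab
      simp only [hH, primeExps, Finset.coe_filter, Finset.mem_filter, Finset.mem_range,
        Set.mem_ofPred_eq] at ha hb
      have : a * e ≡ b * e [MOD o] := hab
      exact Nat.ModEq.eq_of_lt_of_lt
        (Nat.ModEq.cancel_right_of_coprime (by rwa [Nat.gcd_comm]) this) ha.1.1 hb.1.1
  have := Finset.card_sdiff_add_card_eq_card (Finset.filter_subset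
    (fun k => ∃ g : G, g * x * g⁻¹ = x ^ k) (primeExps o))
  rw [← hH] at this
  omega

/-- The normaliser of a cyclic subgroup has at most the centraliser times the exponents. -/
theorem card_powNormalizer_le_mul {o c : ℕ} {x : G} (hx : orderOf x = o) (ho : 0 < o)
    (hC : Nat.card {g : G // g * x = x * g} ≤ c) :
    (powNormalizer x).card ≤ c * (primeExps o).card :=
  (card_powNormalizer_le hx ho hC).trans (Nat.mul_le_mul_left c (Finset.card_filter_le _ _))

/-- A power not conjugate to the element halves the bound on the normaliser. -/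
theorem two_mul_card_powNormalizer_le {o c e : ℕ} {x : G} (hx : orderOf x = o) (ho : 0 < o)
    (hC : Nat.card {g : G // g * x = x * g} ≤ c) (he : e.Coprime o)
    (hne : ∀ g : G, g * x * g⁻¹ ≠ x ^ e) :
    2 * (powNormalizer x).card ≤ c * (primeExps o).card :=
  calc 2 * (powNormalizer x).card
      ≤ 2 * (c * ((primeExps o).filter fun k => ∃ g : G, g * x * g⁻¹ = x ^ k).card) :=
        Nat.mul_le_mul_left 2 (card_powNormalizer_le hx ho hC)
    _ = c * (2 * ((primeExps o).filter fun k => ∃ g : G, g * x * g⁻¹ = x ^ k).card) := by ring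
    _ ≤ c * (primeExps o).card := Nat.mul_le_mul_left c (two_mul_card_conjExps_le hx he hne)

/-- The values on the powers of an element are power sums of roots of unity. -/
theorem exists_power_sums (x : G) :
    ∃ μ : Fin (Cfsg.charDegree (χ : G → ℂ)) → ℂ,
      (∀ i, μ i ^ orderOf x = 1) ∧ ∀ m : ℕ, (χ : G → ℂ) (x ^ m) = ∑ i, μ i ^ m := by
  obtain ⟨n, ρ, -, hρ⟩ := χ.2
  have hn : Module.finrank ℂ (Fin n → ℂ) = Cfsg.charDegree (χ : G → ℂ) :=
    (H26.charDegree_eq (by rw [← hρ, ρ.char_one])).symm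
  obtain ⟨b, μ, hb, hμ, -⟩ := H25.exists_eigenbasis ρ x
  refine ⟨fun i => μ (Fin.cast hn.symm i), fun i => hμ _, fun m => ?_⟩
  have hv : (χ : G → ℂ) (x ^ m) = ρ.character (x ^ m) := by rw [hρ]
  rw [hv, Representation.character, map_pow,
    H25.trace_eq_sum_of_eigenbasis (ρ x ^ m) b (fun i => μ i ^ m) ?_]
  · exact (Fintype.sum_equiv (finCongr hn) _ _ fun i => by simp)
  · intro i
    clear hv
    induction m with
    | zero => simp
    | succ m ih => rw [pow_succ', Module.End.mul_apply, ih, map_smul, hb, smul_smul, pow_succ]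

/-- The bound from an element of prime order. -/
theorem residue_bound {p c : ℕ} (hp : p.Prime) {x : G} (hx : orderOf x = p)
    (hN : (powNormalizer x).card ≤ c) :
    (Nat.card G : ℝ) * ((Cfsg.charDegree (χ : G → ℂ) % p : ℕ) *
      ((p : ℝ) - (Cfsg.charDegree (χ : G → ℂ) % p : ℕ))) ≤ c * orderNorm χ p := by
  set n := Cfsg.charDegree (χ : G → ℂ) with hn
  obtain ⟨μ, hμ, hχ⟩ := exists_power_sums χ x
  rw [hx] at hμ
  obtain ⟨a, ha⟩ := exists_root_index μ hp.pos hμ
  set C := fun j => (Finset.univ.filter fun i => a i = j).card with hC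
  have hP := sum_range_normSq μ hp.pos hμ
  simp only [← hχ] at hP
  rw [card_equal_pairs ha] at hP
  have hset : Finset.range p = insert 0 (primeExps p) := by
    ext k
    simp only [primeExps, Finset.mem_range, Finset.mem_insert, Finset.mem_filter]
    constructor
    · intro hk
      rcases Nat.eq_zero_or_pos k with h | h
      · exact Or.inl h
      · exact Or.inr ⟨hk, (Nat.coprime_of_lt_prime h.ne' hk hp).symm⟩
    · rintro (rfl | h)
      exacts [hp.pos, h.1]
  rw [hset, Finset.sum_insert (by simp [primeExps, hp.ne_one]), pow_zero] at hP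
  have h1 := residue_le_sq C (n := n) (by rw [hC, sum_card_fiber, Fintype.card_fin])
  rw [Fintype.card_fin] at h1
  generalize n % p = r at h1 ⊢
  have h1' := (Int.cast_le (R := ℝ)).2 h1
  push_cast at h1'
  have hdeg : Complex.normSq ((χ : G → ℂ) 1) = (n : ℝ) ^ 2 := by
    obtain ⟨d, -, hd⟩ := H26.exists_degree χ
    rw [hn, H26.charDegree_eq hd, hd, Complex.normSq_natCast, sq]
  rw [hdeg] at hP
  push_cast at hP
  have h2 := (mul_le_mul_of_nonneg_left (h1'.trans (le_of_eq
    (show _ = ∑ k ∈ primeExps p, Complex.normSq ((χ : G → ℂ) (x ^ k)) by linarith)))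
    (Nat.cast_nonneg (Nat.card G))).trans (card_mul_sum_le χ hx)
  refine h2.trans (mul_le_mul_of_nonneg_right (Nat.cast_le.2 hN) (orderNorm_nonneg χ p))

/-- The multiplicities for an element of order `3q`. -/
theorem exists_pair_counts {q : ℕ} (hq : q.Prime) (h3 : q ≠ 3) {x : G} (hx : orderOf x = 3 * q) :
    ∃ M : Fin 3 → Fin q → ℕ,
      ∑ i, ∑ j, M i j = Cfsg.charDegree (χ : G → ℂ) ∧
      ∑ k ∈ Finset.range (3 * q), Complex.normSq ((χ : G → ℂ) (x ^ k)) =
        ((3 * q * ∑ i, ∑ j, M i j ^ 2 : ℕ) : ℝ) ∧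
      ∑ k ∈ Finset.range q, Complex.normSq ((χ : G → ℂ) ((x ^ 3) ^ k)) =
        ((q * ∑ j, (∑ i, M i j) ^ 2 : ℕ) : ℝ) ∧
      ∑ k ∈ Finset.range 3, Complex.normSq ((χ : G → ℂ) ((x ^ q) ^ k)) =
        ((3 * ∑ i, (∑ j, M i j) ^ 2 : ℕ) : ℝ) := by
  obtain ⟨μ, hμ, hχ⟩ := exists_power_sums χ x
  rw [hx] at hμ
  have hA : ∀ i, (μ i ^ q) ^ 3 = 1 := fun i => by rw [← pow_mul, mul_comm, hμ]
  have hB : ∀ i, (μ i ^ 3) ^ q = 1 := fun i => by rw [← pow_mul, hμ]
  obtain ⟨a, ha⟩ := exists_root_index _ (by norm_num) hA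
  obtain ⟨b, hb⟩ := exists_root_index _ hq.pos hB
  have hpair : ∀ i j, μ i = μ j ↔ (a i, b i) = (a j, b j) := by
    intro i j
    rw [Prod.ext_iff, ha, hb]
    refine ⟨fun h => by simp [h], fun h => ?_⟩
    have hne : μ j ≠ 0 := fun e => by
      have := hμ j
      rw [e, zero_pow (by have := hq.pos; omega)] at this
      exact zero_ne_one this
    have h1 : (μ i * (μ j)⁻¹) ^ q = 1 := by
      rw [mul_pow, inv_pow, h.1, mul_inv_cancel₀ (pow_ne_zero _ hne)]
    have h2 : (μ i * (μ j)⁻¹) ^ 3 = 1 := by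
      rw [mul_pow, inv_pow, h.2, mul_inv_cancel₀ (pow_ne_zero _ hne)]
    have hc : Nat.Coprime q 3 := (Nat.coprime_primes hq Nat.prime_three).2 h3
    have h3 := (pow_gcd_eq_one (a := μ i * (μ j)⁻¹)).2 ⟨h1, h2⟩
    rw [hc.gcd_eq_one, pow_one, mul_inv_eq_one₀ hne] at h3
    exact h3
  set M := fun (c : Fin 3) (d : Fin q) =>
    (Finset.univ.filter fun i => (a i, b i) = (c, d)).card with hM
  have hR : ∀ c, ∑ d, M c d = (Finset.univ.filter fun i => a i = c).card := by
    intro c
    rw [Finset.card_eq_sum_card_fiberwise (t := Finset.univ) (f := b) fun _ _ => Finset.mem_univ _]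
    simp [hM, Finset.filter_filter, Prod.ext_iff]
  have hC : ∀ d, ∑ c, M c d = (Finset.univ.filter fun i => b i = d).card := by
    intro d
    rw [Finset.card_eq_sum_card_fiberwise (t := Finset.univ) (f := a) fun _ _ => Finset.mem_univ _]
    simp [hM, Finset.filter_filter, Prod.ext_iff, and_comm]
  refine ⟨M, ?_, ?_, ?_, ?_⟩
  · simp only [hR]
    rw [sum_card_fiber, Fintype.card_fin]
  · simp only [hχ]
    rw [sum_range_normSq μ (by have := hq.pos; omega) hμ,
      card_equal_pairs (a := fun i => (a i, b i)) (fun i j => (hpair i j).symm),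
      Fintype.sum_prod_type]
    push_cast
    rfl
  · simp only [← pow_mul, hχ]
    simp only [pow_mul]
    rw [sum_range_normSq _ hq.pos hB,
      card_equal_pairs hb]
    simp [hC]
  · simp only [← pow_mul, hχ]
    simp only [pow_mul]
    rw [sum_range_normSq _ (by norm_num) hA,
      card_equal_pairs ha]
    simp [hR]

/-- The bound from an element of order 15. -/
theorem bound_fifteen {x : G} (hx : orderOf x = 15) (h5 : ¬ 5 ∣ Cfsg.charDegree (χ : G → ℂ))
    (hN5 : (powNormalizer (x ^ 3)).card ≤ 240) (hN15 : (powNormalizer x).card ≤ 60) :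
    (Nat.card G : ℝ) * 36 ≤ 240 * (orderNorm χ 5 + orderNorm χ 15) := by
  obtain ⟨M, hn, hS15, hS5, hS3⟩ := exists_pair_counts χ (q := 5) (by norm_num) (by norm_num) hx
  have hx5 : orderOf (x ^ 3) = 5 := by
    rw [orderOf_pow' _ (by norm_num), hx]; rfl
  have h36 := thirtysix_le (fun i j => (M i j : ℤ)) (by
    intro h
    apply h5
    rw [← hn]
    exact_mod_cast h)
  have h36' := (Int.cast_le (R := ℝ)).2 h36
  push_cast at h36' hS15 hS5 hS3
  have b5 := card_mul_sum_le χ hx5
  have b15 := card_mul_sum_le χ hx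
  have hone : Complex.normSq ((χ : G → ℂ) 1) = (∑ i, ∑ j, (M i j : ℝ)) ^ 2 := by
    obtain ⟨d, -, hd⟩ := H26.exists_degree χ
    rw [H26.charDegree_eq hd] at hn
    rw [hd, Complex.normSq_natCast, ← hn, sq]
    push_cast
    rfl
  rw [show primeExps 5 = {1, 2, 3, 4} by decide] at b5
  rw [show primeExps 15 = {1, 2, 4, 7, 8, 11, 13, 14} by decide] at b15
  simp only [Finset.sum_range_succ, Finset.sum_range_zero, ← pow_mul, Nat.reduceMul, pow_zero,
    zero_add] at hS15 hS5 hS3
  simp only [Finset.mem_insert, Finset.mem_singleton, Nat.reduceEqDiff,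
    or_self, not_false_eq_true, Finset.sum_insert, Finset.sum_singleton, ← pow_mul,
    Nat.reduceMul] at b5 b15
  rw [hone] at hS15 hS5 hS3
  have c5 := mul_le_mul_of_nonneg_right (Nat.cast_le (α := ℝ).2 hN5) (orderNorm_nonneg χ 5)
  have c15 := mul_le_mul_of_nonneg_right (Nat.cast_le (α := ℝ).2 hN15) (orderNorm_nonneg χ 15)
  have hG : (0 : ℝ) ≤ Nat.card G := Nat.cast_nonneg _
  push_cast at c5 c15
  nlinarith [mul_le_mul_of_nonneg_left h36' hG]

/-- The bound from an element of order 21. -/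
theorem bound_twentyone {x : G} (hx : orderOf x = 21)
    (hN7 : (powNormalizer (x ^ 3)).card ≤ 126) :
    (Nat.card G : ℝ) * (3 * ((Cfsg.charDegree (χ : G → ℂ) % 7 : ℕ) *
      (7 - (Cfsg.charDegree (χ : G → ℂ) % 7 : ℕ) : ℝ))) ≤
        126 * (orderNorm χ 7 + orderNorm χ 21) := by
  obtain ⟨M, hn, hS21, hS7, hS3⟩ := exists_pair_counts χ (q := 7) (by norm_num) (by norm_num) hx
  have hx7 : orderOf (x ^ 3) = 7 := by
    rw [orderOf_pow' _ (by norm_num), hx]; rfl
  have hN21 : (powNormalizer x).card ≤ 126 := by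
    refine le_trans (Finset.card_le_card fun g hg => ?_) hN7
    obtain ⟨k, hk⟩ := (Finset.mem_filter.1 hg).2
    refine Finset.mem_filter.2 ⟨Finset.mem_univ _, k, ?_⟩
    rw [← conj_pow, hk, ← pow_mul, ← pow_mul, mul_comm]
  have h3 := three_residue_le M hn
  generalize Cfsg.charDegree (χ : G → ℂ) % 7 = r at h3 ⊢
  have h3' := (Int.cast_le (R := ℝ)).2 h3
  push_cast at h3' hS21 hS7 hS3
  have b7 := card_mul_sum_le χ hx7
  have b21 := card_mul_sum_le χ hx
  have hone : Complex.normSq ((χ : G → ℂ) 1) = (Cfsg.charDegree (χ : G → ℂ) : ℝ) ^ 2 := by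
    obtain ⟨d, -, hd⟩ := H26.exists_degree χ
    rw [H26.charDegree_eq hd, hd, Complex.normSq_natCast, sq]
  rw [show primeExps 7 = {1, 2, 3, 4, 5, 6} by decide] at b7
  rw [show primeExps 21 = {1, 2, 4, 5, 8, 10, 11, 13, 16, 17, 19, 20} by decide] at b21
  simp only [Finset.sum_range_succ, Finset.sum_range_zero, ← pow_mul, Nat.reduceMul, pow_zero,
    zero_add] at hS21 hS7 hS3
  simp only [Finset.mem_insert, Finset.mem_singleton, Nat.reduceEqDiff,
    or_self, not_false_eq_true, Finset.sum_insert, Finset.sum_singleton, ← pow_mul,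
    Nat.reduceMul] at b7 b21
  rw [hone] at hS21 hS7 hS3
  have c7 := mul_le_mul_of_nonneg_right (Nat.cast_le (α := ℝ).2 hN7) (orderNorm_nonneg χ 7)
  have c21 := mul_le_mul_of_nonneg_right (Nat.cast_le (α := ℝ).2 hN21) (orderNorm_nonneg χ 21)
  have hG : (0 : ℝ) ≤ Nat.card G := Nat.cast_nonneg _
  push_cast at c7 c21
  nlinarith [mul_le_mul_of_nonneg_left h3' hG]

end Cfsg.Agent.H11
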