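import Mathlib

/-!
A point stabiliser is maximal when no union of suborbits containing the point has size dividing
the length of the orbit.
-/

set_option autoImplicit false

namespace Cfsg.Agent.H11

open MulAction

variable {G X : Type*} [Group G] [MulAction G X]

/-- If the stabiliser of `x` is transitive on each class of a labelling of the orbit of `x`, and
no proper union of classes through `x` has size dividing the orbit, the stabiliser is maximal. -/
theorem isCoatom_stabilizer_of_classes [Finite G] (x : X) (r : X → ℕ) (C : Finset ℕ) (n : ℕ → ℕ)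
    (N : ℕ) (hN : (orbit G x).ncard = N) (h2 : 2 ≤ N)
    (hcover : ∀ y ∈ orbit G x, r y ∈ C)
    (hcount : ∀ c ∈ C, {y | y ∈ orbit G x ∧ r y = c}.ncard = n c)
    (hx : n (r x) = 1)
    (htrans : ∀ y ∈ orbit G x, ∀ z ∈ orbit G x, r y = r z → ∃ k ∈ stabilizer G x, k • y = z)
    (hdiv : ∀ L ∈ C.powerset, r x ∈ L → (∑ c ∈ L, n c) ∣ N → L = {r x} ∨ L = C) :
    IsCoatom (stabilizer G x) := by
  classical
  have hfin : (orbit G x).Finite := Set.finite_range _
  have hKtop : stabilizer G x ≠ ⊤ := by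
    intro h
    have : orbit G x = {x} := by
      refine Set.eq_singleton_iff_unique_mem.2 ⟨mem_orbit_self x, ?_⟩
      rintro _ ⟨g, rfl⟩
      exact (show g ∈ stabilizer G x from h ▸ Subgroup.mem_top g)
    rw [this, Set.ncard_singleton] at hN
    omega
  refine ⟨hKtop, fun H hH => ?_⟩
  let B : Set X := (fun g => g • x) '' (H : Set G)
  have hBsub : B ⊆ orbit G x := by rintro _ ⟨g, _, rfl⟩; exact ⟨g, rfl⟩
  have hxB : x ∈ B := ⟨1, H.one_mem, one_smul G x⟩
  have hclosed : ∀ y ∈ B, ∀ z ∈ orbit G x, r y = r z → z ∈ B := by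
    intro y hy z hz hr
    obtain ⟨k, hk, rfl⟩ := htrans y (hBsub hy) z hz hr
    obtain ⟨g, hg, rfl⟩ := hy
    exact ⟨k * g, H.mul_mem (hH.le hk) hg, mul_smul k g x⟩
  let L : Finset ℕ := C.filter fun c => ∃ y ∈ B, r y = c
  have hBfin : B.Finite := hfin.subset hBsub
  have hcard : B.ncard = ∑ c ∈ L, n c := by
    rw [Set.ncard_eq_toFinset_card B hBfin,
      Finset.card_eq_sum_card_fiberwise (f := r) (t := L) fun y hy =>
        Finset.mem_filter.2 ⟨hcover y (hBsub (hBfin.mem_toFinset.1 hy)), y,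
          hBfin.mem_toFinset.1 hy, rfl⟩]
    refine Finset.sum_congr rfl fun c hc => ?_
    obtain ⟨hcC, y, hy, rfl⟩ := Finset.mem_filter.1 hc
    rw [← hcount _ hcC, ← Set.ncard_coe_finset]
    congr 1
    ext z
    simp only [Finset.coe_filter, Set.mem_ofPred_eq, Set.Finite.mem_toFinset]
    exact ⟨fun h => ⟨hBsub h.1, h.2⟩, fun h => ⟨hclosed y hy z h.1 h.2.symm, h.2⟩⟩
  have horbit : B = orbit H x := by
    ext y
    constructor
    · rintro ⟨g, hg, rfl⟩; exact ⟨⟨g, hg⟩, rfl⟩
    · rintro ⟨⟨g, hg⟩, rfl⟩; exact ⟨g, hg, rfl⟩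
  have hdvd : B.ncard ∣ N := by
    rw [horbit, ← index_stabilizer, ← hN, ← index_stabilizer]
    have e : stabilizer H x = (stabilizer G x).subgroupOf H := rfl
    rw [e]
    exact Subgroup.relIndex_dvd_index_of_le hH.le
  rw [hcard] at hdvd
  rcases hdiv L (Finset.mem_powerset.2 (Finset.filter_subset _ _))
    (Finset.mem_filter.2 ⟨hcover x (mem_orbit_self x), x, hxB, rfl⟩) hdvd with h | h
  · exfalso
    apply hH.ne
    refine le_antisymm hH.le fun g hg => ?_
    have hgx : g • x ∈ B := ⟨g, hg, rfl⟩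
    rw [h, Finset.sum_singleton, hx, Set.ncard_eq_one] at hcard
    obtain ⟨a, ha⟩ := hcard
    rw [ha, Set.mem_singleton_iff] at hgx hxB
    exact hgx.trans hxB.symm
  · refine (Subgroup.eq_top_iff' H).2 fun g => ?_
    have hmem : g • x ∈ B := by
      have hr : r (g • x) ∈ L := h ▸ hcover _ ⟨g, rfl⟩
      obtain ⟨-, y, hy, hyr⟩ := Finset.mem_filter.1 hr
      exact hclosed y hy _ ⟨g, rfl⟩ hyr
    obtain ⟨k, hk, hkx⟩ := hmem
    have : k⁻¹ * g ∈ stabilizer G x := by
      rw [mem_stabilizer_iff, mul_smul, ← show k • x = g • x from hkx, inv_smul_smul]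
    simpa using H.mul_mem hk (hH.le this)

end Cfsg.Agent.H11
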