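import Cfsg.Agent.H12.Families
import Cfsg.Agent.H11.Maximal

/-!
Consequences of a certified orbit: transitivity of a stabiliser on a class.
-/

set_option autoImplicit false

namespace Cfsg.Agent.H11

open Cfsg Cfsg.Agent.H12 MulAction
open scoped Pointwise

variable {α β : Type*} [MulAction (Equiv.Perm GolayPt) α] [MulAction (Equiv.Perm GolayPt) β]
  {famA : α → Finset (Finset GolayPt)} {famB : β → Finset (Finset GolayPt)} {S : Set β} {a : α}

/-- Members of one class correspond under the stabiliser of the moved base. -/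
theorem exists_stab_map_of_class (hA : ∀ (g : Equiv.Perm GolayPt) a, famA (g • a) = g • famA a)
    (hB : ∀ (g : Equiv.Perm GolayPt) x, famB (g • x) = g • famB x)
    (hS : ∀ g ∈ M24, ∀ x ∈ S, g • x ∈ S) {cs : List ℕ}
    (horb : ∀ c ∈ cs, ∃ x n, orbit ↥(stabilizer M24 a) x = phiClass famA famB S a c ∧
      (phiClass famA famB S a c).ncard = n ∧ x ∈ S)
    (g : M24) {x y : β} (hx : x ∈ S) (hy : y ∈ S) (hc : phi (famA (g • a)) (famB x) ∈ cs)
    (h : phi (famA (g • a)) (famB x) = phi (famA (g • a)) (famB y)) :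
    ∃ k ∈ stabilizer M24 (g • a), k • x = y := by
  obtain ⟨x0, n, hx0⟩ := horb _ hc
  obtain ⟨X, -, hX, -⟩ := exists_orbit_of_smul hA hB hS hx0 g
  have h1 : x ∈ orbit ↥(stabilizer M24 (g • a)) X := hX ▸ ⟨hx, rfl⟩
  have h2 : y ∈ orbit ↥(stabilizer M24 (g • a)) X := hX ▸ ⟨hy, h.symm⟩
  obtain ⟨⟨k1, hk1⟩, rfl⟩ := h1
  obtain ⟨⟨k2, hk2⟩, rfl⟩ := h2
  exact ⟨k2 * k1⁻¹, mul_mem hk2 (inv_mem hk1), by
    change (k2 * k1⁻¹) • k1 • X = k2 • X
    rw [mul_smul, inv_smul_smul]⟩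

/-- A stabiliser is maximal when its certified classes admit no union of dividing size. -/
theorem isCoatom_of_classes (hA : ∀ (g : Equiv.Perm GolayPt) a, famA (g • a) = g • famA a)
    (hB : ∀ (g : Equiv.Perm GolayPt) x, famB (g • x) = g • famB x)
    (hS : ∀ g ∈ M24, ∀ x ∈ S, g • x ∈ S) {cs : List ℕ} {cnt : ℕ → ℕ}
    (horb : ∀ c ∈ cs, ∃ x, orbit ↥(stabilizer M24 a) x = phiClass famA famB S a c ∧
      (phiClass famA famB S a c).ncard = cnt c ∧ x ∈ S)
    (hcover : ∀ (g : M24), ∀ x ∈ S, phi (famA (g • a)) (famB x) ∈ cs)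
    (g : M24) (b : β) (hb : orbit M24 b = S) (hfix : stabilizer M24 b = stabilizer M24 (g • a))
    {N c₀ : ℕ} (hN : S.ncard = N) (h2 : 2 ≤ N) (hc₀ : phi (famA (g • a)) (famB b) = c₀)
    (hone : cnt c₀ = 1)
    (hdiv : ∀ L ∈ cs.toFinset.powerset, c₀ ∈ L → (∑ c ∈ L, cnt c) ∣ N →
      L = {c₀} ∨ L = cs.toFinset) :
    IsCoatom (stabilizer M24 b) := by
  refine isCoatom_stabilizer_of_classes b (fun x => phi (famA (g • a)) (famB x)) cs.toFinset cnt N
    (hb ▸ hN) h2 ?_ ?_ (by rw [hc₀]; exact hone) ?_ (by rw [hc₀]; exact hdiv)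
  · intro y hy
    rw [hb] at hy
    exact List.mem_toFinset.2 (hcover g y hy)
  · intro c hc
    obtain ⟨x0, hx0⟩ := horb c (List.mem_toFinset.1 hc)
    obtain ⟨X, -, -, hn⟩ := exists_orbit_of_smul hA hB hS hx0 g
    rw [← hn, hb]
    rfl
  · intro y hy z hz hr
    rw [hb] at hy hz
    rw [hfix]
    exact exists_stab_map_of_class hA hB hS
      (fun c hc => let ⟨x, hx⟩ := horb c hc; ⟨x, cnt c, hx⟩) g hy hz (hcover g y hy) hr

end Cfsg.Agent.H11
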