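import Cfsg.Agent.H11.M24Involutions

/-!
A self-centralising normal elementary abelian subgroup in the centraliser of an involution of a
subgroup of the automorphism group of the code.
-/

set_option autoImplicit false

namespace Cfsg.Agent.H11

open Cfsg Cfsg.Agent.H12
open scoped Pointwise

/-- A group normalised by a centraliser and containing its own centraliser there gives a
self-centralising normal `2`-subgroup. -/
theorem exists_selfCentralizing {H q : Subgroup (Equiv.Perm GolayPt)} (z : H) (hqH : q ≤ H)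
    (h2 : ∀ y ∈ q, y * y = 1) (hz : ∀ y ∈ q, y * (z : Equiv.Perm GolayPt) = z * y)
    (hn : ∀ x ∈ H, x * (z : Equiv.Perm GolayPt) = z * x → ∀ y ∈ q, x * y * x⁻¹ ∈ q)
    (hs : ∀ x ∈ H, (∀ y ∈ q, y * x = x * y) → x ∈ q) :
    ∃ (Q : Subgroup (Subgroup.centralizer ({z} : Set H))) (_ : Q.Normal), IsPGroup 2 Q ∧
      Subgroup.centralizer (Q : Set (Subgroup.centralizer ({z} : Set H))) ≤ Q := by
  refine ⟨(q.subgroupOf H).subgroupOf _, ⟨fun y hy x => ?_⟩, fun y => ⟨1, ?_⟩, fun x hx => ?_⟩
  · exact hn _ x.1.2 (congrArg Subtype.val (Subgroup.mem_centralizer_singleton_iff.1 x.2)) _ hy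
  · rw [pow_one, sq]
    exact Subtype.ext (Subtype.ext (Subtype.ext (h2 _ y.2)))
  · refine hs _ x.1.2 fun y hy => ?_
    have hmem : (⟨y, hqH hy⟩ : H) ∈ Subgroup.centralizer ({z} : Set H) :=
      Subgroup.mem_centralizer_singleton_iff.2 (Subtype.ext (hz y hy))
    exact congrArg (fun w : Subgroup.centralizer ({z} : Set H) => ((w : H) : Equiv.Perm GolayPt))
      (Subgroup.mem_centralizer_iff.1 hx ⟨⟨y, hqH hy⟩, hmem⟩ hy)

/-- The constrained structure for an involution fixing the points of an octad. -/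
theorem exists_selfCentralizing_octad {H : Subgroup (Equiv.Perm GolayPt)} (hle : H ≤ M24) (z : H)
    {o : Finset GolayPt} (ho : o ∈ octads)
    (hfix : ∀ p, (z : Equiv.Perm GolayPt) p = p ↔ p ∈ o) (hq : fixM24 o ≤ H) :
    ∃ (Q : Subgroup (Subgroup.centralizer ({z} : Set H))) (_ : Q.Normal), IsPGroup 2 Q ∧
      Subgroup.centralizer (Q : Set (Subgroup.centralizer ({z} : Set H))) ≤ Q := by
  have hzmem : (z : Equiv.Perm GolayPt) ∈ fixM24 o :=
    mem_fixM24.2 ⟨hle z.2, fun p hp => (hfix p).2 hp⟩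
  refine exists_selfCentralizing z hq (fun y hy => mul_self_of_mem_fixM24 ho hy)
    (fun y hy => commute_of_mem_fixM24 ho hy hzmem) (fun x hx hxz y hy => ?_)
    (fun x hx h => mem_fixM24_of_commute ho (hle hx) h)
  have hxo : x • o = o := by
    refine Finset.eq_of_subset_of_card_le (fun p hp => ?_) (Finset.card_smul_finset _ _).ge
    obtain ⟨r, hr, rfl⟩ := Finset.mem_smul_finset.1 hp
    rw [← hfix, Equiv.Perm.smul_def, ← Equiv.Perm.mul_apply, ← hxz, Equiv.Perm.mul_apply,
      (hfix r).2 hr]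
  have := conj_mem_fixM24 (hle hx) hy
  rwa [hxo] at this

/-- Every involution of the automorphism group has a constrained centraliser. -/
theorem exists_selfCentralizing_M24 (z : M24) (hz : orderOf z = 2) :
    ∃ (Q : Subgroup (Subgroup.centralizer ({z} : Set M24))) (_ : Q.Normal), IsPGroup 2 Q ∧
      Subgroup.centralizer (Q : Set (Subgroup.centralizer ({z} : Set M24))) ≤ Q := by
  have h2 : (z : Equiv.Perm GolayPt) * z = 1 := by
    have h := pow_orderOf_eq_one z
    rw [hz, sq] at h
    exact congrArg Subtype.val h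
  have h1 : (z : Equiv.Perm GolayPt) ≠ 1 := fun e => by
    rw [Subtype.ext e (a2 := (1 : M24)), orderOf_one] at hz
    norm_num at hz
  rcases involution_cases z.2 h2 h1 with ⟨o, ho, hfix⟩ | ⟨g, hg, hzg⟩
  · exact exists_selfCentralizing_octad le_rfl z ho hfix inf_le_left
  · have hmem : ∀ {y}, y ∈ sextetElemGroup.map (MulAut.conj g).toMonoidHom ↔
        SextetElem (g⁻¹ * y * g) := by
      intro y
      rw [Subgroup.mem_map]
      refine ⟨?_, fun h => ⟨_, h, ?_⟩⟩
      · rintro ⟨a, ha, rfl⟩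
        simp only [MulEquiv.coe_toMonoidHom, MulAut.conj_apply]
        rw [show g⁻¹ * (g * a * g⁻¹) * g = a by group]
        exact ha
      · simp only [MulEquiv.coe_toMonoidHom, MulAut.conj_apply]
        group
    have hzi : g⁻¹ * (z : Equiv.Perm GolayPt) * g = permOf invFree := by rw [hzg]; group
    refine exists_selfCentralizing (q := sextetElemGroup.map (MulAut.conj g).toMonoidHom) z
      (fun y hy => ?_) (fun y hy => ?_) (fun y hy => ?_) (fun x hx hxz y hy => ?_)
      (fun x hx h => hmem.2 (sextetElem_of_commute (mul_mem (mul_mem (inv_mem hg) hx) hg)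
        fun a ha => ?_))
    · obtain ⟨a, ha, rfl⟩ := Subgroup.mem_map.1 hy
      exact mul_mem (mul_mem hg ha.1) (inv_mem hg)
    · have := (hmem.1 hy).2.2
      calc y * y = g * (g⁻¹ * y * g * (g⁻¹ * y * g)) * g⁻¹ := by group
        _ = 1 := by rw [this]; group
    · have := sextetElem_commute (hmem.1 hy) invFree_sextetElem
      rw [← hzi] at this
      calc y * (z : Equiv.Perm GolayPt)
          = g * (g⁻¹ * y * g * (g⁻¹ * (z : Equiv.Perm GolayPt) * g)) * g⁻¹ := by group
        _ = g * (g⁻¹ * (z : Equiv.Perm GolayPt) * g * (g⁻¹ * y * g)) * g⁻¹ := by rw [this]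
        _ = z * y := by group
    · refine hmem.2 ?_
      rw [show g⁻¹ * (x * y * x⁻¹) * g =
        (g⁻¹ * x * g) * (g⁻¹ * y * g) * (g⁻¹ * x * g)⁻¹ by group]
      refine sextetElem_conj (mul_mem (mul_mem (inv_mem hg) hx) hg) ?_ (hmem.1 hy)
      rw [← hzi]
      calc g⁻¹ * x * g * (g⁻¹ * (z : Equiv.Perm GolayPt) * g)
          = g⁻¹ * (x * z) * g := by group
        _ = g⁻¹ * (z * x) * g := by rw [hxz]
        _ = g⁻¹ * (z : Equiv.Perm GolayPt) * g * (g⁻¹ * x * g) := by group
    · have hy := h (g * a * g⁻¹) (hmem.2 (by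
        rw [show g⁻¹ * (g * a * g⁻¹) * g = a by group]; exact ha))
      calc a * (g⁻¹ * x * g) = g⁻¹ * (g * a * g⁻¹ * x) * g := by group
        _ = g⁻¹ * (x * (g * a * g⁻¹)) * g := by rw [hy]
        _ = g⁻¹ * x * g * a := by group

end Cfsg.Agent.H11
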