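import Cfsg.Agent.H12.Families

/-!
Image check for dodecads in the orbit engine.
-/

set_option autoImplicit false

namespace Cfsg.Agent.H11

open Cfsg.Agent.H12
open scoped Pointwise

/-- The `i`th dodecad as a one-element family. -/
noncomputable def dodList1 (i : ℕ) : List ℕ := [dodMask i]

/-- Image check for dodecads. -/
noncomputable def dodImg (T : List ℕ) (i j : ℕ) : Bool :=
  Nat.beq (imgFast T (dodMask i)) (dodMask j)

/-- The one-element families of dodecads. -/
theorem dodList1_spec (i : ℕ) : ({dodSet i} : Finset (Finset GolayPt)) = fins (dodList1 i) ∧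
    (fins (dodList1 i)).card = (dodList1 i).length := by
  simp [dodList1, fins, dodSet]

/-- The image check is correct. -/
theorem dodImg_spec {x : ℕ × List ℕ} (h : genOK x = true) {i j : ℕ} (hi : i < 2576)
    (hc : dodImg x.2 i j = true) : permOf x.1 • dodSet i = dodSet j := by
  rw [dodImg, Nat.beq_eq] at hc
  rw [dodSet, smul_fin_fast h (dodMask_lt hi), hc]
  rfl

end Cfsg.Agent.H11
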