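import Cfsg.Agent.H11.OrbOct
import Cfsg.Agent.H11.Classes
import Cfsg.Agent.H11.OctadStab

/-!
The orbits of an octad stabiliser on octads, and its maximality.
-/

set_option autoImplicit false

namespace Cfsg.Agent.H11

open Cfsg Cfsg.Agent.H12 MulAction
open scoped Pointwise

/-- Singletons commute with the action. -/
theorem singleton_smul (g : Equiv.Perm GolayPt) (o : Finset GolayPt) :
    ({g • o} : Finset (Finset GolayPt)) = g • {o} := by simp

/-- The family of a single set and the product of the sizes. -/
theorem phi_singleton (o o' : Finset GolayPt) :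
    phi ({o} : Finset (Finset GolayPt)) {o'} = (o ∩ o').card ^ 2 := by simp [phi]

/-- The generators fix the first octad. -/
theorem octGens_fix : ∀ x ∈ octGens, genOK x = true ∧ permOf x.1 • fin octad0 = fin octad0 := by
  have h : (octGens.all fun x => genOK x && imgMask x.1 octad0 == octad0) = true := by
    decide +kernel
  intro x hx
  have := List.all_eq_true.1 h x hx
  simp only [Bool.and_eq_true, beq_iff_eq] at this
  exact ⟨this.1, by rw [smul_fin (genOK_spec this.1).1, this.2]⟩

/-- The class sizes of octads relative to an octad. -/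
def octCount : ℕ → ℕ := fun c => if c = 0 then 30 else if c = 4 then 448 else if c = 16 then 280 else 1

/-- Each class of octads is one orbit. -/
theorem oct_orbit : ∀ c ∈ [0, 4, 16, 64], ∃ x,
    orbit ↥(stabilizer M24 (fin octad0)) x =
      phiClass (fun o => ({o} : Finset (Finset GolayPt))) (fun o => {o}) octads (fin octad0) c ∧
    (phiClass (fun o => ({o} : Finset (Finset GolayPt))) (fun o => {o}) octads (fin octad0) c).ncard
      = octCount c ∧ x ∈ octads := by
  have key : ∀ {c r n l : ℕ} {t : List ℕ},
      classCheck 759 octList1 octImg octGens [5279] c r n l t = true →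
      orbit ↥(stabilizer M24 (fin octad0)) (octSet r) =
        phiClass (fun o => ({o} : Finset (Finset GolayPt))) (fun o => {o}) octads (fin octad0) c ∧
      (phiClass (fun o => ({o} : Finset (Finset GolayPt))) (fun o => {o}) octads (fin octad0)
        c).ncard = n ∧ octSet r ∈ octads := fun h =>
    orbit_eq_phiClass singleton_smul singleton_smul (fun g hg _ ho => H11.smul_mem_octads hg ho)
      H12.octads_eq (by decide) octSet_injOn (fun i _ => octList1_spec i)
      (LA := [5279]) ⟨by simp [fins, octad0], by simp [fins]⟩ octGens_fix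
      (fun x hx i hi _ _ hc => octImg_spec hx hi hc) h
  intro c hc
  simp only [List.mem_cons, List.not_mem_nil, or_false] at hc
  rcases hc with rfl | rfl | rfl | rfl
  exacts [⟨_, key octClass0⟩, ⟨_, key octClass4⟩, ⟨_, key octClass16⟩, ⟨_, key octClass64⟩]

/-- The classes cover the octads. -/
theorem oct_cover (g : M24) (x : Finset GolayPt) (hx : x ∈ octads) :
    phi ({g • fin octad0} : Finset (Finset GolayPt)) {x} ∈ [0, 4, 16, 64] :=
  phi_mem_of_cover (famA := fun o : Finset GolayPt => ({o} : Finset (Finset GolayPt)))
    (famB := fun o : Finset GolayPt => ({o} : Finset (Finset GolayPt)))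
    (LA := [5279]) singleton_smul singleton_smul (fun g hg _ ho => H11.smul_mem_octads hg ho)
    H12.octads_eq (fun i _ => octList1_spec i)
    ⟨by simp [fins, octad0], by simp [fins]⟩ octCover g hx

/-- Two octads meeting a fixed one equally lie in one orbit of its stabiliser. -/
theorem octad_stab_transitive {o o' o'' : Finset GolayPt} (ho : o ∈ octads) (ho' : o' ∈ octads)
    (ho'' : o'' ∈ octads) (h : (o ∩ o').card = (o ∩ o'').card) :
    ∃ g ∈ M24, g • o = o ∧ g • o' = o'' := by
  obtain ⟨g, hg, rfl⟩ := exists_smul_octad0 ho
  obtain ⟨k, hk, hkx⟩ := exists_stab_map_of_class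
    (famA := fun o : Finset GolayPt => ({o} : Finset (Finset GolayPt)))
    (famB := fun o : Finset GolayPt => ({o} : Finset (Finset GolayPt)))
    singleton_smul singleton_smul (fun g hg _ ho => H11.smul_mem_octads hg ho) (cs := [0, 4, 16, 64])
    (fun c hc => let ⟨x, hx⟩ := oct_orbit c hc; ⟨x, _, hx⟩) ⟨g, hg⟩ ho' ho''
    (oct_cover ⟨g, hg⟩ o' ho')
    (by simp only [phi_singleton]; exact congrArg (· ^ 2) h)
  exact ⟨k, k.2, hk, hkx⟩

/-- The stabiliser of an octad is maximal. -/
theorem isCoatom_octad {o : Finset GolayPt} (ho : o ∈ octads) : IsCoatom (stabilizer M24 o) := by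
  obtain ⟨g, hg, rfl⟩ := exists_smul_octad0 ho
  refine isCoatom_of_classes (famA := fun o : Finset GolayPt => ({o} : Finset (Finset GolayPt)))
    (famB := fun o : Finset GolayPt => ({o} : Finset (Finset GolayPt)))
    singleton_smul singleton_smul (fun g hg _ ho => H11.smul_mem_octads hg ho) oct_orbit oct_cover
    ⟨g, hg⟩ _ (orbit_octad ho) rfl card_octads_eq (by decide) (c₀ := 64) ?_ rfl (by decide +kernel)
  change phi ({g • fin octad0} : Finset (Finset GolayPt)) {g • fin octad0} = 64
  rw [phi_singleton, Finset.inter_self, (H11.smul_mem_octads hg fin_octad0_mem).2]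
  rfl

end Cfsg.Agent.H11
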