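import Cfsg.Agent.H11.OrbDod
import Cfsg.Agent.H11.OrbPair
import Cfsg.Agent.H11.OctadOrbits
import Cfsg.Agent.H11.DodecadList

/-!
The orbits of the stabiliser of a dodecad on dodecads, and the maximality of the stabiliser of a
pair of complementary dodecads.
-/

set_option autoImplicit false

namespace Cfsg.Agent.H11

open Cfsg Cfsg.Agent.H12 MulAction
open scoped Pointwise

/-- The generators fix the first dodecad. -/
theorem dodGens_fix : ∀ x ∈ dodGens,
    genOK x = true ∧ permOf x.1 • fin dodecad0 = fin dodecad0 := by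
  have h : (dodGens.all fun x => genOK x && imgMask x.1 dodecad0 == dodecad0) = true := by
    decide +kernel
  intro x hx
  have := List.all_eq_true.1 h x hx
  simp only [Bool.and_eq_true, beq_iff_eq] at this
  exact ⟨this.1, by rw [smul_fin (genOK_spec this.1).1, this.2]⟩

/-- The class sizes of dodecads relative to a dodecad. -/
def dodCount : ℕ → ℕ := fun c => if c = 36 then 1584 else if c = 16 ∨ c = 64 then 495 else 1

/-- Each class of dodecads is one orbit. -/
theorem dod_orbit : ∀ c ∈ [0, 16, 36, 64, 144], ∃ x,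
    orbit ↥(stabilizer M24 (fin dodecad0)) x =
      phiClass (fun o => ({o} : Finset (Finset GolayPt))) (fun o => {o}) dodecads (fin dodecad0) c ∧
    (phiClass (fun o => ({o} : Finset (Finset GolayPt))) (fun o => {o}) dodecads (fin dodecad0)
      c).ncard = dodCount c ∧ x ∈ dodecads := by
  have key : ∀ {c r n l : ℕ} {t : List ℕ},
      classCheck 2576 dodList1 dodImg dodGens [165759] c r n l t = true →
      orbit ↥(stabilizer M24 (fin dodecad0)) (dodSet r) =
        phiClass (fun o => ({o} : Finset (Finset GolayPt))) (fun o => {o}) dodecads (fin dodecad0)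
          c ∧
      (phiClass (fun o => ({o} : Finset (Finset GolayPt))) (fun o => {o}) dodecads (fin dodecad0)
        c).ncard = n ∧ dodSet r ∈ dodecads := fun h =>
    orbit_eq_phiClass singleton_smul singleton_smul (fun g hg _ ho => H11.smul_mem_dodecads hg ho)
      H12.dodecads_eq (by decide) dodSet_injOn (fun i _ => dodList1_spec i)
      (LA := [165759]) ⟨by simp [fins, dodecad0], by simp [fins]⟩ dodGens_fix
      (fun x hx i hi _ _ hc => dodImg_spec hx hi hc) h
  intro c hc
  simp only [List.mem_cons, List.not_mem_nil, or_false] at hc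
  rcases hc with rfl | rfl | rfl | rfl | rfl
  exacts [⟨_, key dodClass0⟩, ⟨_, key dodClass16⟩, ⟨_, key dodClass36⟩, ⟨_, key dodClass64⟩,
    ⟨_, key dodClass144⟩]

/-- The classes cover the dodecads. -/
theorem dod_cover (g : M24) (x : Finset GolayPt) (hx : x ∈ dodecads) :
    phi ({g • fin dodecad0} : Finset (Finset GolayPt)) {x} ∈ [0, 16, 36, 64, 144] :=
  phi_mem_of_cover (famA := fun o : Finset GolayPt => ({o} : Finset (Finset GolayPt)))
    (famB := fun o : Finset GolayPt => ({o} : Finset (Finset GolayPt)))
    (LA := [165759]) singleton_smul singleton_smul (fun g hg _ ho => H11.smul_mem_dodecads hg ho)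
    H12.dodecads_eq (fun i _ => dodList1_spec i)
    ⟨by simp [fins, dodecad0], by simp [fins]⟩ dodCover g hx

/-- Two dodecads meeting a fixed one equally lie in one orbit of its stabiliser. -/
theorem dodecad_stab_transitive {d d' d'' : Finset GolayPt} (hd : d ∈ dodecads)
    (hd' : d' ∈ dodecads) (hd'' : d'' ∈ dodecads) (h : (d ∩ d').card = (d ∩ d'').card) :
    ∃ g ∈ M24, g • d = d ∧ g • d' = d'' := by
  obtain ⟨g, hg, rfl⟩ := exists_smul_dodecad0 hd
  obtain ⟨k, hk, hkx⟩ := exists_stab_map_of_class
    (famA := fun o : Finset GolayPt => ({o} : Finset (Finset GolayPt)))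
    (famB := fun o : Finset GolayPt => ({o} : Finset (Finset GolayPt)))
    singleton_smul singleton_smul (fun g hg _ ho => H11.smul_mem_dodecads hg ho)
    (cs := [0, 16, 36, 64, 144])
    (fun c hc => let ⟨x, hx⟩ := dod_orbit c hc; ⟨x, _, hx⟩) ⟨g, hg⟩ hd' hd''
    (dod_cover ⟨g, hg⟩ d' hd') (by simp only [phi_singleton]; exact congrArg (· ^ 2) h)
  exact ⟨k, k.2, hk, hkx⟩

/-- The intersection numbers of dodecads with a dodecad. -/
theorem dodecad_meet_counts {d : Finset GolayPt} (hd : d ∈ dodecads) :
    (∀ d' ∈ dodecads, d' ≠ d → (d ∩ d').card = 0 ∨ (d ∩ d').card = 4 ∨ (d ∩ d').card = 6 ∨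
      (d ∩ d').card = 8) ∧
    {d' : Finset GolayPt | d' ∈ dodecads ∧ (d ∩ d').card = 4}.ncard = 495 ∧
    {d' : Finset GolayPt | d' ∈ dodecads ∧ (d ∩ d').card = 6}.ncard = 1584 ∧
    {d' : Finset GolayPt | d' ∈ dodecads ∧ (d ∩ d').card = 8}.ncard = 495 := by
  obtain ⟨g, hg, rfl⟩ := exists_smul_dodecad0 hd
  have cnt : ∀ k ∈ [4, 6, 8], {d' : Finset GolayPt |
      d' ∈ dodecads ∧ (g • fin dodecad0 ∩ d').card = k}.ncard = dodCount (k ^ 2) := by
    intro k hk
    obtain ⟨x, hx⟩ := dod_orbit (k ^ 2) (by
      simp only [List.mem_cons, List.not_mem_nil, or_false] at hk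
      rcases hk with rfl | rfl | rfl <;> simp)
    obtain ⟨X, -, -, hn⟩ := exists_orbit_of_smul
      (famA := fun o : Finset GolayPt => ({o} : Finset (Finset GolayPt)))
      (famB := fun o : Finset GolayPt => ({o} : Finset (Finset GolayPt))) (S := dodecads)
      singleton_smul singleton_smul (fun g hg _ ho => H11.smul_mem_dodecads hg ho) hx ⟨g, hg⟩
    refine Eq.trans (congrArg Set.ncard (Set.ext fun d' => ?_)) hn
    simp only [phiClass, Set.mem_ofPred_eq, phi_singleton]
    exact and_congr_right fun _ => (Nat.pow_left_injective (by decide : (2 : ℕ) ≠ 0)).eq_iff.symm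
  refine ⟨fun d' hd' hne => ?_, cnt 4 (by simp), cnt 6 (by simp), cnt 8 (by simp)⟩
  have h := dod_cover ⟨g, hg⟩ d' hd'
  change phi ({g • fin dodecad0} : Finset (Finset GolayPt)) {d'} ∈ _ at h
  rw [phi_singleton] at h
  have hle := Finset.card_le_card (Finset.inter_subset_left (s₁ := g • fin dodecad0) (s₂ := d'))
  rw [hd.2] at hle
  have hne12 : (g • fin dodecad0 ∩ d').card ≠ 12 := fun h12 => hne (by
    have h1 := Finset.eq_of_subset_of_card_le (Finset.inter_subset_left (s₁ := g • fin dodecad0)
      (s₂ := d')) (by rw [h12, hd.2])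
    have h2 := Finset.eq_of_subset_of_card_le (Finset.inter_subset_right (s₁ := g • fin dodecad0)
      (s₂ := d')) (by rw [h12, hd'.2])
    exact h2.symm.trans h1)
  generalize (g • fin dodecad0 ∩ d').card = k at h hle hne12
  interval_cases k <;> simp_all

/-- A dodecad with its complement. -/
def dodPair (d : Finset GolayPt) : Finset (Finset GolayPt) := {d, dᶜ}

/-- Pairs commute with the action. -/
theorem dodPair_smul (g : Equiv.Perm GolayPt) (d : Finset GolayPt) :
    dodPair (g • d) = g • dodPair d := by
  have h : g • dᶜ = (g • d)ᶜ := by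
    ext p
    rw [← Finset.inv_smul_mem_iff, Finset.mem_compl, Finset.mem_compl,
      ← Finset.inv_smul_mem_iff]
  simp [dodPair, Finset.smul_finset_insert, h]

/-- The pair of a mask, as a family of masks. -/
theorem dodPair_fin {m : ℕ} (hm : m < 2 ^ 24) :
    dodPair (fin m) = fins [m, Nat.xor allMask m] ∧
      (fins [m, Nat.xor allMask m]).card = [m, Nat.xor allMask m].length := by
  have h : fin (Nat.xor allMask m) = (fin m)ᶜ := by
    rw [Finset.compl_eq_univ_sdiff]
    exact fin_allMask_xor m
  constructor
  · simp only [dodPair, fins, List.map_cons, List.map_nil, h]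
    simp
  · simp only [fins, List.map_cons, List.map_nil, h]
    rw [List.toFinset_card_of_nodup]
    · rfl
    · simp only [List.nodup_cons, List.mem_singleton, List.not_mem_nil, not_false_eq_true,
        List.nodup_nil, and_true]
      intro e
      have h1 : pt 0 ∈ fin m ↔ pt 0 ∉ fin m := by
        conv_lhs => rw [e]
        exact Finset.mem_compl
      tauto

/-- The generators fix the first pair. -/
theorem pairGens_fix : ∀ x ∈ pairGens,
    genOK x = true ∧ permOf x.1 • fins [165759, 16611456] = fins [165759, 16611456] := by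
  have h : (pairGens.all fun x => genOK x &&
      (([165759, 16611456].map (imgMask x.1)).all fun m => [165759, 16611456].contains m) &&
      ([165759, 16611456].all fun m => ([165759, 16611456].map (imgMask x.1)).contains m))
      = true := by
    decide +kernel
  intro x hx
  have := List.all_eq_true.1 h x hx
  simp only [Bool.and_eq_true, List.all_eq_true, List.contains_iff_mem] at this
  refine ⟨this.1.1, ?_⟩
  rw [smul_fins (genOK_spec this.1.1).1]
  exact fins_eq_of_subset this.1.2 this.2

/-- The first pair. -/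
theorem dodPair_dodecad0 : dodPair (fin dodecad0) = fins [165759, 16611456] := by
  rw [(dodPair_fin (m := dodecad0) (by decide +kernel)).1]
  rfl

/-- Each class of dodecads relative to a pair is one orbit of its stabiliser. -/
theorem pair_orbit : ∀ c ∈ [144, 160, 288], ∃ x n,
    orbit ↥(stabilizer M24 (fins [165759, 16611456])) x =
      phiClass id dodPair dodecads (fins [165759, 16611456]) c ∧
    (phiClass id dodPair dodecads (fins [165759, 16611456]) c).ncard = n ∧ x ∈ dodecads := by
  have key : ∀ {c r n l : ℕ} {t : List ℕ},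
      classCheck 2576 dodPairList dodImg pairGens [165759, 16611456] c r n l t = true →
      orbit ↥(stabilizer M24 (fins [165759, 16611456])) (dodSet r) =
        phiClass id dodPair dodecads (fins [165759, 16611456]) c ∧
      (phiClass id dodPair dodecads (fins [165759, 16611456]) c).ncard = n ∧
        dodSet r ∈ dodecads := fun h =>
    orbit_eq_phiClass (famA := id) (famB := dodPair) (fun _ _ => rfl) dodPair_smul
      (fun g hg _ ho => H11.smul_mem_dodecads hg ho) H12.dodecads_eq (by decide) dodSet_injOn
      (fun i hi => dodPair_fin (dodMask_lt hi))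
      (LA := [165759, 16611456]) ⟨rfl, (dodPair_fin (m := 165759) (by decide)).2⟩
      pairGens_fix (fun x hx i hi _ _ hc => dodImg_spec hx hi hc) h
  intro c hc
  simp only [List.mem_cons, List.not_mem_nil, or_false] at hc
  rcases hc with rfl | rfl | rfl
  exacts [⟨_, _, key pairClass144⟩, ⟨_, _, key pairClass160⟩, ⟨_, _, key pairClass288⟩]

/-- The stabiliser of a pair of complementary dodecads is maximal. -/
theorem isCoatom_dodecad_pair {d : Finset GolayPt} (hd : d ∈ dodecads) :
    IsCoatom (stabilizer M24 (dodPair d)) := by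
  obtain ⟨g, hg, rfl⟩ := exists_smul_dodecad0 hd
  rw [dodPair_smul, dodPair_dodecad0]
  set A := fins [165759, 16611456] with hA
  have hlist : ∀ m ∈ dodecadList, m < 2 ^ 24 := fun m hm => codeMasks_lt
    (List.mem_filter.1 (dodecadMasks_eq.symm ▸ hm : m ∈ dodecadMasks)).1
  let L := dodecadList.filter fun m => (m &&& 1) == 1
  have horb : orbit M24 (g • A) = dodPair '' dodecads := by
    ext Y
    constructor
    · rintro ⟨k, rfl⟩
      refine ⟨((k : Equiv.Perm GolayPt) * g) • fin dodecad0,
        H11.smul_mem_dodecads (mul_mem k.2 hg) (mem_dodecads_iff.2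
          ⟨dodecad0, List.mem_filter.2 ⟨inCode_iff.1 (by decide +kernel), by decide +kernel⟩,
            rfl⟩), ?_⟩
      rw [dodPair_smul, dodPair_dodecad0, mul_smul]
      rfl
    · rintro ⟨d', hd', rfl⟩
      obtain ⟨k, hk, rfl⟩ := exists_smul_dodecad0 hd'
      refine ⟨⟨k * g⁻¹, mul_mem hk (inv_mem hg)⟩, ?_⟩
      rw [dodPair_smul, dodPair_dodecad0]
      change (k * g⁻¹) • g • A = k • A
      rw [mul_smul, inv_smul_smul]
  have himg : dodPair '' dodecads =
      (((L.map fun m => dodPair (fin m)).toFinset : Finset _) : Set (Finset (Finset GolayPt))) := by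
    ext Y
    simp only [L, Set.mem_image, List.coe_toFinset, Set.mem_ofPred_eq, List.mem_map,
      List.mem_filter, beq_iff_eq]
    constructor
    · rintro ⟨d', hd', rfl⟩
      obtain ⟨m, hm, rfl⟩ := mem_dodecads_iff.1 hd'
      rw [dodecadMasks_eq] at hm
      by_cases h1 : m &&& 1 = 1
      · exact ⟨m, ⟨hm, h1⟩, rfl⟩
      · have hd2 : fin (allMask ^^^ m) ∈ dodecads := by
          refine ⟨?_, ?_⟩
          · exact mem_supports_iff.2 ⟨_, xor_mem_spanMasks _ (inCode_iff.1 (by decide +kernel))
              (List.mem_filter.1 (dodecadMasks_eq.symm ▸ hm : m ∈ dodecadMasks)).1, rfl⟩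
          · rw [fin_allMask_xor, ← Finset.compl_eq_univ_sdiff, Finset.card_compl, hd'.2]
            decide
        obtain ⟨m', hm', he⟩ := mem_dodecads_iff.1 hd2
        rw [dodecadMasks_eq] at hm'
        have hm'' : m' = allMask ^^^ m :=
          fin_inj (hlist _ hm') (Nat.xor_lt_two_pow (by decide) (hlist _ hm)) he
        refine ⟨m', ⟨hm', ?_⟩, ?_⟩
        · rw [hm'', Nat.and_xor_distrib_right]
          rcases (by rw [Nat.and_one_is_mod]; exact Nat.mod_two_eq_zero_or_one m :
            m &&& 1 = 0 ∨ m &&& 1 = 1) with h | h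
          · rw [h]; decide
          · exact absurd h h1
        · rw [he, fin_allMask_xor, ← Finset.compl_eq_univ_sdiff]
          simp [dodPair, Finset.pair_comm]
    · rintro ⟨m, ⟨hm, -⟩, rfl⟩
      exact ⟨fin m, mem_dodecads_iff.2 ⟨m, dodecadMasks_eq.symm ▸ hm, rfl⟩, rfl⟩
  have hnd : (L.map fun m => dodPair (fin m)).Nodup := by
    refine List.Nodup.map_on ?_ ?_
    · intro x hx y hy e
      simp only [L, List.mem_filter, beq_iff_eq] at hx hy
      have hx1 : fin x ∈ dodPair (fin y) := e ▸ Finset.mem_insert_self _ _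
      have hb : ∀ m, m &&& 1 = 1 → pt 0 ∈ fin m := fun m h => by
        rw [pt_mem_fin (by decide), Nat.testBit_zero, ← Nat.and_one_is_mod]
        simp [h]
      simp only [dodPair, Finset.mem_insert, Finset.mem_singleton] at hx1
      rcases hx1 with h | h
      · exact fin_inj (hlist x hx.1) (hlist y hy.1) h
      · exact absurd (hb y hy.2) (Finset.mem_compl.1 (h ▸ hb x hx.2))
    · refine List.Nodup.filter _ ?_
      have h : (dodecads.ncard) = 2576 := H12.dodecads_eq ▸ by
        rw [dodSet_injOn.ncard_image, ← Nat.card_coe_set_eq]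
        simp
      have e : dodecads = ((dodecadList.map fin).toFinset : Set (Finset GolayPt)) := by
        ext s
        simp [mem_dodecads_iff, dodecadMasks_eq]
      rw [e, Set.ncard_coe_finset, List.card_toFinset] at h
      refine List.Nodup.of_map fin (List.dedup_eq_self.1 ((List.dedup_sublist _).eq_of_length ?_))
      rw [h, List.length_map]
      decide +kernel
  have hphi : ∀ m ∈ dodecadList, phi (g • A) (g • dodPair (fin m)) =
      phiList [165759, 16611456] [m, Nat.xor allMask m] := by
    intro m hm
    rw [phi_smul, (dodPair_fin (hlist m hm)).1, hA]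
    exact phi_fins (dodPair_fin (m := 165759) (by decide)).2 (dodPair_fin (hlist m hm)).2
  have hcs : ∀ d' ∈ dodecads, phi (g • A) (dodPair d') ∈ [144, 160, 288] := fun d' hd' =>
    phi_mem_of_cover (famA := id) (famB := dodPair) (fun _ _ => rfl) dodPair_smul
      (fun g hg _ ho => H11.smul_mem_dodecads hg ho) H12.dodecads_eq
      (fun i hi => dodPair_fin (dodMask_lt hi))
      (LA := [165759, 16611456]) ⟨hA, (dodPair_fin (m := 165759) (by decide)).2⟩
      pairCover ⟨g, hg⟩ hd'
  have hgA : g • A ∈ dodPair '' dodecads := horb ▸ mem_orbit_self _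
  have hsmul : ∀ Y ∈ dodPair '' dodecads, g • Y ∈ dodPair '' dodecads := by
    rintro _ ⟨d', hd', rfl⟩
    exact ⟨g • d', H11.smul_mem_dodecads hg hd', dodPair_smul g d'⟩
  refine isCoatom_stabilizer_of_classes (g • A) (fun Y => phi (g • A) Y) {144, 160, 288}
    (fun c => if c = 288 then 1 else if c = 160 then 495 else 792) 1288 ?_ (by decide) ?_ ?_ ?_ ?_ ?_
  · rw [horb, himg, Set.ncard_coe_finset, List.toFinset_card_of_nodup hnd, List.length_map]
    decide +kernel
  · rw [horb]
    rintro _ ⟨d', hd', rfl⟩
    simpa using hcs d' hd'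
  · intro c hc
    have e : {Y | Y ∈ orbit M24 (g • A) ∧ phi (g • A) Y = c} = (fun Y => g • Y) ''
        (((L.filter fun m => phiList [165759, 16611456] [m, Nat.xor allMask m] == c).map
          fun m => dodPair (fin m)).toFinset : Set (Finset (Finset GolayPt))) := by
      ext Y
      rw [horb]
      simp only [Set.mem_ofPred_eq, Set.mem_image, List.coe_toFinset, List.mem_map,
        List.mem_filter, beq_iff_eq]
      constructor
      · rintro ⟨⟨d', hd', rfl⟩, hY⟩
        have h1 : dodPair (g⁻¹ • d') ∈ dodPair '' dodecads :=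
          ⟨_, H11.smul_mem_dodecads (inv_mem hg) hd', rfl⟩
        rw [himg] at h1
        simp only [List.coe_toFinset, Set.mem_ofPred_eq, List.mem_map] at h1
        obtain ⟨m, hm, hme⟩ := h1
        have hme' : g • dodPair (fin m) = dodPair d' := by
          rw [hme, dodPair_smul, smul_inv_smul]
        refine ⟨dodPair (fin m), ⟨m, ⟨hm, ?_⟩, rfl⟩, hme'⟩
        rw [← hphi m (List.mem_filter.1 hm).1, hme', hY]
      · rintro ⟨_, ⟨m, ⟨hm, hmc⟩, rfl⟩, rfl⟩
        refine ⟨hsmul _ ?_, by rw [hphi m (List.mem_filter.1 hm).1, hmc]⟩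
        rw [himg]
        simp only [List.coe_toFinset, Set.mem_ofPred_eq, List.mem_map]
        exact ⟨m, hm, rfl⟩
    rw [e, Set.ncard_image_of_injective _ (MulAction.injective g), Set.ncard_coe_finset,
      List.toFinset_card_of_nodup ((List.filter_sublist.map _).nodup hnd), List.length_map]
    simp only [Finset.mem_insert, Finset.mem_singleton] at hc
    rcases hc with rfl | rfl | rfl <;> decide +kernel
  · have hself : phi A A = phiList [165759, 16611456] [165759, 16611456] := by
      rw [hA]
      exact phi_fins (dodPair_fin (m := 165759) (by decide)).2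
        (dodPair_fin (m := 165759) (by decide)).2
    simp only [phi_smul, hself]
    decide +kernel
  · rw [horb]
    rintro _ ⟨y, hy, rfl⟩ _ ⟨z, hz, rfl⟩ hr
    obtain ⟨k, hk, hkx⟩ := exists_stab_map_of_class (famA := id) (famB := dodPair)
      (fun _ _ => rfl) dodPair_smul (fun g hg _ ho => H11.smul_mem_dodecads hg ho)
      (cs := [144, 160, 288]) pair_orbit ⟨g, hg⟩ hy hz (hcs y hy) hr
    exact ⟨k, hk, by rw [← hkx]; exact (dodPair_smul _ y).symm⟩
  · have hself : phi A A = phiList [165759, 16611456] [165759, 16611456] := by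
      rw [hA]
      exact phi_fins (dodPair_fin (m := 165759) (by decide)).2
        (dodPair_fin (m := 165759) (by decide)).2
    simp only [phi_smul, hself]
    decide +kernel

end Cfsg.Agent.H11
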