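import Cfsg.Agent.H11.M24Chain
import Cfsg.Agent.H12.Families

/-!
Actions of stabilisers on the members of a family of point sets, and transport of their properties.
-/

set_option autoImplicit false

namespace Cfsg.Agent.H11

open Cfsg Cfsg.Agent.H12 MulAction
open scoped Pointwise

/-- A stabiliser permutes the members of the stabilised family. -/
theorem smul_mem_iff_of_mem_stabilizer {S : Finset (Finset GolayPt)} (g : stabilizer M24 S)
    (t : Finset GolayPt) : (g : Equiv.Perm GolayPt) • t ∈ S ↔ t ∈ S := by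
  have h : (g : Equiv.Perm GolayPt) • S = S := g.2
  have h2 := Finset.smul_mem_smul_finset_iff (s := S) (b := t) (g : Equiv.Perm GolayPt)
  rw [h] at h2
  exact h2

/-- The action of a stabiliser on the members of the family. -/
def familyHom (S : Finset (Finset GolayPt)) : stabilizer M24 S →* Equiv.Perm ↥S where
  toFun g := (MulAction.toPerm (g : Equiv.Perm GolayPt)).subtypePerm
    (fun t => smul_mem_iff_of_mem_stabilizer g t)
  map_one' := Equiv.ext fun t => Subtype.ext (one_smul (Equiv.Perm GolayPt) (t : Finset GolayPt))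
  map_mul' g h := Equiv.ext fun t => Subtype.ext
    (mul_smul (g : Equiv.Perm GolayPt) (h : Equiv.Perm GolayPt) (t : Finset GolayPt))

/-- Evaluation of the action on members. -/
theorem familyHom_apply {S : Finset (Finset GolayPt)} (g : stabilizer M24 S) (t : ↥S) :
    ((familyHom S g t : ↥S) : Finset GolayPt) =
      (g : Equiv.Perm GolayPt) • (t : Finset GolayPt) := rfl

/-- The kernel fixes every member. -/
theorem mem_ker_familyHom {S : Finset (Finset GolayPt)} {g : stabilizer M24 S} :
    g ∈ (familyHom S).ker ↔ ∀ t ∈ S, (g : Equiv.Perm GolayPt) • t = t := by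
  rw [MonoidHom.mem_ker]
  constructor
  · intro h t ht
    exact congrArg Subtype.val (Equiv.congr_fun h ⟨t, ht⟩)
  · intro h
    exact Equiv.ext fun t => Subtype.ext (h t t.2)

/-- The action is surjective when every exchange of two members is induced. -/
theorem familyHom_range_eq_top {S : Finset (Finset GolayPt)}
    (h : ∀ a ∈ S, ∀ b ∈ S, a ≠ b → ∃ g ∈ stabilizer M24 S, (g : Equiv.Perm GolayPt) • a = b ∧
      (g : Equiv.Perm GolayPt) • b = a ∧
      ∀ c ∈ S, c ≠ a → c ≠ b → (g : Equiv.Perm GolayPt) • c = c) :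
    (familyHom S).range = ⊤ := by
  rw [eq_top_iff, ← Equiv.Perm.closure_isSwap, Subgroup.closure_le]
  rintro _ ⟨a, b, hab, rfl⟩
  obtain ⟨g, hg, ha, hb, hc⟩ := h a a.2 b b.2 fun e => hab (Subtype.ext e)
  refine ⟨⟨g, hg⟩, Equiv.ext fun t => Subtype.ext ?_⟩
  rw [familyHom_apply]
  change (g : Equiv.Perm GolayPt) • (t : Finset GolayPt) = _
  rcases eq_or_ne t a with rfl | h1
  · rw [ha, Equiv.swap_apply_left]
  · rcases eq_or_ne t b with rfl | h2
    · rw [hb, Equiv.swap_apply_right]
    · rw [hc t t.2 (fun e => h1 (Subtype.ext e)) (fun e => h2 (Subtype.ext e)),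
        Equiv.swap_apply_of_ne_of_ne h1 h2]

/-- The exchanges transport to an image family. -/
theorem swaps_smul {S : Finset (Finset GolayPt)} (g : M24)
    (h : ∀ a ∈ S, ∀ b ∈ S, a ≠ b → ∃ k ∈ stabilizer M24 S, (k : Equiv.Perm GolayPt) • a = b ∧
      (k : Equiv.Perm GolayPt) • b = a ∧
      ∀ c ∈ S, c ≠ a → c ≠ b → (k : Equiv.Perm GolayPt) • c = c) :
    ∀ a ∈ g • S, ∀ b ∈ g • S, a ≠ b → ∃ k ∈ stabilizer M24 (g • S),
      (k : Equiv.Perm GolayPt) • a = b ∧ (k : Equiv.Perm GolayPt) • b = a ∧
      ∀ c ∈ g • S, c ≠ a → c ≠ b → (k : Equiv.Perm GolayPt) • c = c := by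
  intro _ ha _ hb hab
  obtain ⟨a, ha', rfl⟩ := Finset.mem_smul_finset.1 ha
  obtain ⟨b, hb', rfl⟩ := Finset.mem_smul_finset.1 hb
  obtain ⟨k, hk, hka, hkb, hkc⟩ := h a ha' b hb' fun e => hab (by rw [e])
  have conj : ∀ t : Finset GolayPt,
      ((g * k * g⁻¹ : M24) : Equiv.Perm GolayPt) • (g : Equiv.Perm GolayPt) • t =
        (g : Equiv.Perm GolayPt) • (k : Equiv.Perm GolayPt) • t := fun t => by
    rw [Subgroup.coe_mul, Subgroup.coe_mul, Subgroup.coe_inv, mul_smul, mul_smul, inv_smul_smul]
  refine ⟨g * k * g⁻¹, ?_, ?_, ?_, ?_⟩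
  · rw [mem_stabilizer_iff, mul_smul, mul_smul, inv_smul_smul, mem_stabilizer_iff.1 hk]
  · rw [Subgroup.smul_def, Subgroup.smul_def, conj, hka]
  · rw [Subgroup.smul_def, Subgroup.smul_def, conj, hkb]
  · intro _ hc hca hcb
    obtain ⟨c, hc', rfl⟩ := Finset.mem_smul_finset.1 hc
    rw [Subgroup.smul_def, conj, hkc c hc' (fun e => hca (by rw [e])) fun e => hcb (by rw [e])]

/-- A packed permutation in canonical form. -/
def repackOK (P : ℕ) : Bool := pack ((List.range 24).map fun i => app P i) == P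

/-- Canonical packed permutations are determined by their permutations. -/
theorem eq_of_permOf_eq {P Q : ℕ} (hP : isPerm P = true) (hQ : isPerm Q = true)
    (rP : repackOK P = true) (rQ : repackOK Q = true) (h : permOf P = permOf Q) : P = Q := by
  rw [repackOK, beq_iff_eq] at rP rQ
  rw [← rP, ← rQ]
  exact congrArg pack (List.map_congr_left fun i hi =>
    (permOf_eq_iff hP hQ).1 h i (List.mem_range.1 hi))

end Cfsg.Agent.H11
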