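import Cfsg.Agent.H11.BlockData
import Cfsg.Agent.H11.CharNorm
import Cfsg.Agent.H25.CharIntegral

/-!
No irreducible character degree of the automorphism group of the code is divisible by the full
power of two dividing the group order.
-/

set_option autoImplicit false


namespace Cfsg.Agent.H11

open Cfsg Cfsg.Agent.H12

/-- Iterated image of a point. -/
def powApp (P m n : ℕ) : ℕ := (app P)^[m] n

/-- The order test of a packed permutation. -/
def orderOK (P o : ℕ) : Bool :=
  isPerm P && ((List.range 24).all fun n => powApp P o n == n) &&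
    (List.range o).all fun m => m == 0 || (List.range 24).any fun n => powApp P m n != n

/-- The power test of packed permutations. -/
def powOK (P Q e : ℕ) : Bool :=
  isPerm P && isPerm Q && (List.range 24).all fun n => app Q n == powApp P e n

/-- Powers of a packed permutation. -/
theorem permOf_pow_pt {P : ℕ} (hP : isPerm P = true) :
    ∀ (m n : ℕ), n < 24 → (permOf P ^ m) (pt n) = pt (powApp P m n) ∧ powApp P m n < 24
  | 0, n, hn => ⟨rfl, hn⟩
  | m + 1, n, hn => by
    have ih := permOf_pow_pt hP m (app P n) (app_lt hP hn)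
    refine ⟨?_, by rw [powApp, Function.iterate_succ_apply]; exact ih.2⟩
    rw [pow_succ, Equiv.Perm.mul_apply, permOf_pt hP hn, ih.1, powApp, powApp,
      Function.iterate_succ_apply]

/-- A checked order. -/
theorem orderOf_permOf {P o : ℕ} (ho : 0 < o) (h : orderOK P o = true) :
    orderOf (permOf P) = o := by
  simp only [orderOK, Bool.and_eq_true, List.all_eq_true, List.mem_range, beq_iff_eq,
    Bool.or_eq_true, List.any_eq_true, bne_iff_ne] at h
  obtain ⟨⟨hP, h1⟩, h2⟩ := h
  refine (orderOf_eq_iff ho).2 ⟨Equiv.ext (forall_pt.2 fun n hn => ?_), fun m hm hm0 e => ?_⟩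
  · rw [(permOf_pow_pt hP o n hn).1, h1 n hn, Equiv.Perm.one_apply]
  · obtain ⟨n, hn, hne⟩ := (h2 m hm).resolve_left (by omega)
    refine hne (pt_inj (permOf_pow_pt hP m n hn).2 hn ?_)
    rw [← (permOf_pow_pt hP m n hn).1, e, Equiv.Perm.one_apply]

/-- A checked power. -/
theorem permOf_pow {P Q e : ℕ} (h : powOK P Q e = true) : permOf Q = permOf P ^ e := by
  simp only [powOK, Bool.and_eq_true, List.all_eq_true, List.mem_range, beq_iff_eq] at h
  refine Equiv.ext (forall_pt.2 fun n hn => ?_)
  rw [permOf_pt h.1.2 hn, h.2 n hn, (permOf_pow_pt h.1.1 e n hn).1]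

variable {H : Subgroup (Equiv.Perm GolayPt)}

/-- A search bounds a centraliser in a subgroup cut out by prescribed images. -/
theorem card_centralizer_le (hle : H ≤ M24) {F : List (ℕ × ℕ)}
    (hF : ∀ g ∈ H, ∀ ac ∈ F, g (pt ac.1) = pt ac.2) {P c : ℕ} {x : H}
    (hx : (x : Equiv.Perm GolayPt) = permOf P)
    (hv : ({pairs := [(P, P)], img := F} : SearchSpec).valid = true)
    (hc : decide (({pairs := [(P, P)], img := F} : SearchSpec).found.length ≤ c) = true) :
    Nat.card {g : H // g * x = x * g} ≤ c := by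
  refine le_trans ?_ (of_decide_eq_true hc)
  refine le_trans ?_ (SearchSpec.card_le _ hv
    ((fun g : H => (g : Equiv.Perm GolayPt)) '' {g | g * x = x * g}) ?_)
  · rw [Nat.card_image_of_injective Subtype.val_injective]
    exact le_rfl
  · rintro _ ⟨g, hg, rfl⟩
    refine ⟨hle g.2, fun XY hXY => ?_, hF g g.2, fun h => by simp at h⟩
    rw [List.mem_singleton] at hXY
    subst hXY
    have e : ((g * x : H) : Equiv.Perm GolayPt) = ((x * g : H) : Equiv.Perm GolayPt) :=
      congrArg Subtype.val hg
    simpa [hx] using e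

/-- A search with an element and its cube bounds a centraliser. -/
theorem card_centralizer_le_cube (hle : H ≤ M24) {F : List (ℕ × ℕ)}
    (hF : ∀ g ∈ H, ∀ ac ∈ F, g (pt ac.1) = pt ac.2) {P R c : ℕ} {x : H}
    (hx : (x : Equiv.Perm GolayPt) = permOf P) (hR : powOK P R 3 = true)
    (hv : ({pairs := [(P, P), (R, R)], img := F} : SearchSpec).valid = true)
    (hc : decide (({pairs := [(P, P), (R, R)], img := F} : SearchSpec).found.length ≤ c) = true) :
    Nat.card {g : H // g * x = x * g} ≤ c := by
  refine le_trans ?_ (of_decide_eq_true hc)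
  refine le_trans ?_ (SearchSpec.card_le _ hv
    ((fun g : H => (g : Equiv.Perm GolayPt)) '' {g | g * x = x * g}) ?_)
  · rw [Nat.card_image_of_injective Subtype.val_injective]
    exact le_rfl
  · rintro _ ⟨g, hg, rfl⟩
    refine ⟨hle g.2, fun XY hXY => ?_, hF g g.2, fun h => by simp at h⟩
    have e : Commute (g : Equiv.Perm GolayPt) (permOf P) := by
      have e : ((g * x : H) : Equiv.Perm GolayPt) = ((x * g : H) : Equiv.Perm GolayPt) :=
        congrArg Subtype.val hg
      simpa [hx, Commute, SemiconjBy] using e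
    simp only [List.mem_cons, List.not_mem_nil, or_false] at hXY
    rcases hXY with rfl | rfl
    · exact e.eq
    · rw [permOf_pow hR]; exact (e.pow_right 3).eq

/-- An empty search with cubes separates an element from one of its powers. -/
theorem conj_ne_pow_cube (hle : H ≤ M24) {F : List (ℕ × ℕ)}
    (hF : ∀ g ∈ H, ∀ ac ∈ F, g (pt ac.1) = pt ac.2) {P Q R S e : ℕ} {x : H}
    (hx : (x : Equiv.Perm GolayPt) = permOf P) (hQ : powOK P Q e = true)
    (hR : powOK P R 3 = true) (hS : powOK R S e = true)
    (hv : ({pairs := [(P, Q), (R, S)], img := F} : SearchSpec).valid = true)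
    (h0 : ({pairs := [(P, Q), (R, S)], img := F} : SearchSpec).found.isEmpty = true) (g : H) :
    g * x * g⁻¹ ≠ x ^ e := by
  intro h
  refine SearchSpec.not_holds _ hv h0 (hle g.2) ⟨fun XY hXY => ?_, hF g g.2, fun h => by simp at h⟩
  have e' : SemiconjBy (g : Equiv.Perm GolayPt) (permOf P) (permOf P ^ e) := by
    have e' := congrArg (fun y : H => (y : Equiv.Perm GolayPt)) (mul_inv_eq_iff_eq_mul.1 h)
    simpa [hx, SemiconjBy] using e'
  simp only [List.mem_cons, List.not_mem_nil, or_false] at hXY
  rcases hXY with rfl | rfl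
  · rw [permOf_pow hQ]; exact e'.eq
  · rw [permOf_pow hS, permOf_pow hR, ← pow_mul, mul_comm 3 e, pow_mul]
    exact (e'.pow_right 3).eq

/-- An empty search separates an element from one of its powers. -/
theorem conj_ne_pow (hle : H ≤ M24) {F : List (ℕ × ℕ)}
    (hF : ∀ g ∈ H, ∀ ac ∈ F, g (pt ac.1) = pt ac.2) {P Q e : ℕ} {x : H}
    (hx : (x : Equiv.Perm GolayPt) = permOf P) (hQ : powOK P Q e = true)
    (hv : ({pairs := [(P, Q)], img := F} : SearchSpec).valid = true)
    (h0 : ({pairs := [(P, Q)], img := F} : SearchSpec).found.isEmpty = true) (g : H) :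
    g * x * g⁻¹ ≠ x ^ e := by
  intro h
  refine SearchSpec.not_holds _ hv h0 (hle g.2) ⟨fun XY hXY => ?_, hF g g.2, fun h => by simp at h⟩
  rw [List.mem_singleton] at hXY
  subst hXY
  have e' := congrArg (fun y : H => (y : Equiv.Perm GolayPt)) (mul_inv_eq_iff_eq_mul.1 h)
  simpa [hx, permOf_pow hQ] using e'

/-- The order of an element given by a packed permutation. -/
theorem orderOf_coe_eq {x : H} {P o : ℕ} (hx : (x : Equiv.Perm GolayPt) = permOf P) (ho : 0 < o)
    (h : orderOK P o = true) : orderOf x = o := by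
  rw [← Subgroup.orderOf_coe, hx, orderOf_permOf ho h]

/-- The element of the automorphism group of a packed permutation. -/
noncomputable def eltM24 (P : ℕ) (h : preserves P = true) : M24 := ⟨permOf P, permOf_mem_M24 h⟩

/-- The prime divisors' bound on the degree. -/
theorem degree_cases {n : ℕ} (h1 : 2 ^ 10 ∣ n) (h2 : n ∣ 244823040) (h3 : n ^ 2 ≤ 244823040) :
    n ∈ [1024, 3072, 5120, 7168, 9216, 11264, 15360] := by
  obtain ⟨d, rfl⟩ := h1
  have hd : d ≤ 15 := by
    by_contra h
    have : (2 ^ 10 * 16) ^ 2 ≤ (2 ^ 10 * d) ^ 2 :=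
      Nat.pow_le_pow_left (Nat.mul_le_mul_left _ (by omega)) 2
    norm_num at this h3
    omega
  interval_cases d <;> revert h2 <;> decide +kernel

/-- The norms of the classes leave no room for a degree divisible by `2^10`. -/
theorem degree_arith {n : ℕ} (hn : n ∈ [1024, 3072, 5120, 7168, 9216, 11264, 15360])
    {t23 t11 t5 t15 t7 t21 : ℝ} (h0 : 0 ≤ t5) (h0' : 0 ≤ t15)
    (b23 : (244823040 : ℝ) * ((n % 23 : ℕ) * ((23 : ℝ) - (n % 23 : ℕ))) ≤ 253 * t23)
    (b5 : ¬ 5 ∣ n → (244823040 : ℝ) * 36 ≤ 240 * (t5 + t15))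
    (b11 : (244823040 : ℝ) * ((n % 11 : ℕ) * ((11 : ℝ) - (n % 11 : ℕ))) ≤ 110 * t11)
    (b7 : (244823040 : ℝ) * (3 * ((n % 7 : ℕ) * ((7 : ℝ) - (n % 7 : ℕ)))) ≤ 126 * (t7 + t21))
    (hsum : (n : ℝ) ^ 2 + (t23 + (t11 + (t5 + (t15 + (t7 + t21))))) ≤ 244823040) : False := by
  simp only [List.mem_cons, List.not_mem_nil, or_false] at hn
  rcases hn with rfl | rfl | rfl | rfl | rfl | rfl | rfl <;>
    norm_num at b23 b5 b11 b7 hsum <;> linarith

set_option maxHeartbeats 1000000 in
/-- No degree of an irreducible character is divisible by `2^10`. -/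
theorem not_two_pow_ten_dvd (χ : Cfsg.IrrCharacter M24) :
    ¬ 2 ^ 10 ∣ Cfsg.charDegree (χ : M24 → ℂ) := by
  intro hdvd
  have : Fintype M24 := Fintype.ofFinite _
  have hle : M24 ≤ M24 := le_rfl
  have hF : ∀ g ∈ M24, ∀ ac ∈ ([] : List (ℕ × ℕ)), g (pt ac.1) = pt ac.2 := by simp
  have hG : Nat.card M24 = 244823040 := card_M24
  let x23 : M24 := eltM24 rep23 (by decide +kernel)
  let x11 : M24 := eltM24 rep11 (by decide +kernel)
  let x15 : M24 := eltM24 rep15 (by decide +kernel)
  let x21 : M24 := eltM24 rep21 (by decide +kernel)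
  have o23 : orderOf x23 = 23 := orderOf_coe_eq (x := x23) (P := rep23) rfl (by norm_num) (by decide +kernel)
  have o11 : orderOf x11 = 11 := orderOf_coe_eq (x := x11) (P := rep11) rfl (by norm_num) (by decide +kernel)
  have o15 : orderOf x15 = 15 := orderOf_coe_eq (x := x15) (P := rep15) rfl (by norm_num) (by decide +kernel)
  have o21 : orderOf x21 = 21 := orderOf_coe_eq (x := x21) (P := rep21) rfl (by norm_num) (by decide +kernel)
  have N23 : (powNormalizer x23).card ≤ 253 := by
    have h := two_mul_card_powNormalizer_le o23 (by norm_num) (e := 5)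
      (card_centralizer_le hle hF (c := 23) (P := rep23) (x := x23) rfl (by decide +kernel)
        (by decide +kernel)) (by decide)
      (conj_ne_pow hle hF (P := rep23) (Q := rep23Pow) (x := x23) rfl (by decide +kernel)
        (by decide +kernel) (by decide +kernel))
    rw [show (primeExps 23).card = 22 by decide] at h
    omega
  have N11 : (powNormalizer x11).card ≤ 110 :=
    card_powNormalizer_le_mul o11 (by norm_num)
      (card_centralizer_le hle hF (c := 11) (P := rep11) (x := x11) rfl (by decide +kernel)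
        (by decide +kernel))
  have o15' : orderOf (x15 ^ 3) = 5 := by rw [orderOf_pow' _ (by norm_num), o15]; rfl
  have hc5 : ((x15 ^ 3 : M24) : Equiv.Perm GolayPt) = permOf rep15Cube := by
    rw [permOf_pow (e := 3) (by decide +kernel : powOK rep15 rep15Cube 3 = true)]; rfl
  have N5 : (powNormalizer (x15 ^ 3)).card ≤ 240 :=
    card_powNormalizer_le_mul o15' (by norm_num)
      (card_centralizer_le hle hF (c := 60) hc5 (by decide +kernel) (by decide +kernel))
  have N15 : (powNormalizer x15).card ≤ 60 := by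
    have h := two_mul_card_powNormalizer_le o15 (by norm_num) (e := 14)
      (card_centralizer_le_cube hle hF (c := 15) (P := rep15) (R := rep15Cube) (x := x15) rfl
        (by decide +kernel) (by decide +kernel) (by decide +kernel)) (by decide)
      (conj_ne_pow_cube hle hF (P := rep15) (Q := rep15Pow) (R := rep15Cube) (S := rep15CubePow)
        (x := x15) rfl (by decide +kernel) (by decide +kernel) (by decide +kernel)
        (by decide +kernel) (by decide +kernel))
    rw [show (primeExps 15).card = 8 by decide] at h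
    omega
  have o21' : orderOf (x21 ^ 3) = 7 := by rw [orderOf_pow' _ (by norm_num), o21]; rfl
  have hc7 : ((x21 ^ 3 : M24) : Equiv.Perm GolayPt) = permOf rep21Cube := by
    rw [permOf_pow (e := 3) (by decide +kernel : powOK rep21 rep21Cube 3 = true)]; rfl
  have N7 : (powNormalizer (x21 ^ 3)).card ≤ 126 := by
    have h := two_mul_card_powNormalizer_le o21' (by norm_num) (e := 3)
      (card_centralizer_le hle hF (c := 42) hc7 (by decide +kernel) (by decide +kernel)) (by decide)
      (conj_ne_pow hle hF (Q := rep21CubePow) hc7 (by decide +kernel) (by decide +kernel)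
        (by decide +kernel))
    rw [show (primeExps 7).card = 6 by decide] at h
    omega
  have b23 := residue_bound χ (by norm_num : Nat.Prime 23) o23 N23
  have b11 := residue_bound χ (by norm_num : Nat.Prime 11) o11 N11
  have b21 := bound_twentyone χ o21 N7
  have hsum := sq_degree_add_le χ {23, 11, 5, 15, 7, 21} (by decide)
  simp only [Finset.mem_insert, Finset.mem_singleton, Nat.reduceEqDiff, or_self, not_false_eq_true,
    Finset.sum_insert, Finset.sum_singleton] at hsum
  have hsq : (Cfsg.charDegree (χ : M24 → ℂ)) ^ 2 ≤ 244823040 := by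
    have h : ((Cfsg.charDegree (χ : M24 → ℂ) : ℝ)) ^ 2 ≤ (Nat.card M24 : ℝ) := by
      linarith [orderNorm_nonneg χ 23, orderNorm_nonneg χ 11, orderNorm_nonneg χ 5,
        orderNorm_nonneg χ 15, orderNorm_nonneg χ 7, orderNorm_nonneg χ 21]
    rw [← hG]; exact_mod_cast h
  have hdiv : Cfsg.charDegree (χ : M24 → ℂ) ∣ 244823040 := by
    obtain ⟨n, ρ, hirr, hρ⟩ := χ.2
    rw [H26.charDegree_eq (by rw [← hρ, ρ.char_one]), ← hG]
    exact H25.finrank_dvd_card ρ
  rw [hG] at b23 b11 b21 hsum
  refine degree_arith (t23 := orderNorm χ 23) (t11 := orderNorm χ 11) (t7 := orderNorm χ 7)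
    (t21 := orderNorm χ 21) (degree_cases hdvd hdiv hsq) (orderNorm_nonneg χ 5)
    (orderNorm_nonneg χ 15) ?_ (fun h => ?_) ?_ ?_ ?_
  · exact_mod_cast b23
  · have := bound_fifteen χ o15 h N5 N15
    rw [hG] at this
    exact_mod_cast this
  · exact_mod_cast b11
  · exact_mod_cast b21
  · push_cast at hsum ⊢; linarith

end Cfsg.Agent.H11
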