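import Cfsg.Agent.H11.BlockOne
import Cfsg.Agent.H11.Constrained
import Cfsg.Agent.H11.M24Degree
import Cfsg.Agent.H13.Groups

/-!
The stabiliser of two points in the automorphism group of the code has a single `2`-block.
-/

set_option autoImplicit false

namespace Cfsg.Agent.H11

open Cfsg Cfsg.Agent.H12

/-- The two-point stabiliser lies in the automorphism group and fixes its two points. -/
theorem M22_le : Spor.M22 ≤ M24 ∧ ∀ g ∈ Spor.M22, ∀ ac ∈ [((0 : ℕ), (0 : ℕ)), (23, 23)],
    g (pt ac.1) = pt ac.2 := by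
  refine ⟨fun g hg => hg.1.1, fun g hg ac hac => ?_⟩
  have h0 : g (some 0) = some 0 := hg.2
  have h1 : g none = none := hg.1.2
  simp only [List.mem_cons, List.not_mem_nil, or_false] at hac
  rcases hac with rfl | rfl
  · simpa [pt] using h0
  · simpa [pt] using h1

/-- The test that a packed permutation lies in the two-point stabiliser. -/
def preserves22 (P : ℕ) : Bool := preserves P && app P 0 == 0 && app P 23 == 23

/-- An element of the two-point stabiliser from a packed permutation. -/
theorem permOf_mem_M22 {P : ℕ} (h : preserves22 P = true) : permOf P ∈ Spor.M22 := by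
  simp only [preserves22, Bool.and_eq_true, beq_iff_eq] at h
  have hP : isPerm P = true := by
    have := h.1.1
    simp only [preserves, Bool.and_eq_true] at this
    exact this.1
  refine ⟨⟨permOf_mem_M24 h.1.1, ?_⟩, ?_⟩
  · change permOf P none = none
    have := permOf_pt hP (by norm_num : 23 < 24)
    simpa [pt, h.2] using this
  · change permOf P (some 0) = some 0
    have := permOf_pt hP (by norm_num : 0 < 24)
    simpa [pt, h.1.2] using this

/-- Every involution of the two-point stabiliser has a constrained centraliser. -/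
theorem exists_selfCentralizing_M22 (z : Spor.M22) (hz : orderOf z = 2) :
    ∃ (Q : Subgroup (Subgroup.centralizer ({z} : Set Spor.M22))) (_ : Q.Normal), IsPGroup 2 Q ∧
      Subgroup.centralizer (Q : Set (Subgroup.centralizer ({z} : Set Spor.M22))) ≤ Q := by
  have h2 : (z : Equiv.Perm GolayPt) * z = 1 := by
    have h := pow_orderOf_eq_one z
    rw [hz, sq] at h
    exact congrArg Subtype.val h
  have h1 : (z : Equiv.Perm GolayPt) ≠ 1 := fun e => by
    rw [Subtype.ext e (a2 := (1 : Spor.M22)), orderOf_one] at hz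
    norm_num at hz
  have hn : (z : Equiv.Perm GolayPt) none = none := z.2.1.2
  have hs : (z : Equiv.Perm GolayPt) (some 0) = some 0 := z.2.2
  rcases involution_cases (M22_le.1 z.2) h2 h1 with ⟨o, ho, hfix⟩ | ⟨g, hg, hzg⟩
  · refine exists_selfCentralizing_octad M22_le.1 z ho hfix fun a ha => ?_
    have h := mem_fixM24.1 ha
    exact ⟨⟨h.1, h.2 _ ((hfix _).1 hn)⟩, h.2 _ ((hfix _).1 hs)⟩
  · exfalso
    rw [hzg, Equiv.Perm.mul_apply, Equiv.Perm.mul_apply, ← Equiv.Perm.eq_inv_iff_eq] at hn
    have hfree : ∀ n < 24, app invFree n ≠ n := by decide +kernel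
    refine hfree _ (idx_lt (g⁻¹ none)) ?_
    refine (permOf_fixed_iff invFree_mem.1 (idx_lt _)).1 ?_
    rw [pt_idx, hn]

/-- The norms of the classes leave no room for other degrees. -/
theorem degree_arith22 {n : ℕ} (hn : n ∈ [128, 384, 640]) {t5 t7 t11 t : ℝ} (ht : 0 ≤ t)
    (b5 : (443520 : ℝ) * ((n % 5 : ℕ) * ((5 : ℝ) - (n % 5 : ℕ))) ≤ 20 * t5)
    (b7 : (443520 : ℝ) * ((n % 7 : ℕ) * ((7 : ℝ) - (n % 7 : ℕ))) ≤ 21 * t7)
    (b11 : (443520 : ℝ) * ((n % 11 : ℕ) * ((11 : ℝ) - (n % 11 : ℕ))) ≤ 55 * t11)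
    (hsum : (n : ℝ) ^ 2 + (t5 + (t7 + (t11 + t))) ≤ 443520) : n = 384 ∧ t = 0 := by
  simp only [List.mem_cons, List.not_mem_nil, or_false] at hn
  rcases hn with rfl | rfl | rfl <;> norm_num at b5 b7 b11 hsum ⊢ <;> linarith

/-- The possible degrees with full `2`-part. -/
theorem degree_cases22 {n : ℕ} (h1 : 2 ^ 7 ∣ n) (h2 : n ∣ 443520) (h3 : n ^ 2 ≤ 443520) :
    n ∈ [128, 384, 640] := by
  obtain ⟨d, rfl⟩ := h1
  have hd : d ≤ 5 := by
    by_contra h
    have : (2 ^ 7 * 6) ^ 2 ≤ (2 ^ 7 * d) ^ 2 :=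
      Nat.pow_le_pow_left (Nat.mul_le_mul_left _ (by omega)) 2
    norm_num at this h3
    omega
  interval_cases d <;> revert h2 <;> decide +kernel

set_option maxHeartbeats 1000000 in
/-- No degree is divisible by `2^7`. -/
theorem not_two_pow_seven_dvd (χ : Cfsg.IrrCharacter Spor.M22) :
    ¬ 2 ^ 7 ∣ Cfsg.charDegree (χ : Spor.M22 → ℂ) := by
  intro hdvd
  have : Fintype Spor.M22 := Fintype.ofFinite _
  obtain ⟨hle, hF⟩ := M22_le
  have hG : Nat.card Spor.M22 = 443520 := by rw [H13.M22_eq, H13.card_g22]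
  let x5 : Spor.M22 := ⟨permOf repM22_5, permOf_mem_M22 (by decide +kernel)⟩
  let x7 : Spor.M22 := ⟨permOf repM22_7, permOf_mem_M22 (by decide +kernel)⟩
  let x11 : Spor.M22 := ⟨permOf repM22_11, permOf_mem_M22 (by decide +kernel)⟩
  have o5 : orderOf x5 = 5 :=
    orderOf_coe_eq (x := x5) (P := repM22_5) rfl (by norm_num) (by decide +kernel)
  have o7 : orderOf x7 = 7 :=
    orderOf_coe_eq (x := x7) (P := repM22_7) rfl (by norm_num) (by decide +kernel)
  have o11 : orderOf x11 = 11 :=
    orderOf_coe_eq (x := x11) (P := repM22_11) rfl (by norm_num) (by decide +kernel)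
  have N5 : (powNormalizer x5).card ≤ 20 :=
    card_powNormalizer_le_mul o5 (by norm_num)
      (card_centralizer_le hle hF (c := 5) (P := repM22_5) (x := x5) rfl (by decide +kernel)
        (by decide +kernel))
  have N7 : (powNormalizer x7).card ≤ 21 := by
    have h := two_mul_card_powNormalizer_le o7 (by norm_num) (e := 3)
      (card_centralizer_le hle hF (c := 7) (P := repM22_7) (x := x7) rfl (by decide +kernel)
        (by decide +kernel)) (by decide)
      (conj_ne_pow hle hF (P := repM22_7) (Q := repM22_7Pow) (x := x7) rfl (by decide +kernel)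
        (by decide +kernel) (by decide +kernel))
    rw [show (primeExps 7).card = 6 by decide] at h
    omega
  have N11 : (powNormalizer x11).card ≤ 55 := by
    have h := two_mul_card_powNormalizer_le o11 (by norm_num) (e := 2)
      (card_centralizer_le hle hF (c := 11) (P := repM22_11) (x := x11) rfl (by decide +kernel)
        (by decide +kernel)) (by decide)
      (conj_ne_pow hle hF (P := repM22_11) (Q := repM22_11Pow) (x := x11) rfl (by decide +kernel)
        (by decide +kernel) (by decide +kernel))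
    rw [show (primeExps 11).card = 10 by decide] at h
    omega
  have b5 := residue_bound χ (by norm_num : Nat.Prime 5) o5 N5
  have b7 := residue_bound χ (by norm_num : Nat.Prime 7) o7 N7
  have b11 := residue_bound χ (by norm_num : Nat.Prime 11) o11 N11
  rw [hG] at b5 b7 b11
  have hdiv : Cfsg.charDegree (χ : Spor.M22 → ℂ) ∣ 443520 := by
    obtain ⟨n, ρ, hirr, hρ⟩ := χ.2
    rw [H26.charDegree_eq (by rw [← hρ, ρ.char_one]), ← hG]
    exact H25.finrank_dvd_card ρ
  have hsq : (Cfsg.charDegree (χ : Spor.M22 → ℂ)) ^ 2 ≤ 443520 := by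
    have h := sq_degree_add_le χ ∅ (by simp)
    rw [Finset.sum_empty, add_zero, hG] at h
    exact_mod_cast h
  have hcases := degree_cases22 hdvd hdiv hsq
  have key : ∀ g : Spor.M22, g ≠ 1 → (∃ j, orderOf g = 3 ^ j) →
      Cfsg.charDegree (χ : Spor.M22 → ℂ) = 384 ∧ (χ : Spor.M22 → ℂ) g = 0 := by
    intro g hg hj
    obtain ⟨j, hj⟩ := hj
    have hj0 : j ≠ 0 := fun e => hg (orderOf_eq_one_iff.1 (by rw [hj, e, pow_zero]))
    have hne : ∀ m : ℕ, ¬ 3 ∣ m → orderOf g ≠ m :=
      fun m hm e => hm (e ▸ hj.symm ▸ dvd_pow_self 3 hj0)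
    have hsum := sq_degree_add_le χ {5, 7, 11, orderOf g}
      (by simpa using (hne 1 (by norm_num)).symm)
    simp only [Finset.mem_insert, Finset.mem_singleton, Nat.reduceEqDiff, (hne 5 (by norm_num)).symm,
      (hne 7 (by norm_num)).symm, (hne 11 (by norm_num)).symm, or_self, not_false_eq_true,
      Finset.sum_insert, Finset.sum_singleton] at hsum
    rw [hG] at hsum
    push_cast at hsum
    obtain ⟨hn, ht⟩ := degree_arith22 hcases (orderNorm_nonneg χ (orderOf g))
      (by exact_mod_cast b5) (by exact_mod_cast b7) (by exact_mod_cast b11) hsum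
    refine ⟨hn, ?_⟩
    classical
    rw [orderNorm, Finset.sum_eq_zero_iff_of_nonneg fun y _ => Complex.normSq_nonneg _] at ht
    exact Complex.normSq_eq_zero.1 (ht g (Finset.mem_filter.2 ⟨Finset.mem_univ _, rfl⟩))
  have : Fact (Nat.Prime 3) := ⟨Nat.prime_three⟩
  obtain ⟨y, hy⟩ := exists_prime_orderOf_dvd_card' (G := Spor.M22) 3 (by rw [hG]; norm_num)
  obtain ⟨hn, -⟩ := key y (fun e => by rw [e, orderOf_one] at hy; norm_num at hy) ⟨1, by simp [hy]⟩
  have h3 := H40.factorization_eq_of_vanish (p := 3) χ fun g hg hj => (key g hg hj).2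
  rw [hn, hG] at h3
  have h9 : 3 ^ 2 ∣ 384 := by
    rw [Nat.prime_three.pow_dvd_iff_le_factorization (by norm_num), h3,
      ← Nat.prime_three.pow_dvd_iff_le_factorization (by norm_num)]
    norm_num
  norm_num at h9

/-- The two-point stabiliser has a single `2`-block. -/
theorem sameBlock_M22 (M : Ideal Cfsg.AlgInt) (hM : Cfsg.IsPModular 2 M)
    (χ ψ : Cfsg.IrrCharacter Spor.M22) :
    Cfsg.SameBlock M (χ : Spor.M22 → ℂ) (ψ : Spor.M22 → ℂ) := by
  have : Fact (Nat.Prime 2) := ⟨Nat.prime_two⟩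
  have : M.IsMaximal := hM.2.1
  refine sameBlock_of_constrained hM (fun z hz => exists_selfCentralizing_M22 z hz)
    (fun φ h => ?_) χ ψ
  refine not_two_pow_seven_dvd φ ?_
  have hne : Cfsg.charDegree (φ : Spor.M22 → ℂ) ≠ 0 := by
    obtain ⟨d, hd, hd'⟩ := H26.exists_degree φ
    rw [H26.charDegree_eq hd']
    omega
  rw [Nat.prime_two.pow_dvd_iff_le_factorization hne]
  refine le_trans ?_ h
  rw [← Nat.prime_two.pow_dvd_iff_le_factorization Nat.card_pos.ne', H13.M22_eq, H13.card_g22]
  norm_num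

end Cfsg.Agent.H11
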