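import Cfsg.Prelude.Def_SporadicCombinatorics
import Cfsg.Agent.H11.M24Transitive

/-!
Sextets: every tetrad lies in exactly one sextet, there are 1771 sextets, and the automorphism
group of the code is transitive on them.
-/

set_option autoImplicit false

namespace Cfsg.Agent.H11

open Cfsg Cfsg.Agent.H12 MulAction
open scoped Pointwise

/-- The masks of the sextet of the tetrad `{0, 1, 2, 3}`. -/
def sextet0 : List ℕ := [15, 5264, 622848, 3416064, 4196928, 8536096]

/-- The first sextet is a sextet. -/
theorem fins_sextet0_mem : fins sextet0 ∈ sextets := by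
  have h : sextet0.all (fun a => decide (a < 2 ^ 24) && pop a == 4 &&
      sextet0.all fun b => a == b || (inCode (a ||| b) && pop (a ||| b) == 8)) = true := by
    decide +kernel
  simp only [List.all_eq_true, Bool.and_eq_true, decide_eq_true_eq, beq_iff_eq,
    Bool.or_eq_true] at h
  refine ⟨?_, ?_, ?_⟩
  · rw [fins, List.toFinset_card_of_nodup]
    · rfl
    · refine List.Nodup.map_on (fun x hx y hy e => fin_inj (h x hx).1.1 (h y hy).1.1 e) ?_
      decide +kernel
  · intro s hs
    obtain ⟨a, ha, rfl⟩ := mem_fins.1 hs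
    rw [card_fin]; exact (h a ha).1.2
  · intro s hs u hu hsu
    obtain ⟨a, ha, rfl⟩ := mem_fins.1 hs
    obtain ⟨b, hb, rfl⟩ := mem_fins.1 hu
    rcases (h a ha).2 b hb with e | e
    · exact absurd (by rw [e]) hsu
    · rw [← fin_lor]
      exact mem_octads_iff.2 ⟨_, List.mem_filter.2 ⟨inCode_iff.1 e.1, by simp [e.2]⟩, rfl⟩

/-- The automorphisms of the code map sextets to sextets. -/
theorem smul_mem_sextets {g : Equiv.Perm GolayPt} (hg : g ∈ M24) {S : Finset (Finset GolayPt)}
    (hS : S ∈ sextets) : g • S ∈ sextets := by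
  refine ⟨by rw [Finset.card_smul_finset]; exact hS.1, fun t ht => ?_, fun t ht u hu htu => ?_⟩
  · obtain ⟨t', ht', rfl⟩ := Finset.mem_smul_finset.1 ht
    rw [Finset.card_smul_finset]; exact hS.2.1 t' ht'
  · obtain ⟨t', ht', rfl⟩ := Finset.mem_smul_finset.1 ht
    obtain ⟨u', hu', rfl⟩ := Finset.mem_smul_finset.1 hu
    rw [← Finset.smul_finset_union]
    exact smul_mem_octads hg (hS.2.2 t' ht' u' hu' fun e => htu (by rw [e]))

/-- Two tetrads of a sextet are disjoint. -/
theorem sextet_disjoint {S : Finset (Finset GolayPt)} (hS : S ∈ sextets) {t u : Finset GolayPt}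
    (ht : t ∈ S) (hu : u ∈ S) (h : t ≠ u) : Disjoint t u := by
  rw [← Finset.card_union_eq_card_add_card, hS.2.1 t ht, hS.2.1 u hu]
  exact (hS.2.2 t ht u hu h).2

/-- Every point lies in a tetrad of a given sextet. -/
theorem sextet_cover {S : Finset (Finset GolayPt)} (hS : S ∈ sextets) (x : GolayPt) :
    ∃ t ∈ S, x ∈ t := by
  have h : (S.biUnion fun t => t) = Finset.univ := by
    refine Finset.eq_univ_of_card _ ?_
    rw [Finset.card_biUnion (fun t ht u hu hne => sextet_disjoint hS ht hu hne),
      Finset.sum_congr rfl (g := fun _ => 4) (fun t ht => hS.2.1 t ht), Finset.sum_const, hS.1]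
    decide
  simpa using (Finset.ext_iff.1 h x).2 (Finset.mem_univ x)

/-- A sextet is determined by any of its tetrads. -/
theorem sextet_eq_of_mem {S S' : Finset (Finset GolayPt)} (hS : S ∈ sextets) (hS' : S' ∈ sextets)
    {t : Finset GolayPt} (ht : t ∈ S) (ht' : t ∈ S') : S = S' := by
  refine Finset.eq_of_subset_of_card_le (fun u hu => ?_) (by rw [hS.1, hS'.1])
  by_cases hut : u = t
  · rwa [hut]
  obtain ⟨x, hx⟩ := Finset.card_pos.1 (by rw [hS.2.1 u hu]; decide : 0 < u.card)
  obtain ⟨v, hv, hxv⟩ := sextet_cover hS' x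
  have hd := sextet_disjoint hS ht hu (Ne.symm hut)
  have hxt : x ∉ t := fun h => Finset.disjoint_left.1 hd h hx
  have hvt : v ≠ t := fun e => hxt (e ▸ hxv)
  have hd' := sextet_disjoint hS' ht' hv hvt.symm
  have e : t ∪ u = t ∪ v := by
    refine octad_eq_of_five (hS.2.2 t ht u hu (Ne.symm hut)) (hS'.2.2 t ht' v hv hvt.symm) ?_
    calc 5 = (insert x t).card := by rw [Finset.card_insert_of_notMem hxt, hS.2.1 t ht]
      _ ≤ _ := Finset.card_le_card (by
          intro y hy
          rcases Finset.mem_insert.1 hy with rfl | hy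
          · simp [hx, hxv]
          · simp [hy])
  have : u = v := by
    rw [← Finset.union_sdiff_cancel_left hd, e, Finset.union_sdiff_cancel_left hd']
  rwa [this]

/-- Any four-element set is the image of `{0, 1, 2, 3}`. -/
theorem exists_smul_tetrad0 {t : Finset GolayPt} (ht : t.card = 4) :
    ∃ g ∈ M24, g • fin 15 = t := by
  obtain ⟨x, hx⟩ := Finset.card_pos.1 (by
    rw [Finset.card_compl, ht]; decide : 0 < tᶜ.card)
  rw [Finset.mem_compl] at hx
  obtain ⟨g, hg, h⟩ := exists_map_base5 (t.toList ++ [x]) (by simp [ht])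
    (List.nodup_append.2 ⟨t.nodup_toList, List.nodup_singleton x, fun a ha b hb e => by
      rw [List.mem_singleton] at hb; exact hx (hb ▸ e ▸ Finset.mem_toList.1 ha)⟩)
  refine ⟨g, hg, Finset.eq_of_subset_of_card_le (fun y hy => ?_) ?_⟩
  · obtain ⟨p, hp, rfl⟩ := Finset.mem_smul_finset.1 hy
    have hp4 : idx p < 4 := by
      have := mem_fin.1 hp
      rw [show (15 : ℕ) = 2 ^ 4 - 1 from rfl, Nat.testBit_two_pow_sub_one] at this
      simpa using this
    have h4 := congrArg (List.take 4) h
    rw [List.take_left' (by simp [ht])] at h4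
    rw [← Finset.mem_toList, ← h4, Equiv.Perm.smul_def]
    simp only [base5, List.map_cons, List.map_nil, List.take_succ_cons, List.take_zero,
      List.mem_cons, List.not_mem_nil, or_false]
    rw [← pt_idx p]
    generalize idx p = n at hp4
    interval_cases n <;> simp
  · rw [ht, Finset.card_smul_finset, card_fin]; decide +kernel

/-- Every four-element set is a tetrad of exactly one sextet. -/
theorem existsUnique_sextet {t : Finset GolayPt} (ht : t.card = 4) :
    ∃! S : Finset (Finset GolayPt), S ∈ sextets ∧ t ∈ S := by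
  obtain ⟨g, hg, rfl⟩ := exists_smul_tetrad0 ht
  have h : fin 15 ∈ fins sextet0 := mem_fins.2 ⟨15, by decide +kernel, rfl⟩
  refine ⟨g • fins sextet0, ⟨smul_mem_sextets hg fins_sextet0_mem,
    Finset.smul_mem_smul_finset h⟩, ?_⟩
  rintro S ⟨hS, htS⟩
  exact sextet_eq_of_mem hS (smul_mem_sextets hg fins_sextet0_mem) htS
    (Finset.smul_mem_smul_finset h)

/-- Every sextet is the image of the first one. -/
theorem exists_smul_sextet0 {S : Finset (Finset GolayPt)} (hS : S ∈ sextets) :
    ∃ g ∈ M24, g • fins sextet0 = S := by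
  obtain ⟨t, ht⟩ := Finset.card_pos.1 (by rw [hS.1]; decide : 0 < S.card)
  obtain ⟨g, hg, he⟩ := exists_smul_tetrad0 (hS.2.1 t ht)
  refine ⟨g, hg, sextet_eq_of_mem (smul_mem_sextets hg fins_sextet0_mem) hS ?_ ht⟩
  rw [← he]
  exact Finset.smul_mem_smul_finset (mem_fins.2 ⟨15, by decide +kernel, rfl⟩)

open Classical in
/-- There are 1771 sextets. -/
theorem card_sextets : sextets.ncard = 1771 := by
  let T : Finset (Finset (Finset GolayPt)) := Finset.univ.filter (· ∈ sextets)
  have hT : ∀ S, S ∈ T ↔ S ∈ sextets := fun S => by simp [T]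
  have h : (T.biUnion fun t => t) = Finset.powersetCard 4 (Finset.univ : Finset GolayPt) := by
    ext t
    simp only [Finset.mem_biUnion, Finset.mem_powersetCard, Finset.subset_univ, true_and, hT]
    constructor
    · rintro ⟨S, hS, ht⟩; exact hS.2.1 t ht
    · intro ht
      obtain ⟨S, ⟨hS, htS⟩, -⟩ := existsUnique_sextet ht
      exact ⟨S, hS, htS⟩
  have hc := congrArg Finset.card h
  rw [Finset.card_biUnion (fun S hS S' hS' hne => Finset.disjoint_left.2 fun t ht ht' =>
      hne (sextet_eq_of_mem ((hT S).1 hS) ((hT S').1 hS') ht ht')),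
    Finset.sum_congr rfl (g := fun _ => 6) (fun S hS => ((hT S).1 hS).1), Finset.sum_const,
    Finset.card_powersetCard, Finset.card_univ] at hc
  have h24 : Fintype.card GolayPt = 24 := by decide
  rw [h24, smul_eq_mul, show Nat.choose 24 4 = 10626 by decide] at hc
  rw [Set.ncard_eq_toFinset_card', show sextets.toFinset = T by ext; simp [T]]
  omega

/-- The sextets form one orbit. -/
theorem orbit_sextet {S : Finset (Finset GolayPt)} (hS : S ∈ sextets) :
    MulAction.orbit M24 S = sextets := by
  ext S'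
  constructor
  · rintro ⟨g, rfl⟩; exact smul_mem_sextets g.2 hS
  · intro hS'
    obtain ⟨g, hg, rfl⟩ := exists_smul_sextet0 hS
    obtain ⟨k, hk, rfl⟩ := exists_smul_sextet0 hS'
    exact ⟨⟨k * g⁻¹, mul_mem hk (inv_mem hg)⟩, by
      change (k * g⁻¹) • g • fins sextet0 = k • fins sextet0
      rw [mul_smul, inv_smul_smul]⟩

end Cfsg.Agent.H11
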