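import Cfsg.Agent.H11.StructData
import Cfsg.Agent.H11.FamilyStab
import Cfsg.Agent.H11.OctadStab
import Cfsg.Agent.H11.Sextets

/-!
The structure of a sextet stabiliser in the automorphism group of the code.
-/

set_option autoImplicit false

namespace Cfsg.Agent.H11

open Cfsg Cfsg.Agent.H12 MulAction
open scoped Pointwise

/-- Tables of the first sextet, checked. -/
theorem sextetStruct_check :
    ((sextetKer.all fun P => preserves P && repackOK P &&
      (sextet0.all fun m => imgMask P m == m) &&
      (((List.range 24).any fun i => app P (app P i) != i) ||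
        (List.range 24).all fun n => app sextetLab (app P n) == app sextetLab n ^^^
          (app sextetLab (app P (app sextetUnlab (app sextetLab n &&& 28))) &&& 3))) &&
    (sextet0.all fun i => sextet0.all fun j => i == j || sextetSwaps.any fun P => preserves P &&
      imgMask P i == j && imgMask P j == i &&
      sextet0.all fun k => k == i || k == j || imgMask P k == k) &&
    isPerm sextetLab && decide (sextetKer.Nodup) && sextetKer.length == 192 &&
    (sextetKer.filter fun P => (List.range 24).all fun i => app P (app P i) == i).length == 64)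
      = true := by
  decide +kernel

/-- The masks of the first sextet are bounded. -/
theorem sextet0_lt : ∀ m ∈ sextet0, m < 2 ^ 24 := by decide +kernel

/-- Every exchange of two tetrads of the first sextet is induced. -/
theorem sextet0_swaps : ∀ a ∈ fins sextet0, ∀ b ∈ fins sextet0, a ≠ b →
    ∃ g ∈ stabilizer M24 (fins sextet0), (g : Equiv.Perm GolayPt) • a = b ∧
      (g : Equiv.Perm GolayPt) • b = a ∧
      ∀ c ∈ fins sextet0, c ≠ a → c ≠ b → (g : Equiv.Perm GolayPt) • c = c := by
  intro a ha b hb hab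
  obtain ⟨i, hi, rfl⟩ := mem_fins.1 ha
  obtain ⟨j, hj, rfl⟩ := mem_fins.1 hb
  have h := sextetStruct_check
  simp only [Bool.and_eq_true, List.all_eq_true, List.any_eq_true, Bool.or_eq_true,
    beq_iff_eq] at h
  rcases h.1.1.1.1.2 i hi j hj with e | ⟨P, -, ⟨⟨hP, hPi⟩, hPj⟩, hPk⟩
  · exact absurd (by rw [e]) hab
  have hperm : isPerm P = true := by
    simp only [preserves, Bool.and_eq_true] at hP
    exact hP.1
  refine ⟨⟨permOf P, permOf_mem_M24 hP⟩, ?_, by rw [smul_fin hperm, hPi],
    by rw [smul_fin hperm, hPj], ?_⟩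
  · rw [mem_stabilizer_iff, Subgroup.smul_def]
    change permOf P • fins sextet0 = fins sextet0
    rw [smul_fins hperm]
    refine fins_eq_of_subset (fun m hm => ?_) (fun m hm => ?_)
    · obtain ⟨k, hk, rfl⟩ := List.mem_map.1 hm
      rcases hPk k hk with (rfl | rfl) | e
      · rwa [hPi]
      · rwa [hPj]
      · rwa [e]
    · rcases hPk m hm with (rfl | rfl) | e
      · exact List.mem_map.2 ⟨j, hj, hPj⟩
      · exact List.mem_map.2 ⟨i, hi, hPi⟩
      · exact List.mem_map.2 ⟨m, hm, e⟩
  · intro c hc hca hcb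
    obtain ⟨k, hk, rfl⟩ := mem_fins.1 hc
    rcases hPk k hk with (rfl | rfl) | e
    · exact absurd rfl hca
    · exact absurd rfl hcb
    · rw [smul_fin hperm, e]

/-- The order of a sextet stabiliser. -/
theorem card_stabilizer_sextet {S : Finset (Finset GolayPt)} (hS : S ∈ sextets) :
    Nat.card (stabilizer M24 S) = 138240 := by
  have h := card_stabilizer_of_orbit S (H11.orbit_sextet hS) H11.card_sextets
  omega

/-- The kernel of the action on the tetrads of a sextet has order 192. -/
theorem card_ker_sextet {S : Finset (Finset GolayPt)} (hS : S ∈ sextets)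
    (hsurj : (familyHom S).range = ⊤) : Nat.card (familyHom S).ker = 192 := by
  have h := Subgroup.card_mul_index (familyHom S).ker
  rw [Subgroup.index_ker, hsurj, Subgroup.card_top, Nat.card_perm, Nat.card_eq_finsetCard,
    hS.1, card_stabilizer_sextet hS,
    show Nat.factorial 6 = 720 by decide] at h
  omega

/-- A table entry as an element of the kernel. -/
noncomputable def sextetKerElt (P : {P // P ∈ sextetKer}) : (familyHom (fins sextet0)).ker :=
  have h : preserves P.1 = true ∧ ∀ m ∈ sextet0, imgMask P.1 m = m := by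
    have h := sextetStruct_check
    simp only [Bool.and_eq_true, List.all_eq_true, beq_iff_eq] at h
    exact ⟨(h.1.1.1.1.1 P.1 P.2).1.1.1, (h.1.1.1.1.1 P.1 P.2).1.2⟩
  have hfix : ∀ t ∈ fins sextet0, permOf P.1 • t = t := fun t ht => by
    obtain ⟨m, hm, rfl⟩ := mem_fins.1 ht
    have hperm : isPerm P.1 = true := by
      have := h.1
      simp only [preserves, Bool.and_eq_true] at this
      exact this.1
    rw [smul_fin hperm, h.2 m hm]
  ⟨⟨⟨permOf P.1, permOf_mem_M24 h.1⟩, Finset.eq_of_subset_of_card_le (fun t ht => by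
      obtain ⟨u, hu, rfl⟩ := Finset.mem_smul_finset.1 ht
      rw [Subgroup.smul_def]
      exact (hfix u hu).symm ▸ hu) (Finset.card_smul_finset _ _).ge⟩,
    mem_ker_familyHom.2 hfix⟩

/-- The table lists the whole kernel. -/
theorem sextetKerElt_bijective : Function.Bijective sextetKerElt := by
  have h := sextetStruct_check
  simp only [Bool.and_eq_true, List.all_eq_true, beq_iff_eq, decide_eq_true_eq] at h
  have hperm : ∀ P ∈ sextetKer, isPerm P = true := fun P hP => by
    have := (h.1.1.1.1.1 P hP).1.1.1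
    simp only [preserves, Bool.and_eq_true] at this
    exact this.1
  have hinj : Function.Injective sextetKerElt := fun P Q e => Subtype.ext <|
    eq_of_permOf_eq (hperm _ P.2) (hperm _ Q.2) (h.1.1.1.1.1 _ P.2).1.1.2
      (h.1.1.1.1.1 _ Q.2).1.1.2
      (congrArg (fun x : (familyHom (fins sextet0)).ker => ((x.1.1 : M24) : Equiv.Perm GolayPt)) e)
  refine hinj.bijective_of_nat_card_le (le_of_eq ?_)
  rw [card_ker_sextet fins_sextet0_mem (familyHom_range_eq_top sextet0_swaps),
    Nat.card_eq_fintype_card, ← h.1.2]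
  rw [← List.toFinset_card_of_nodup h.1.1.2]
  exact (Fintype.card_of_subtype _ fun x => List.mem_toFinset).symm

/-- Square-one kernel elements of the first sextet commute. -/
theorem sextet0_ker_commute (a b : (familyHom (fins sextet0)).ker) (ha : a * a = 1)
    (hb : b * b = 1) : a * b = b * a := by
  have h := sextetStruct_check
  simp only [Bool.and_eq_true, List.all_eq_true, beq_iff_eq, Bool.or_eq_true, List.any_eq_true,
    bne_iff_ne, List.mem_range] at h
  have hL := h.1.1.1.2
  have trans : ∀ a : (familyHom (fins sextet0)).ker, a * a = 1 → ∃ s : ℕ → ℕ, ∀ n < 24,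
      idx (((a.1.1 : M24) : Equiv.Perm GolayPt) (pt n)) < 24 ∧
      app sextetLab (idx (((a.1.1 : M24) : Equiv.Perm GolayPt) (pt n))) =
        app sextetLab n ^^^ (s (app sextetLab n &&& 28) &&& 3) := by
    intro a ha
    obtain ⟨P, rfl⟩ := sextetKerElt_bijective.2 a
    have hP : isPerm P.1 = true := by
      have := (h.1.1.1.1.1 P.1 P.2).1.1.1
      simp only [preserves, Bool.and_eq_true] at this
      exact this.1
    refine ⟨fun t => app sextetLab (app P.1 (app sextetUnlab t)), fun n hn => ⟨idx_lt _, ?_⟩⟩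
    rcases (h.1.1.1.1.1 P.1 P.2).2 with ⟨i, hi, hne⟩ | h2
    · exfalso
      apply hne
      have e : permOf P.1 * permOf P.1 = 1 :=
        congrArg (fun x : (familyHom (fins sextet0)).ker => ((x.1.1 : M24) : Equiv.Perm GolayPt)) ha
      have e2 := Equiv.congr_fun e (pt i)
      rw [Equiv.Perm.mul_apply, permOf_pt hP hi, permOf_pt hP (app_lt hP hi),
        Equiv.Perm.one_apply] at e2
      exact pt_inj (app_lt hP (app_lt hP hi)) hi e2
    · change app sextetLab (idx (permOf P.1 (pt n))) = _
      rw [permOf_pt hP hn, idx_pt (app_lt hP hn)]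
      exact h2 n hn
  obtain ⟨s, hs⟩ := trans a ha
  obtain ⟨r, hr⟩ := trans b hb
  have key : ∀ x c : ℕ, (x ^^^ (c &&& 3)) &&& 28 = x &&& 28 := by
    intro x c
    rw [Nat.and_xor_distrib_right, Nat.and_assoc, show (3 : ℕ) &&& 28 = 0 by decide, Nat.and_zero,
      Nat.xor_zero]
  apply Subtype.ext
  apply Subtype.ext
  apply Subtype.ext
  refine Equiv.ext (forall_pt.2 fun n hn => ?_)
  change ((a.1.1 : M24) : Equiv.Perm GolayPt) (((b.1.1 : M24) : Equiv.Perm GolayPt) (pt n)) =
    ((b.1.1 : M24) : Equiv.Perm GolayPt) (((a.1.1 : M24) : Equiv.Perm GolayPt) (pt n))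
  have h1 := hs _ (hr n hn).1
  have h2 := hr _ (hs n hn).1
  rw [pt_idx] at h1 h2
  apply idx_injective
  refine pt_inj (idx_lt _) (idx_lt _) ((permOf sextetLab).injective ?_)
  rw [permOf_pt hL (idx_lt _), permOf_pt hL (idx_lt _), h1.2, h2.2, (hr n hn).2, (hs n hn).2,
    key, key]
  congr 1
  simp only [Nat.xor_assoc]
  rw [Nat.xor_comm (r _ &&& 3)]

/-- The number of square-one kernel elements of the first sextet. -/
theorem card_sextet0_sq_one :
    Nat.card {a : (familyHom (fins sextet0)).ker // a * a = 1} = 64 := by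
  have h := sextetStruct_check
  simp only [Bool.and_eq_true, List.all_eq_true, beq_iff_eq, decide_eq_true_eq] at h
  have hperm : ∀ P ∈ sextetKer, isPerm P = true := fun P hP => by
    have := (h.1.1.1.1.1 P hP).1.1.1
    simp only [preserves, Bool.and_eq_true] at this
    exact this.1
  rw [← h.2, ← List.toFinset_card_of_nodup (h.1.1.2.filter _), ← Nat.card_eq_finsetCard]
  refine Nat.card_congr (Equiv.symm (Equiv.trans ?_ ((Equiv.ofBijective _
    sextetKerElt_bijective).subtypeEquiv (p := fun P => ∀ i < 24, app P.1 (app P.1 i) = i) ?_)))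
  · refine Equiv.trans ?_ (Equiv.subtypeSubtypeEquivSubtypeInter (fun P => P ∈ sextetKer)
      (fun P => ∀ i < 24, app P (app P i) = i)).symm
    refine Equiv.subtypeEquivRight fun P => ?_
    simp [List.mem_filter]
  · intro P
    have hP := hperm _ P.2
    constructor
    · intro hi
      apply Subtype.ext
      apply Subtype.ext
      apply Subtype.ext
      change permOf P.1 * permOf P.1 = 1
      refine Equiv.ext (forall_pt.2 fun n hn => ?_)
      rw [Equiv.Perm.mul_apply, permOf_pt hP hn, permOf_pt hP (app_lt hP hn), hi n hn,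
        Equiv.Perm.one_apply]
    · intro e i hi
      have e1 : permOf P.1 * permOf P.1 = 1 :=
        congrArg (fun x : (familyHom (fins sextet0)).ker => ((x.1.1 : M24) : Equiv.Perm GolayPt)) e
      have e2 := Equiv.congr_fun e1 (pt i)
      rw [Equiv.Perm.mul_apply, permOf_pt hP hi, permOf_pt hP (app_lt hP hi),
        Equiv.Perm.one_apply] at e2
      exact pt_inj (app_lt hP (app_lt hP hi)) hi e2

/-- The structure of a sextet stabiliser. -/
theorem sextet_stabilizer_structure {S : Finset (Finset GolayPt)} (hS : S ∈ sextets) :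
    (∀ e : Equiv.Perm ↥S, ∃ g ∈ stabilizer M24 S, ∀ t : ↥S,
      (g : Equiv.Perm GolayPt) • (t : Finset GolayPt) = ((e t : ↥S) : Finset GolayPt)) ∧
    Nat.card {g : ↥(stabilizer M24 S) // ∀ t ∈ S, ((g : M24) : Equiv.Perm GolayPt) • t = t}
      = 192 ∧
    ∃ N : Subgroup ↥(stabilizer M24 S), N.Normal ∧ Nat.card N = 64 ∧ ∀ x ∈ N, x * x = 1 := by
  obtain ⟨g, hg, rfl⟩ := exists_smul_sextet0 hS
  have hsurj : (familyHom ((⟨g, hg⟩ : M24) • fins sextet0)).range = ⊤ :=
    familyHom_range_eq_top (swaps_smul ⟨g, hg⟩ sextet0_swaps)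
  refine ⟨fun e => ?_, ?_, ?_⟩
  · obtain ⟨k, hk⟩ := (hsurj ▸ Subgroup.mem_top e : e ∈ (familyHom (g • fins sextet0)).range)
    exact ⟨k, k.2, fun t => (familyHom_apply k t).symm.trans (by rw [hk])⟩
  · rw [← card_ker_sextet hS hsurj]
    exact Nat.card_congr (Equiv.subtypeEquivRight fun k => mem_ker_familyHom.symm)
  · let E : stabilizer M24 (fins sextet0) ≃* stabilizer M24 (g • fins sextet0) :=
      stabilizerEquivStabilizer (g := (⟨g, hg⟩ : M24)) rfl
    let N0 : Subgroup (stabilizer M24 (fins sextet0)) :=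
      { carrier := {x | x ∈ (familyHom (fins sextet0)).ker ∧ x * x = 1}
        one_mem' := ⟨one_mem _, one_mul 1⟩
        mul_mem' := by
          rintro x y ⟨hx, hx2⟩ ⟨hy, hy2⟩
          refine ⟨mul_mem hx hy, ?_⟩
          have hc : x * y = y * x := congrArg Subtype.val
            (sextet0_ker_commute ⟨x, hx⟩ ⟨y, hy⟩ (Subtype.ext hx2) (Subtype.ext hy2))
          calc x * y * (x * y) = x * y * (y * x) := by rw [hc]
            _ = x * (y * y) * x := by group
            _ = 1 := by rw [hy2, mul_one, hx2]
        inv_mem' := by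
          rintro x ⟨hx, hx2⟩
          exact ⟨inv_mem hx, by rw [← mul_inv_rev, hx2, inv_one]⟩ }
    have hN0 : N0.Normal := ⟨fun x hx k => ⟨(MonoidHom.normal_ker _).conj_mem x hx.1 k, by
      rw [show k * x * k⁻¹ * (k * x * k⁻¹) = k * (x * x) * k⁻¹ by group, hx.2]; group⟩⟩
    refine ⟨N0.comap E.symm.toMonoidHom, hN0.comap _, ?_, ?_⟩
    · rw [Nat.card_congr ((E.symm.toEquiv).subtypeEquiv (p := fun x => x ∈ N0.comap
          E.symm.toMonoidHom) (q := fun x => x ∈ N0) fun x => Iff.rfl)]
      rw [← card_sextet0_sq_one]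
      exact Nat.card_congr
        { toFun := fun x => ⟨⟨x.1, x.2.1⟩, Subtype.ext x.2.2⟩
          invFun := fun x => ⟨x.1.1, x.1.2, congrArg Subtype.val x.2⟩
          left_inv := fun _ => rfl
          right_inv := fun _ => rfl }
    · intro x hx
      apply E.symm.injective
      rw [map_mul, map_one]
      exact hx.2

end Cfsg.Agent.H11
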