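import Cfsg.Agent.H11.BlockData
import Cfsg.Agent.H11.SextetStruct

/-!
The involutions of the automorphism group of the code and self-centralising elementary abelian
groups normalised by their centralisers.
-/

set_option autoImplicit false

namespace Cfsg.Agent.H11

open Cfsg Cfsg.Agent.H12
open scoped Pointwise

/-- The search for involutions exchanging 0, 1 and exchanging 2, 3. -/
def invSpec : SearchSpec := {img := [(0, 1), (1, 0), (2, 3), (3, 2)], sq := true}

/-- The search for transpositions of 0 and 1. -/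
def transSpec : SearchSpec :=
  {img := (0, 1) :: (1, 0) :: ((List.range 22).map fun i => (i + 2, i + 2)), sq := true}

/-- The fixed points of a found element. -/
def leafFix (us : List ℕ) : ℕ :=
  (List.range 24).foldl (fun acc i => if evalChosen us i == i then acc ||| (1 <<< i) else acc) 0

/-- The fixed points as computed. -/
theorem testBit_leafFix (us : List ℕ) (k : ℕ) :
    (leafFix us).testBit k = true ↔ k < 24 ∧ evalChosen us k = k := by
  have : ∀ (l : List ℕ) (acc : ℕ),
      (l.foldl (fun acc i => if evalChosen us i == i then acc ||| (1 <<< i) else acc) acc).testBit k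
        = true ↔ acc.testBit k = true ∨ (k ∈ l ∧ evalChosen us k = k) := by
    intro l
    induction l with
    | nil => simp
    | cons a l ih =>
      intro acc
      rw [List.foldl_cons, ih]
      by_cases h : evalChosen us a = a
      · simp only [h, beq_self_eq_true, if_true, Nat.testBit_or, Nat.one_shiftLeft,
          Nat.testBit_two_pow, Bool.or_eq_true, decide_eq_true_eq, List.mem_cons]
        grind
      · simp only [beq_iff_eq, h, if_false, List.mem_cons]
        grind
  rw [leafFix, this]
  simp

/-- Each found involution fixes an octad or is conjugate to the free one. -/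
theorem invSpec_check :
    (invSpec.valid && transSpec.valid && transSpec.found.isEmpty &&
      (invWitness.all preserves) && preserves invFree &&
      invSpec.found.all fun us =>
        (inCode (leafFix us) && pop (leafFix us) == 8) ||
          invWitness.any fun P => (List.range 24).all fun n =>
            app P (app invFree n) == evalChosen us (app P n)) = true := by
  decide +kernel

/-- The free involution is in the automorphism group. -/
theorem invFree_mem : isPerm invFree = true ∧ permOf invFree ∈ M24 := by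
  have h := invSpec_check
  simp only [Bool.and_eq_true] at h
  have h1 := h.1.2
  refine ⟨?_, permOf_mem_M24 h1⟩
  simp only [preserves, Bool.and_eq_true] at h1
  exact h1.1

/-- An involution fixes the points of an octad or is conjugate to the free one. -/
theorem involution_cases {z : Equiv.Perm GolayPt} (hz : z ∈ M24) (h2 : z * z = 1) (h1 : z ≠ 1) :
    (∃ o ∈ octads, ∀ p, z p = p ↔ p ∈ o) ∨
      ∃ g ∈ M24, z = g * permOf invFree * g⁻¹ := by
  have hzz : ∀ p, z (z p) = p := fun p => Equiv.congr_fun h2 p
  have hck := invSpec_check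
  simp only [Bool.and_eq_true, List.all_eq_true, Bool.or_eq_true, List.any_eq_true,
    beq_iff_eq, List.mem_range] at hck
  obtain ⟨⟨⟨⟨⟨hv, hv'⟩, ht⟩, hW⟩, -⟩, hleaf⟩ := hck
  obtain ⟨p, hp⟩ : ∃ p, z p ≠ p := by
    by_contra hc
    exact h1 (Equiv.ext fun p => by simpa using not_exists.1 hc p)
  have hthree : ∀ s : Finset GolayPt, s.card ≤ 4 → ∃ r, r ∉ s := fun s hs => by
    obtain ⟨r, hr⟩ := Finset.card_pos.1 (by
      rw [Finset.card_compl, show Fintype.card GolayPt = 24 by decide +kernel]
      omega : 0 < sᶜ.card)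
    exact ⟨r, Finset.mem_compl.1 hr⟩
  have conjSq : ∀ g : Equiv.Perm GolayPt, (g⁻¹ * z * g) * (g⁻¹ * z * g) = 1 := fun g => by
    rw [show g⁻¹ * z * g * (g⁻¹ * z * g) = g⁻¹ * (z * z) * g by group, h2]; group
  by_cases hq : ∃ q, z q ≠ q ∧ q ≠ p ∧ q ≠ z p
  swap
  · exfalso
    obtain ⟨a, ha⟩ := hthree {p, z p} (Finset.card_le_two.trans (by norm_num))
    obtain ⟨b, hb⟩ := hthree {p, z p, a} (Finset.card_le_three.trans (by norm_num))
    obtain ⟨c, hc⟩ := hthree {p, z p, a, b} Finset.card_le_four
    simp only [Finset.mem_insert, Finset.mem_singleton, not_or] at ha hb hc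
    obtain ⟨g, hg, hgm⟩ := exists_map_base5 [p, z p, a, b, c] rfl (by simp; grind)
    simp only [base5, List.map_cons, List.map_nil, List.cons.injEq, and_true] at hgm
    obtain ⟨g0, g1, -⟩ := hgm
    have hall : ∀ q, q ≠ p → q ≠ z p → z q = q := fun q e1 e2 => by
      by_contra h; exact hq ⟨q, h, e1, e2⟩
    refine SearchSpec.not_holds _ hv' ht (mul_mem (mul_mem (inv_mem hg) hz) hg)
      ⟨fun XY hXY => by simp [transSpec] at hXY, fun ac hac => ?_, fun _ => conjSq g⟩
    simp only [transSpec, List.mem_cons, List.mem_map, List.mem_range] at hac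
    rcases hac with rfl | rfl | ⟨i, hi, rfl⟩
    · simp [g0, ← g1]
    · simp [g1, hzz, ← g0]
    · have e : z (g (pt (i + 2))) = g (pt (i + 2)) := by
        refine hall _ (fun e => ?_) fun e => ?_
        · rw [← g0] at e
          have := pt_inj (by omega) (by omega) (g.injective e)
          omega
        · rw [← g1] at e
          have := pt_inj (by omega) (by omega) (g.injective e)
          omega
      simp [e]
  obtain ⟨q, hq, hqp, hqzp⟩ := hq
  obtain ⟨r, hr⟩ := hthree {p, z p, q, z q} Finset.card_le_four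
  simp only [Finset.mem_insert, Finset.mem_singleton, not_or] at hr
  have hnd : [p, z p, q, z q, r].Nodup := by
    have e1 : z q ≠ p := fun e => hqzp (by rw [← e, hzz])
    have e2 : z q ≠ z p := fun e => hqp (z.injective e)
    simp
    grind
  obtain ⟨g, hg, hgm⟩ := exists_map_base5 [p, z p, q, z q, r] rfl hnd
  simp only [base5, List.map_cons, List.map_nil, List.cons.injEq, and_true] at hgm
  obtain ⟨g0, g1, g2, g3, -⟩ := hgm
  obtain ⟨us, hus, hev⟩ := invSpec.mem_found hv (mul_mem (mul_mem (inv_mem hg) hz) hg)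
    ⟨fun XY hXY => by simp [invSpec] at hXY, fun ac hac => by
      simp only [invSpec, List.mem_cons, List.not_mem_nil, or_false] at hac
      rcases hac with rfl | rfl | rfl | rfl
      · simp [g0, ← g1]
      · simp [g1, hzz, ← g0]
      · simp [g2, ← g3]
      · simp [g3, hzz, ← g2], fun _ => conjSq g⟩
  rcases hleaf us hus with ⟨hc, hpop⟩ | ⟨P, hP, hPn⟩
  · left
    refine ⟨g • fin (leafFix us), smul_mem_octads hg
      (mem_octads_iff.2 ⟨_, List.mem_filter.2 ⟨inCode_iff.1 hc, by simp [hpop]⟩, rfl⟩), ?_⟩
    intro x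
    obtain ⟨y, rfl⟩ : ∃ y, g y = x := g.surjective x
    rw [show g y = g • y from rfl, Finset.smul_mem_smul_finset_iff, mem_fin, testBit_leafFix]
    obtain ⟨h, hlt⟩ := hev (idx y) (idx_lt y)
    rw [pt_idx, Equiv.Perm.mul_apply, Equiv.Perm.mul_apply, Equiv.Perm.inv_eq_iff_eq] at h
    rw [show g • y = g y from rfl]
    refine ⟨fun e => ⟨idx_lt y, ?_⟩, fun e => ?_⟩
    · rw [e] at h
      exact (pt_inj (idx_lt y) hlt ((pt_idx y).trans (g.injective h))).symm
    · rw [e.2, pt_idx] at h
      exact h
  · right
    have hPM := permOf_mem_M24 (hW P hP)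
    have hperm : isPerm P = true := by
      have := hW P hP
      simp only [preserves, Bool.and_eq_true] at this
      exact this.1
    refine ⟨g * permOf P, mul_mem hg hPM, ?_⟩
    have e : g⁻¹ * z * g * permOf P = permOf P * permOf invFree :=
      Equiv.ext (forall_pt.2 fun n hn => by
        rw [Equiv.Perm.mul_apply, Equiv.Perm.mul_apply (f := permOf P), permOf_pt hperm hn,
          (hev _ (app_lt hperm hn)).1, permOf_pt invFree_mem.1 hn,
          permOf_pt hperm (app_lt invFree_mem.1 hn), hPn n hn])
    calc z = g * (g⁻¹ * z * g * permOf P) * (permOf P)⁻¹ * g⁻¹ := by group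
      _ = g * permOf P * permOf invFree * (g * permOf P)⁻¹ := by rw [e]; group

/-- An element fixing the outside of an octad is trivial. -/
theorem eq_one_of_fix_compl {o : Finset GolayPt} (ho : o ∈ octads) {y : Equiv.Perm GolayPt}
    (hy : y ∈ M24) (h : ∀ p, p ∉ o → y p = p) : y = 1 := by
  have hex : octadMasks.any (fun O => (m24Chain.map Prod.fst).all fun b => !O.testBit b) = true := by
    decide +kernel
  simp only [List.any_eq_true, List.all_eq_true, Bool.not_eq_true'] at hex
  obtain ⟨O, hO, hOb⟩ := hex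
  obtain ⟨g, hg, rfl⟩ := exists_smul_octad (mem_octads_iff.2 ⟨O, hO, rfl⟩) ho
  have h1 : g⁻¹ * y * g = 1 := by
    refine eq_one_of_fix_base (mul_mem (mul_mem (inv_mem hg) hy) hg) fun x hx => ?_
    have hb : x < 24 := (by decide +kernel : ∀ b ∈ m24Chain.map Prod.fst, b < 24) x hx
    have hnot : g (pt x) ∉ g • fin O := by
      rw [show g (pt x) = g • pt x from rfl, Finset.smul_mem_smul_finset_iff, pt_mem_fin hb,
        hOb x hx]
      simp
    simp [h _ hnot]
  calc y = g * (g⁻¹ * y * g) * g⁻¹ := by group
    _ = 1 := by rw [h1]; group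

/-- Two elements fixing an octad pointwise commute. -/
theorem commute_of_mem_fixM24 {o : Finset GolayPt} (ho : o ∈ octads) {a b : Equiv.Perm GolayPt}
    (ha : a ∈ fixM24 o) (hb : b ∈ fixM24 o) : a * b = b * a := by
  have h := mul_self_of_mem_fixM24 ho (mul_mem ha hb)
  have ha2 := inv_eq_of_mul_eq_one_right (mul_self_of_mem_fixM24 ho ha)
  have hb2 := inv_eq_of_mul_eq_one_right (mul_self_of_mem_fixM24 ho hb)
  have h' := inv_eq_of_mul_eq_one_right h
  rw [mul_inv_rev, ha2, hb2] at h'
  exact h'.symm

/-- The pointwise stabiliser of an octad is its own centraliser. -/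
theorem mem_fixM24_of_commute {o : Finset GolayPt} (ho : o ∈ octads) {x : Equiv.Perm GolayPt}
    (hx : x ∈ M24) (h : ∀ a ∈ fixM24 o, a * x = x * a) : x ∈ fixM24 o := by
  have hcard : o.card = 8 := ho.2
  obtain ⟨p, hp⟩ := Finset.card_pos.1 (by
    rw [Finset.card_compl, hcard, show Fintype.card GolayPt = 24 by decide +kernel]
    norm_num : 0 < oᶜ.card)
  rw [Finset.mem_compl] at hp
  obtain ⟨p', hp'⟩ := Finset.card_pos.1 (by
    rw [Finset.card_compl, Finset.card_insert_of_notMem hp, hcard,
      show Fintype.card GolayPt = 24 by decide +kernel]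
    norm_num : 0 < (insert p o)ᶜ.card)
  simp only [Finset.mem_compl, Finset.mem_insert, not_or] at hp'
  have hq : x p ∉ o := by
    intro hc
    obtain ⟨a, ha, hap⟩ := exists_fixM24_apply ho hp hp'.2
    have e := Equiv.congr_fun (h a ha) p
    rw [Equiv.Perm.mul_apply, Equiv.Perm.mul_apply, (mem_fixM24.1 ha).2 _ hc, hap] at e
    exact hp'.1 (x.injective e).symm
  obtain ⟨a, ha, hap⟩ := exists_fixM24_apply ho hp hq
  have hy : a⁻¹ * x = 1 := by
    refine eq_one_of_fix_compl ho (mul_mem (inv_mem ha.1) hx) fun r hr => ?_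
    obtain ⟨b, hb, rfl⟩ := exists_fixM24_apply ho hp hr
    have e := Equiv.congr_fun (h b hb) p
    rw [Equiv.Perm.mul_apply, Equiv.Perm.mul_apply] at e
    have e2 := Equiv.congr_fun (commute_of_mem_fixM24 ho (inv_mem ha) hb) (x p)
    rw [Equiv.Perm.mul_apply, Equiv.Perm.mul_apply] at e2
    rw [Equiv.Perm.mul_apply, ← e, e2, ← hap]
    simp
  rw [inv_mul_eq_one] at hy
  rwa [← hy]

/-- The check for the elementary group of the free involution. -/
theorem sextetGens_check :
    (({pairs := sextetGens.map fun P => (P, P)} : SearchSpec).valid &&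
      sextetGens.all (fun P => preserves P &&
        (sextet0.all fun m => imgMask P m == m) &&
        (List.range 24).all fun n => app P (app P n) == n) &&
      ({pairs := sextetGens.map fun P => (P, P)} : SearchSpec).found.all (fun us =>
        (List.range 24).all fun n => evalChosen us (evalChosen us n) == n &&
          sextet0.all fun m => m.testBit n == m.testBit (evalChosen us n)) &&
      (sextet0.all fun m => imgMask invFree m == m) &&
      ((List.range 24).all fun n => app invFree (app invFree n) == n) &&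
      app invFree 0 == 1 &&
      (List.range 24).all fun a =>
        let u := 1 ||| 2 ||| (1 <<< a) ||| (1 <<< app invFree a)
        pop u != 4 || sextet0.contains u ||
          octadMasks.any fun O => (u &&& O == u) && imgMask invFree O != O) = true := by
  decide +kernel

/-- The square-one elements fixing every tetrad of the first sextet. -/
def SextetElem (g : Equiv.Perm GolayPt) : Prop :=
  g ∈ M24 ∧ (∀ t ∈ fins sextet0, g • t = t) ∧ g * g = 1

/-- These elements commute. -/
theorem sextetElem_commute {a b : Equiv.Perm GolayPt} (ha : SextetElem a) (hb : SextetElem b) :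
    a * b = b * a := by
  have mk : ∀ g, SextetElem g → ∃ k : (familyHom (fins sextet0)).ker,
      ((k.1.1 : M24) : Equiv.Perm GolayPt) = g ∧ k * k = 1 := by
    intro g hg
    have hst : (⟨g, hg.1⟩ : M24) ∈ MulAction.stabilizer M24 (fins sextet0) :=
      Finset.eq_of_subset_of_card_le (fun t ht => by
        obtain ⟨u, hu, rfl⟩ := Finset.mem_smul_finset.1 ht
        rw [Subgroup.smul_def]
        exact (hg.2.1 u hu).symm ▸ hu) (Finset.card_smul_finset _ _).ge
    exact ⟨⟨⟨⟨g, hg.1⟩, hst⟩, mem_ker_familyHom.2 hg.2.1⟩, rfl,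
      Subtype.ext (Subtype.ext (Subtype.ext hg.2.2))⟩
  obtain ⟨x, hx, hx2⟩ := mk a ha
  obtain ⟨y, hy, hy2⟩ := mk b hb
  have e := congrArg (fun k : (familyHom (fins sextet0)).ker => ((k.1.1 : M24) : Equiv.Perm GolayPt))
    (sextet0_ker_commute x y hx2 hy2)
  simpa [hx, hy] using e

/-- The elementary group of the first sextet. -/
def sextetElemGroup : Subgroup (Equiv.Perm GolayPt) where
  carrier := {g | SextetElem g}
  one_mem' := ⟨one_mem _, fun _ _ => one_smul _ _, one_mul 1⟩
  mul_mem' := by
    intro a b ha hb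
    refine ⟨mul_mem ha.1 hb.1, fun t ht => by rw [mul_smul, hb.2.1 t ht, ha.2.1 t ht], ?_⟩
    calc a * b * (a * b) = a * b * (b * a) := by rw [sextetElem_commute ha hb]
      _ = a * (b * b) * a := by group
      _ = 1 := by rw [hb.2.2, mul_one, ha.2.2]
  inv_mem' := by
    intro a ha
    have : a⁻¹ = a := inv_eq_of_mul_eq_one_right ha.2.2
    rwa [this]

/-- The free involution lies in the elementary group. -/
theorem invFree_sextetElem : SextetElem (permOf invFree) := by
  have h := sextetGens_check
  simp only [Bool.and_eq_true, List.all_eq_true, beq_iff_eq, List.mem_range] at h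
  refine ⟨invFree_mem.2, fun t ht => ?_, Equiv.ext (forall_pt.2 fun n hn => ?_)⟩
  · obtain ⟨m, hm, rfl⟩ := mem_fins.1 ht
    rw [smul_fin invFree_mem.1, h.1.1.1.2 m hm]
  · rw [Equiv.Perm.mul_apply, permOf_pt invFree_mem.1 hn,
      permOf_pt invFree_mem.1 (app_lt invFree_mem.1 hn), h.1.1.2 n hn, Equiv.Perm.one_apply]

/-- An element commuting with the elementary group lies in it. -/
theorem sextetElem_of_commute {x : Equiv.Perm GolayPt} (hx : x ∈ M24)
    (h : ∀ a, SextetElem a → a * x = x * a) : SextetElem x := by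
  have hck := sextetGens_check
  simp only [Bool.and_eq_true, List.all_eq_true, beq_iff_eq, List.mem_range] at hck
  obtain ⟨⟨⟨⟨⟨⟨hv, hgen⟩, hleaf⟩, -⟩, -⟩, -⟩, -⟩ := hck
  have hperm : ∀ P ∈ sextetGens, isPerm P = true := fun P hP => by
    have := (hgen P hP).1.1
    simp only [preserves, Bool.and_eq_true] at this
    exact this.1
  have hgens : ∀ P ∈ sextetGens, SextetElem (permOf P) := fun P hP =>
    ⟨permOf_mem_M24 (hgen P hP).1.1, fun t ht => by
      obtain ⟨m, hm, rfl⟩ := mem_fins.1 ht
      rw [smul_fin (hperm P hP), (hgen P hP).1.2 m hm],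
      Equiv.ext (forall_pt.2 fun n hn => by
        rw [Equiv.Perm.mul_apply, permOf_pt (hperm P hP) hn,
          permOf_pt (hperm P hP) (app_lt (hperm P hP) hn), (hgen P hP).2 n hn,
          Equiv.Perm.one_apply])⟩
  obtain ⟨us, hus, hev⟩ := SearchSpec.mem_found _ hv hx
    ⟨fun XY hXY => by
      obtain ⟨P, hP, rfl⟩ := List.mem_map.1 hXY
      exact (h _ (hgens P hP)).symm, fun ac hac => by simp at hac, fun e => by simp at e⟩
  refine ⟨hx, fun t ht => ?_, Equiv.ext (forall_pt.2 fun n hn => ?_)⟩
  · obtain ⟨m, hm, rfl⟩ := mem_fins.1 ht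
    refine Finset.eq_of_subset_of_card_le (fun y hy => ?_) (Finset.card_smul_finset _ _).ge
    obtain ⟨w, hw, rfl⟩ := Finset.mem_smul_finset.1 hy
    rw [mem_fin] at hw ⊢
    have e := (hleaf us hus (idx w) (idx_lt w)).2 m hm
    rw [hw] at e
    obtain ⟨e2, hlt⟩ := hev (idx w) (idx_lt w)
    rw [pt_idx] at e2
    rw [Equiv.Perm.smul_def, e2, idx_pt hlt, ← e]
  · rw [Equiv.Perm.mul_apply, (hev n hn).1, (hev _ (hev n hn).2).1, (hleaf us hus n hn).1,
      Equiv.Perm.one_apply]

/-- The centraliser of the free involution preserves the first sextet. -/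
theorem smul_sextet0_of_commute {x : Equiv.Perm GolayPt} (hx : x ∈ M24)
    (h : x * permOf invFree = permOf invFree * x) : x • fins sextet0 = fins sextet0 := by
  have hck := sextetGens_check
  simp only [Bool.and_eq_true, List.all_eq_true, beq_iff_eq, List.mem_range, Bool.or_eq_true,
    bne_iff_ne, List.contains_iff_mem, List.any_eq_true] at hck
  obtain ⟨⟨⟨⟨-, hfix⟩, -⟩, h01⟩, huniq⟩ := hck
  set z := permOf invFree with hzdef
  have hS := smul_mem_sextets hx fins_sextet0_mem
  have hzfix : ∀ t ∈ x • fins sextet0, z • t = t := by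
    intro t ht
    obtain ⟨u, hu, rfl⟩ := Finset.mem_smul_finset.1 ht
    rw [← mul_smul, ← h, mul_smul, invFree_sextetElem.2.1 u hu]
  obtain ⟨t, ht, h0⟩ := sextet_cover hS (pt 0)
  have htz : ∀ w, w ∈ t → z w ∈ t := fun w hw => by
    rw [← hzfix t ht]; exact Finset.smul_mem_smul_finset hw
  have h1 : pt 1 ∈ t := by
    have := htz _ h0
    rwa [hzdef, permOf_pt invFree_mem.1 (by norm_num), h01] at this
  obtain ⟨a, ha, ha'⟩ : ∃ a ∈ t, a ∉ ({pt 0, pt 1} : Finset GolayPt) := by
    refine Finset.exists_mem_notMem_of_card_lt_card ?_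
    rw [hS.2.1 t ht]
    exact lt_of_le_of_lt Finset.card_le_two (by norm_num)
  set u := 1 ||| 2 ||| (1 <<< idx a) ||| (1 <<< app invFree (idx a)) with hu
  have hu' : fin u ⊆ t := by
    rw [hu, fin_lor, fin_lor, fin_lor, fin_shiftLeft_one (idx_lt a),
      fin_shiftLeft_one (app_lt invFree_mem.1 (idx_lt a)),
      show fin 1 = {pt 0} from fin_shiftLeft_one (i := 0) (by norm_num),
      show fin 2 = {pt 1} from fin_shiftLeft_one (i := 1) (by norm_num), pt_idx]
    have hza := htz a ha
    rw [← pt_idx a, hzdef, permOf_pt invFree_mem.1 (idx_lt a)] at hza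
    simp [Finset.insert_subset_iff, h0, h1, ha, hza]
  have hne : a ≠ pt 0 ∧ a ≠ pt 1 := by simpa using ha'
  have hpop : pop u = 4 := by
    have hsmall : ∀ n < 24, n ≠ 0 → n ≠ 1 →
        pop (1 ||| 2 ||| (1 <<< n) ||| (1 <<< app invFree n)) = 4 := by decide +kernel
    refine hsmall _ (idx_lt a) (fun e => hne.1 ?_) fun e => hne.2 ?_ <;> rw [← e, pt_idx]
  have htu : fin u = t := Finset.eq_of_subset_of_card_le hu' (by rw [hS.2.1 t ht, card_fin, hpop])
  rcases huniq (idx a) (idx_lt a) with (h4 | hmem) | ⟨O, hO, hsub, hne'⟩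
  · exact absurd hpop h4
  · exact sextet_eq_of_mem hS fins_sextet0_mem ht (htu ▸ mem_fins.2 ⟨_, hmem, rfl⟩)
  · exfalso
    rw [← hu] at hsub
    have hOo : fin O ∈ octads := mem_octads_iff.2 ⟨O, hO, rfl⟩
    have hOlt := codeMasks_lt (List.mem_filter.1 hO).1
    have hult : u < 2 ^ 24 := by
      refine Nat.or_lt_two_pow (Nat.or_lt_two_pow (by decide) ?_) ?_
      · rw [Nat.one_shiftLeft]; exact Nat.pow_lt_pow_right (by norm_num) (idx_lt a)
      · rw [Nat.one_shiftLeft]
        exact Nat.pow_lt_pow_right (by norm_num) (app_lt invFree_mem.1 (idx_lt a))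
    have hsub' : t ⊆ fin O := htu ▸ (subset_fin_iff hult).2 hsub
    obtain ⟨w, hw, hwt⟩ := Finset.exists_mem_notMem_of_card_lt_card (s := t) (t := fin O) (by
      rw [hS.2.1 t ht, hOo.2]; norm_num)
    obtain ⟨v, hv, hwv⟩ := sextet_cover hS w
    have hvt : v ≠ t := fun e => hwt (e ▸ hwv)
    have hOeq : fin O = t ∪ v := by
      refine octad_eq_of_five hOo (hS.2.2 t ht v hv hvt.symm) ?_
      calc 5 = (insert w t).card := by rw [Finset.card_insert_of_notMem hwt, hS.2.1 t ht]
        _ ≤ _ := Finset.card_le_card (by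
            intro y hy
            rcases Finset.mem_insert.1 hy with rfl | hy
            · simp [hw, hwv]
            · simp [hy, hsub' hy])
    have hfixO : z • fin O = fin O := by
      rw [hOeq, Finset.smul_finset_union, hzfix t ht, hzfix v hv]
    rw [hzdef, smul_fin invFree_mem.1] at hfixO
    have hlt' : imgMask invFree O < 2 ^ 24 := by
      refine Nat.lt_pow_two_of_testBit _ fun i hi => ?_
      by_contra hc
      obtain ⟨j, hj, -, e⟩ := (testBit_imgMask _ _ _).1 (by simpa using hc)
      have := app_lt invFree_mem.1 hj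
      omega
    exact hne' (fin_inj hlt' hOlt hfixO)

/-- The centraliser of the free involution normalises the elementary group. -/
theorem sextetElem_conj {x a : Equiv.Perm GolayPt} (hx : x ∈ M24)
    (h : x * permOf invFree = permOf invFree * x) (ha : SextetElem a) :
    SextetElem (x * a * x⁻¹) := by
  refine ⟨mul_mem (mul_mem hx ha.1) (inv_mem hx), fun t ht => ?_, ?_⟩
  · rw [← smul_sextet0_of_commute hx h] at ht
    obtain ⟨u, hu, rfl⟩ := Finset.mem_smul_finset.1 ht
    rw [mul_smul, mul_smul, inv_smul_smul, ha.2.1 u hu]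
  · rw [show x * a * x⁻¹ * (x * a * x⁻¹) = x * (a * a) * x⁻¹ by group, ha.2.2]
    group

end Cfsg.Agent.H11
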