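import Cfsg.Agent.H11.M24Chain

/-!
Kernel-checked searches through the automorphism group of the code for the elements with
prescribed images that intertwine given permutations.
-/

set_option autoImplicit false

namespace Cfsg.Agent.H11

open Cfsg Cfsg.Agent.H12
open scoped Pointwise

/-- The chain of the automorphism group as a literal table. -/
def chainTable : List (ℕ × List ℕ) :=
  [(0, [984818244535754528103549039458486304,
      956302485175575353788796878166559809,
      956709441910203461498593497208492130,
      958020233522794296771657265635857539,
      956085195133363055212480936219446308,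
      957425142709759139735883430963155013,
      978766510459594708251448298497017958,
      980106457146221389564379418514361479,
      748631715968774217324450783055548840,
      29128872078062367489448666720552297,
      963716496262025890856626474012726794,
      29492376736006929088146330296305131,
      42474427424899072460790245135567372,
      85312185050366474671588816010464813,
      30596650610690344108468126695669358,
      15200453133970992512463437727114799,
      57144517086277493021102530699602512,
      30038786321973151969200033103462097,
      955976305995358692400003018625453266,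
      957316225099133873385554888546685171,
      958656172675529957934853081123656980,
      943714182190459353178517000962980181,
      29911808450092068199315215539027318,
      1795248432537898728475572672376535]),
    (1, [984818244535754528103549039458486304,
      969952412052033243847481939299780672,
      583690493180416989452452676390600800,
      977864963184960973661438897150854272,
      778411478290294179901531357716743328,
      980275914351787324191492553553580224,
      71622630723455132580886374557817056,
      130402674224543437074455532830806272,
      838883617357356126899742609490284832,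
      725716358336581435731216732012055872,
      177050923557644003858460691145107808,
      148879281121283769194027318053066112,
      142994246331877471027582210974309792,
      53755604594324000138177946086168000,
      717294236245559594130671205463099872,
      593754219722935181141352091902789120,
      763659903197980584223485110918402592,
      974380510768821363662145534143076928,
      104183592991267248591668137658719840,
      601187596043268255872977351117868672,
      196829713920590373143539640432806560,
      266763889757323667425631895329248960,
      606430463705032075921020289251791584]),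
    (2, [984818244535754528103549039458486304,
      340894152382560060102434310215339040,
      265355505917517442913914099774591008,
      346685567440319751704895912555549728,
      546919322490336042204974090499004448,
      849843943362795515336564331421113376,
      444133162404901071253432683328938016,
      969847191801399558233399228615992352,
      95415054529702552535743898582394912,
      105805260100430107312940058240429088,
      980379867925704874017840786305658912,
      524651521021294656303303872508900384,
      896567700007366845795934036117960736,
      216918559710685827322053602176318496,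
      148605755676466891637738335802572832,
      518160071123036300622886103761208352,
      436343920059115640675530239916656672,
      264052003138047643879441348657564704,
      393465023254853140546941875360550944,
      919567949732340458250564702791881760,
      231761403235377024711390263645558816,
      350574576557321390340045502320106528]),
    (3, [984818244535754528103549039458486304,
      217408957540344862479283318190901280,
      684456119701910706478593937236985888,
      804941980655735563293927719824459808,
      142400717261270866053066117568759840,
      518633424265554289572151083052304416,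
      521474159680566210179592461224282144,
      265687652546707508159198116260939808,
      879341476112819374963649942131148832,
      550559278225846660827448987488749600,
      892071844331370943444048888344250400,
      178454214236841968444599244426774560,
      355922237276548628032897660996782112,
      485103518114501577764691303726581792,
      802361316253807648011817640571471904,
      627445903499155799994944677981259808,
      835602682820164989315929965961250848,
      639386786986142032509243029591820320,
      723616453572079757431230903788144672,
      398846520363259689045371555561539616,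
      941614207565268935012234214436997152]),
    (4, [984818244535754528103549039458486304,
      794896043732506629988155662688946208,
      719923664328491199848526586197411872,
      852126409196412440964575260497250336,
      763539600815982171070945127747913760,
      715872302521680643580706198532491296,
      850946838026957712471260252153677856,
      217568863691043278849350747999537184,
      970499966350631336865513127433832480,
      606692872066121800429178008913414176,
      838853222281003531543331689327593504,
      932855694972972591231736865702905888,
      545570879383403539461220947330172960,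
      859740251716698750016678355514001440,
      672574502746226008614528869365549088,
      520982303589456157382890562251753504,
      174174698814370645007456096932169760,
      927493976114274144409598013708797984,
      816130231148104735875372722493163552,
      435601772262583490457490583500982304]),
    (7, [984818244535754528103549039458486304,
      351355605056243205221527583111350304,
      399377704341898151808080305612490784]),
    (5, [984818244535754528103549039458486304,
      479663310730678034207776437455390752,
      651239579074641248992907580101724192,
      944319304547998642267612847938832416,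
      268195153026948482477577069584812064,
      772944516003414818434737759861180448,
      720981692062171673584743151055243296,
      358662142733855540651195105552730144,
      812852730107173232200347929486133280,
      590072960059042287979885064796342304,
      561475773312554808336860583768983584,
      681942991418186671700734416290678816,
      892716570080838209712931004353710112,
      841384528646309054241536335100872736,
      380679813245078647833929983948064800,
      220213109803259289183002082616117280])]

/-- The literal table is the chain. -/
theorem chainTable_eq : chainTable = m24Chain := by decide +kernel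

/-- What is searched for: intertwined pairs, prescribed images, and being of square one. -/
structure SearchSpec where
  pairs : List (ℕ × ℕ) := []
  img : List (ℕ × ℕ) := []
  sq : Bool := false

/-- The elements searched for. -/
def SearchSpec.Holds (S : SearchSpec) (g : Equiv.Perm GolayPt) : Prop :=
  (∀ XY ∈ S.pairs, g * permOf XY.1 = permOf XY.2 * g) ∧
    (∀ ac ∈ S.img, g (pt ac.1) = pt ac.2) ∧ (S.sq = true → g * g = 1)

/-- The packed data of a specification are valid. -/
def SearchSpec.valid (S : SearchSpec) : Bool :=
  (S.pairs.all fun XY => isPerm XY.1 && isPerm XY.2) &&
    S.img.all fun ac => decide (ac.1 < 24) && decide (ac.2 < 24)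

/-- The image of a point under the product of chosen permutations, the last chosen first. -/
def evalChosen (ts : List ℕ) (n : ℕ) : ℕ := ts.foldl (fun x t => app t x) n

/-- A new image `a ↦ c` is compatible with the known images. -/
def SearchSpec.compat (S : SearchSpec) (a c : ℕ) (acc : List (ℕ × ℕ)) : Bool :=
  (S.img.all fun p => p.1 != a || p.2 == c) &&
    acc.all fun bd =>
      (S.pairs.all fun XY => ((app XY.1 a == bd.1) == (app XY.2 c == bd.2)) &&
        ((app XY.1 bd.1 == a) == (app XY.2 bd.2 == c))) &&
      (!S.sq || ((bd.1 == c) == (bd.2 == a)))

/-- The exact test on all points. -/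
def SearchSpec.leafOK (S : SearchSpec) (ts : List ℕ) : Bool :=
  (S.img.all fun p => evalChosen ts p.1 == p.2) &&
    (List.range 24).all fun n =>
      (S.pairs.all fun XY => evalChosen ts (app XY.1 n) == app XY.2 (evalChosen ts n)) &&
        (!S.sq || evalChosen ts (evalChosen ts n) == n)

/-- The depth-first search. -/
def SearchSpec.searchFrom (S : SearchSpec) :
    List (ℕ × List ℕ) → List ℕ → List (ℕ × ℕ) → List (List ℕ)
  | [], ts, _ => bif S.leafOK ts then [ts] else []
  | (b, T) :: L, ts, acc => T.flatMap fun t =>
    let acc' := (b, evalChosen (t :: ts) b) :: acc
    bif S.compat b (evalChosen (t :: ts) b) acc' then S.searchFrom L (t :: ts) acc' else []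

/-- All elements found. -/
def SearchSpec.found (S : SearchSpec) : List (List ℕ) := S.searchFrom chainTable [] []

/-- The product of chosen permutations. -/
noncomputable def prodChosen : List ℕ → Equiv.Perm GolayPt
  | [] => 1
  | t :: ts => prodChosen ts * permOf t

/-- The product evaluates as computed. -/
theorem prodChosen_pt : ∀ (ts : List ℕ), (∀ t ∈ ts, isPerm t = true) → ∀ n < 24,
    prodChosen ts (pt n) = pt (evalChosen ts n) ∧ evalChosen ts n < 24
  | [], _, n, hn => ⟨rfl, hn⟩
  | t :: ts, h, n, hn => by
    have ht := h t (List.mem_cons_self ..)
    have hlt := app_lt ht hn
    have ih := prodChosen_pt ts (fun s hs => h s (List.mem_cons_of_mem _ hs)) _ hlt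
    refine ⟨?_, ih.2⟩
    rw [prodChosen, Equiv.Perm.mul_apply, permOf_pt ht hn, ih.1]
    rfl

/-- Known images of a searched element are compatible. -/
theorem SearchSpec.compat_of_holds (S : SearchSpec) (hv : S.valid = true)
    {g : Equiv.Perm GolayPt} (hS : S.Holds g) {a c : ℕ} (ha : a < 24) (hc : c < 24)
    (hac : g (pt a) = pt c) {acc : List (ℕ × ℕ)}
    (hacc : ∀ bd ∈ acc, bd.1 < 24 ∧ bd.2 < 24 ∧ g (pt bd.1) = pt bd.2) :
    S.compat a c acc = true := by
  simp only [SearchSpec.valid, Bool.and_eq_true, List.all_eq_true, decide_eq_true_eq] at hv
  simp only [SearchSpec.compat, Bool.and_eq_true, List.all_eq_true, Bool.or_eq_true,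
    bne_iff_ne, beq_iff_eq, Bool.not_eq_true']
  refine ⟨fun p hp => ?_, fun bd hbd => ⟨fun XY hXY => ?_, ?_⟩⟩
  · by_cases e : p.1 = a
    · right
      have := hS.2.1 p hp
      rw [e, hac] at this
      exact (pt_inj hc (hv.2 p hp).2 this).symm
    · exact Or.inl e
  · obtain ⟨hX, hY⟩ := hv.1 XY hXY
    have key : ∀ a c b d : ℕ, a < 24 → c < 24 → b < 24 → d < 24 → g (pt a) = pt c →
        g (pt b) = pt d → (app XY.1 a == b) = (app XY.2 c == d) := by
      intro a c b d ha hc hb hd hac hbd
      have e := Equiv.congr_fun (hS.1 XY hXY) (pt a)
      rw [Equiv.Perm.mul_apply, Equiv.Perm.mul_apply, permOf_pt hX ha, hac, permOf_pt hY hc] at e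
      rw [Bool.eq_iff_iff, beq_iff_eq, beq_iff_eq]
      constructor
      · intro h
        rw [h, hbd] at e
        exact (pt_inj hd (app_lt hY hc) e).symm
      · intro h
        rw [h, ← hbd] at e
        exact pt_inj (app_lt hX ha) hb (g.injective e)
    obtain ⟨hb, hd, hbd'⟩ := hacc bd hbd
    exact ⟨key _ _ _ _ ha hc hb hd hac hbd', key _ _ _ _ hb hd ha hc hbd' hac⟩
  · cases hsq : S.sq
    · exact Or.inl rfl
    · right
      obtain ⟨hb, hd, hbd'⟩ := hacc bd hbd
      have e := hS.2.2 hsq
      rw [Bool.eq_iff_iff, beq_iff_eq, beq_iff_eq]
      constructor
      · intro h
        have e' := Equiv.congr_fun e (pt a)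
        rw [Equiv.Perm.mul_apply, hac, Equiv.Perm.one_apply, ← h, hbd'] at e'
        exact pt_inj hd ha e'
      · intro h
        have e' := Equiv.congr_fun e (pt bd.1)
        rw [Equiv.Perm.mul_apply, hbd', Equiv.Perm.one_apply, h, hac] at e'
        exact (pt_inj hc hb e').symm

/-- A searched element passes the exact test. -/
theorem SearchSpec.leafOK_of_holds (S : SearchSpec) (hv : S.valid = true)
    {g : Equiv.Perm GolayPt} (hS : S.Holds g) (ts : List ℕ)
    (hts : ∀ n < 24, g (pt n) = pt (evalChosen ts n) ∧ evalChosen ts n < 24) :
    S.leafOK ts = true := by
  simp only [SearchSpec.valid, Bool.and_eq_true, List.all_eq_true, decide_eq_true_eq] at hv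
  simp only [SearchSpec.leafOK, Bool.and_eq_true, List.all_eq_true, Bool.or_eq_true,
    beq_iff_eq, Bool.not_eq_true', List.mem_range]
  refine ⟨fun p hp => ?_, fun n hn => ⟨fun XY hXY => ?_, ?_⟩⟩
  · obtain ⟨h1, h2⟩ := hv.2 p hp
    have := hS.2.1 p hp
    rw [(hts _ h1).1] at this
    exact pt_inj (hts _ h1).2 h2 this
  · obtain ⟨hX, hY⟩ := hv.1 XY hXY
    have e := Equiv.congr_fun (hS.1 XY hXY) (pt n)
    rw [Equiv.Perm.mul_apply, Equiv.Perm.mul_apply, permOf_pt hX hn, (hts n hn).1,
      permOf_pt hY (hts n hn).2, (hts _ (app_lt hX hn)).1] at e
    exact pt_inj (hts _ (app_lt hX hn)).2 (app_lt hY (hts n hn).2) e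
  · cases hsq : S.sq
    · exact Or.inl rfl
    · right
      have e := Equiv.congr_fun (hS.2.2 hsq) (pt n)
      rw [Equiv.Perm.mul_apply, (hts n hn).1, (hts _ (hts n hn).2).1, Equiv.Perm.one_apply] at e
      exact pt_inj (hts _ (hts n hn).2).2 hn e

/-- The search along a full chain misses nothing. -/
theorem SearchSpec.mem_searchFrom (S : SearchSpec) (hv : S.valid = true)
    {g : Equiv.Perm GolayPt} (hS : S.Holds g) :
    ∀ (L : List (ℕ × List ℕ)), (∀ bl ∈ L, bl.1 < 24 ∧ ∀ P ∈ bl.2, isPerm P = true) →
    ∀ (H : Subgroup (Equiv.Perm GolayPt)), ChainBelow H (toChain L) → ChainFull H (toChain L) →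
    ∀ (ts : List ℕ) (h : Equiv.Perm GolayPt) (acc : List (ℕ × ℕ)), h ∈ H →
      g = prodChosen ts * h → (∀ t ∈ ts, isPerm t = true) →
      (∀ bd ∈ acc, bd.1 < 24 ∧ bd.2 < 24 ∧ g (pt bd.1) = pt bd.2) →
      ∃ us ∈ S.searchFrom L ts acc,
        ∀ n < 24, g (pt n) = pt (evalChosen us n) ∧ evalChosen us n < 24
  | [], _, H, _, hF, ts, h, acc, hh, hg, hts, _ => by
    have h1 : h = 1 := by
      have e : H = ⊥ := hF
      simpa [e] using hh
    rw [h1, mul_one] at hg
    have hev : ∀ n < 24, g (pt n) = pt (evalChosen ts n) ∧ evalChosen ts n < 24 :=
      fun n hn => by rw [hg]; exact prodChosen_pt ts hts n hn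
    refine ⟨ts, ?_, hev⟩
    simp [SearchSpec.searchFrom, S.leafOK_of_holds hv hS ts hev]
  | (b, T) :: L, hL, H, hB, hF, ts, h, acc, hh, hg, hts, hacc => by
    simp only [toChain, List.map_cons] at hB hF
    obtain ⟨hT, hnd, hB'⟩ := hB
    obtain ⟨hF1, hF'⟩ := hF
    obtain ⟨t', ht', htb⟩ := hF1 h hh
    obtain ⟨t, ht, rfl⟩ := List.mem_map.1 ht'
    obtain ⟨hb, hperm⟩ := hL (b, T) (List.mem_cons_self ..)
    have hk : (permOf t)⁻¹ * h ∈ H ⊓ MulAction.stabilizer (Equiv.Perm GolayPt) (pt b) :=
      ⟨H.mul_mem (H.inv_mem (hT _ (List.mem_map_of_mem ht))) hh, by
        simp [← htb, Equiv.Perm.smul_def]⟩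
    have hts' : ∀ s ∈ t :: ts, isPerm s = true := by
      intro s hs
      rcases List.mem_cons.1 hs with rfl | hs
      exacts [hperm _ ht, hts s hs]
    have hg' : g = prodChosen (t :: ts) * ((permOf t)⁻¹ * h) := by
      rw [prodChosen, hg]; group
    have hgb : g (pt b) = pt (evalChosen (t :: ts) b) := by
      rw [hg', Equiv.Perm.mul_apply,
        show ((permOf t)⁻¹ * h) (pt b) = pt b by simpa [Equiv.Perm.smul_def] using hk.2,
        (prodChosen_pt _ hts' b hb).1]
    have hlt := (prodChosen_pt _ hts' b hb).2
    set acc' := (b, evalChosen (t :: ts) b) :: acc with hacc'
    have hacc2 : ∀ bd ∈ acc', bd.1 < 24 ∧ bd.2 < 24 ∧ g (pt bd.1) = pt bd.2 := by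
      intro bd hbd
      rcases List.mem_cons.1 hbd with rfl | hbd
      exacts [⟨hb, hlt, hgb⟩, hacc bd hbd]
    obtain ⟨us, hus, hev⟩ := S.mem_searchFrom hv hS L
      (fun bl hbl => hL bl (List.mem_cons_of_mem _ hbl)) _ hB' hF' (t :: ts) _ acc' hk hg' hts' hacc2
    refine ⟨us, ?_, hev⟩
    simp only [SearchSpec.searchFrom, List.mem_flatMap]
    refine ⟨t, ht, ?_⟩
    rw [← hacc', S.compat_of_holds hv hS hb hlt hgb hacc2]
    exact hus

/-- Every searched element of the automorphism group is found. -/
theorem SearchSpec.mem_found (S : SearchSpec) (hv : S.valid = true) {g : Equiv.Perm GolayPt}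
    (hg : g ∈ M24) (hS : S.Holds g) :
    ∃ us ∈ S.found, ∀ n < 24, g (pt n) = pt (evalChosen us n) ∧ evalChosen us n < 24 := by
  have hok : (m24Chain.all fun bl => decide (bl.1 < 24) && bl.2.all fun P => isPerm P) = true := by
    decide +kernel
  simp only [List.all_eq_true, Bool.and_eq_true, decide_eq_true_eq] at hok
  rw [SearchSpec.found, chainTable_eq]
  exact S.mem_searchFrom hv hS m24Chain hok M24 m24Chain_below m24Chain_full [] g [] hg
    (by simp [prodChosen]) (by simp) (by simp)

/-- Nothing found means no element. -/
theorem SearchSpec.not_holds (S : SearchSpec) (hv : S.valid = true)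
    (h0 : S.found.isEmpty = true) {g : Equiv.Perm GolayPt} (hg : g ∈ M24) : ¬ S.Holds g := by
  intro hS
  obtain ⟨us, hus, -⟩ := S.mem_found hv hg hS
  rw [List.isEmpty_iff] at h0
  simp [h0] at hus

/-- The number found bounds the number of elements. -/
theorem SearchSpec.card_le (S : SearchSpec) (hv : S.valid = true)
    (s : Set (Equiv.Perm GolayPt)) (hs : ∀ g ∈ s, g ∈ M24 ∧ S.Holds g) :
    Nat.card s ≤ S.found.length := by
  classical
  choose us hus hev using fun g : s => S.mem_found hv (hs g g.2).1 (hs g g.2).2
  rw [← Nat.card_fin S.found.length]
  choose i hi using fun g : s => List.mem_iff_get.1 (hus g)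
  refine Nat.card_le_card_of_injective i fun g g' e => Subtype.ext (Equiv.ext (forall_pt.2 ?_))
  intro n hn
  rw [(hev g n hn).1, (hev g' n hn).1, ← hi g, ← hi g', e]

end Cfsg.Agent.H11
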