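import Cfsg.Agent.H26.CharInvolutions
import Cfsg.Agent.H25.CharValues

/-!
Lower bounds for the norm of an irreducible character on the elements of a given order, from the
congruences that the multiplicities of roots of unity satisfy.
-/

set_option autoImplicit false

open scoped Classical

namespace Cfsg.Agent.H11

section Combinatorics

/-- `r(p - r)` is subadditive on residues. -/
theorem residue_mul_le {p a k : ℕ} (ha : a < p) (hk : k ≤ p) :
    (((a + k) % p : ℕ) : ℤ) * (p - ((a + k) % p : ℕ)) ≤ (a : ℤ) * (p - a) + (k : ℤ) * (p - k) := by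
  by_cases h : a + k < p
  · rw [Nat.mod_eq_of_lt h]
    push_cast
    nlinarith
  · rw [Nat.mod_eq_sub_mod (by omega), Nat.mod_eq_of_lt (by omega)]
    push_cast [Nat.cast_sub (not_lt.1 h)]
    nlinarith [mul_nonneg (show (0 : ℤ) ≤ p - a by omega) (show (0 : ℤ) ≤ p - k by omega)]

/-- The pairwise differences of a distribution of `n` items in `p` boxes. -/
theorem residue_le_sum_abs {ι : Type*} [Fintype ι] :
    ∀ (n : ℕ) (C : ι → ℕ), ∑ j, C j = n →
      2 * (((n % Fintype.card ι : ℕ) : ℤ) * (Fintype.card ι - (n % Fintype.card ι : ℕ))) ≤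
        ∑ j, ∑ j', |(C j : ℤ) - C j'| := by
  intro n
  induction n using Nat.strong_induction_on with
  | _ n ih =>
    intro C hC
    set p := Fintype.card ι with hp
    rcases Nat.eq_zero_or_pos n with rfl | hn
    · simp only [Nat.zero_mod, Nat.cast_zero, zero_mul, mul_zero]
      positivity
    set K := Finset.univ.filter fun j => 0 < C j with hK
    have hkp : K.card ≤ p := Finset.card_le_univ _
    have hk0 : 0 < K.card := by
      obtain ⟨j, -, hj⟩ := Finset.exists_ne_zero_of_sum_ne_zero (by rw [hC]; omega : ∑ j, C j ≠ 0)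
      exact Finset.card_pos.2 ⟨j, by simp [hK, Nat.pos_of_ne_zero hj]⟩
    have hsum : ∑ j, (C j - 1) + K.card = n := by
      rw [hK, Finset.card_filter, ← Finset.sum_add_distrib, ← hC]
      exact Finset.sum_congr rfl fun j _ => by split_ifs <;> omega
    have hd : ∀ j j', |(C j : ℤ) - C j'| = |((C j - 1 : ℕ) : ℤ) - (C j' - 1 : ℕ)| +
        ((if 0 < C j then 1 else 0) * (1 - if 0 < C j' then 1 else 0) +
          (1 - if 0 < C j then 1 else 0) * if 0 < C j' then 1 else 0) := by
      intro j j'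
      split_ifs with h1 h2 h2
      · rw [Nat.cast_sub h1, Nat.cast_sub h2]; push_cast; ring_nf
      · have e : C j' = 0 := by omega
        rw [e, Nat.cast_sub h1]; push_cast
        rw [abs_of_nonneg (by omega), abs_of_nonneg (by omega)]; ring
      · have e : C j = 0 := by omega
        rw [e, Nat.cast_sub h2]; push_cast
        rw [abs_of_nonpos (by omega), abs_of_nonpos (by omega)]; ring
      · simp [show C j = 0 by omega, show C j' = 0 by omega]
    simp only [hd, Finset.sum_add_distrib, ← Finset.mul_sum, ← Finset.sum_mul]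
    have e1 : ∑ j, (if 0 < C j then (1 : ℤ) else 0) = K.card := by
      rw [hK, Finset.card_filter]; push_cast; rfl
    have e2 : ∑ j, (1 - if 0 < C j then (1 : ℤ) else 0) = p - K.card := by
      rw [Finset.sum_sub_distrib, e1]; simp [hp]
    rw [e1, e2]
    have hih := ih (n - K.card) (by omega) (fun j => C j - 1) (by omega)
    by_cases hp0 : p = 0
    · omega
    have hres := residue_mul_le (Nat.mod_lt (n - K.card) (Nat.pos_of_ne_zero hp0)) hkp
    rw [Nat.mod_add_mod, Nat.sub_add_cancel (by omega)] at hres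
    linarith

variable {ι κ : Type*} [Fintype ι] [Fintype κ]

/-- The multiplicities form of the pairwise squares. -/
theorem sum_sum_sub_sq (C : ι → ℤ) :
    ∑ j, ∑ j', (C j - C j') ^ 2 = 2 * (Fintype.card ι * ∑ j, C j ^ 2 - (∑ j, C j) ^ 2) := by
  simp only [sub_sq, Finset.sum_add_distrib, Finset.sum_sub_distrib, ← Finset.mul_sum,
    ← Finset.sum_mul, Finset.sum_const, Finset.card_univ, nsmul_eq_mul]
  ring

/-- The norm bound for an element of prime order. -/
theorem residue_le_sq (C : ι → ℕ) {n : ℕ} (hC : ∑ j, C j = n) :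
    ((n % Fintype.card ι : ℕ) : ℤ) * (Fintype.card ι - (n % Fintype.card ι : ℕ)) ≤
      Fintype.card ι * ∑ j, (C j : ℤ) ^ 2 - (n : ℤ) ^ 2 := by
  have h := residue_le_sum_abs n C hC
  have h2 : ∑ j, ∑ j', |(C j : ℤ) - C j'| ≤ ∑ j, ∑ j', ((C j : ℤ) - C j') ^ 2 :=
    Finset.sum_le_sum fun j _ => Finset.sum_le_sum fun j' _ => (by rw [← sq_abs ((C j : ℤ) - C j')]; exact Int.le_self_sq _)
  rw [sum_sum_sub_sq fun j => (C j : ℤ)] at h2
  have hn : (∑ j, (C j : ℤ)) = n := by rw [← hC]; push_cast; rfl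
  rw [hn] at h2
  linarith

/-- The multiplicity identity for an element of order `3q`. -/
theorem sum_sum_three (M : Fin 3 → ι → ℤ) :
    ∑ j, ∑ j', (3 * ∑ i, (M i j - M i j') ^ 2 - (∑ i, M i j - ∑ i, M i j') ^ 2) =
      2 * (3 * Fintype.card ι * ∑ i, ∑ j, M i j ^ 2 - 3 * ∑ i, (∑ j, M i j) ^ 2 -
        (Fintype.card ι * ∑ j, (∑ i, M i j) ^ 2 - (∑ i, ∑ j, M i j) ^ 2)) := by
  simp only [Finset.sum_sub_distrib]
  rw [sum_sum_sub_sq fun j => ∑ i, M i j, Finset.sum_comm (f := fun j i => M i j)]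
  simp only [← Finset.mul_sum]
  rw [show (∑ j, ∑ j', ∑ i, (M i j - M i j') ^ 2) = ∑ i, ∑ j, ∑ j', (M i j - M i j') ^ 2 from
    (Finset.sum_congr rfl fun j _ => Finset.sum_comm).trans Finset.sum_comm]
  simp only [sum_sum_sub_sq, ← Finset.mul_sum, Finset.sum_sub_distrib]
  ring

/-- A difference vector whose entries do not sum to a multiple of three is not constant. -/
theorem two_le_three_sub (u : Fin 3 → ℤ) (h : ¬ (3 : ℤ) ∣ ∑ i, u i) :
    2 ≤ 3 * ∑ i, u i ^ 2 - (∑ i, u i) ^ 2 := by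
  simp only [Fin.sum_univ_three] at *
  set a := u 0
  set b := u 1
  set c := u 2
  have e : 3 * (a ^ 2 + b ^ 2 + c ^ 2) - (a + b + c) ^ 2 =
      (a - b) ^ 2 + (b - c) ^ 2 + (a - c) ^ 2 := by ring
  rw [e]
  by_cases hab : a = b
  · have hbc : b ≠ c := fun e => h ⟨a, by omega⟩
    nlinarith [mul_self_pos.2 (sub_ne_zero.2 hbc), mul_self_pos.2
      (sub_ne_zero.2 (show a ≠ c by omega))]
  · by_cases hbc : b = c
    · nlinarith [mul_self_pos.2 (sub_ne_zero.2 hab), mul_self_pos.2
        (sub_ne_zero.2 (show a ≠ c by omega))]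
    · nlinarith [mul_self_pos.2 (sub_ne_zero.2 hab), mul_self_pos.2 (sub_ne_zero.2 hbc)]

/-- A difference vector gives a nonnegative excess. -/
theorem three_sub_nonneg (u : Fin 3 → ℤ) : 0 ≤ 3 * ∑ i, u i ^ 2 - (∑ i, u i) ^ 2 := by
  simp only [Fin.sum_univ_three]
  nlinarith [sq_nonneg (u 0 - u 1), sq_nonneg (u 1 - u 2), sq_nonneg (u 0 - u 2)]

/-- The norm bound for an element of order 15 in a degree prime to 5. -/
theorem thirtysix_le (M : Fin 3 → Fin 5 → ℤ) (h5 : ¬ (5 : ℤ) ∣ ∑ i, ∑ j, M i j) :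
    36 ≤ (5 * ∑ j, (∑ i, M i j) ^ 2 - (∑ i, ∑ j, M i j) ^ 2) +
      4 * (15 * ∑ i, ∑ j, M i j ^ 2 - 3 * ∑ i, (∑ j, M i j) ^ 2 -
        (5 * ∑ j, (∑ i, M i j) ^ 2 - (∑ i, ∑ j, M i j) ^ 2)) := by
  set C := fun j => ∑ i, M i j with hC
  have hpair : ∀ j j', (if C j = C j' then (0 : ℤ) else 9) ≤ (C j - C j') ^ 2 +
      4 * (3 * ∑ i, (M i j - M i j') ^ 2 - (C j - C j') ^ 2) := by
    intro j j'
    have hsum : ∑ i, (M i j - M i j') = C j - C j' := by rw [Finset.sum_sub_distrib]
    have h0 := three_sub_nonneg fun i => M i j - M i j'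
    rw [hsum] at h0
    split_ifs with e
    · nlinarith
    · by_cases h3 : (3 : ℤ) ∣ C j - C j'
      · obtain ⟨k, hk⟩ := h3
        have : k ≠ 0 := fun e' => e (by subst e'; omega)
        have h1 : 1 ≤ k ^ 2 := by nlinarith [mul_self_pos.2 this]
        rw [hk] at h0 ⊢
        nlinarith
      · have h2 := two_le_three_sub (fun i => M i j - M i j') (by rwa [hsum])
        rw [hsum] at h2
        nlinarith [mul_self_pos.2 (sub_ne_zero.2 e)]
  have hcount : 8 * 9 ≤ ∑ j : Fin 5, ∑ j', (if C j = C j' then (0 : ℤ) else 9) := by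
    set K := Finset.univ.filter fun j => C j = C 0
    have hK1 : 1 ≤ K.card := Finset.card_pos.2 ⟨0, by simp [K]⟩
    have hK4 : Kᶜ.card ≠ 0 := by
      intro h0
      refine h5 ⟨C 0, ?_⟩
      rw [Finset.sum_comm]
      have : ∀ j, C j = C 0 := fun j => by
        by_contra hne
        have : j ∈ Kᶜ := by simp [K, hne]
        rw [Finset.card_eq_zero.1 h0] at this
        simp at this
      simp only [hC] at this ⊢
      simp [this]
    have hle : K ×ˢ Kᶜ ∪ Kᶜ ×ˢ K ⊆
        (Finset.univ ×ˢ Finset.univ).filter fun q : Fin 5 × Fin 5 => ¬ C q.1 = C q.2 := by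
      rintro ⟨a, b⟩ hab
      simp only [K, Finset.mem_union, Finset.mem_product, Finset.mem_compl, Finset.mem_filter,
        Finset.mem_univ, true_and] at hab ⊢
      rcases hab with ⟨ha, hb⟩ | ⟨ha, hb⟩
      · exact fun e => hb (e ▸ ha)
      · exact fun e => ha (e.trans hb)
    have hc := Finset.card_le_card hle
    rw [Finset.card_union_of_disjoint, Finset.card_product, Finset.card_product] at hc
    · have hcc : K.card + Kᶜ.card = 5 := by rw [Finset.card_add_card_compl, Fintype.card_fin]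
      have h8 : 8 ≤ ((Finset.univ ×ˢ Finset.univ).filter
          fun q : Fin 5 × Fin 5 => ¬ C q.1 = C q.2).card := by
        have : K.card ≤ 4 := by omega
        interval_cases K.card <;> omega
      rw [← Finset.sum_product (f := fun q : Fin 5 × Fin 5 =>
        if C q.1 = C q.2 then (0 : ℤ) else 9), Finset.sum_ite, Finset.sum_const_zero, zero_add,
        Finset.sum_const, nsmul_eq_mul]
      have : (8 : ℤ) ≤ ((Finset.univ ×ˢ Finset.univ).filter
          fun q : Fin 5 × Fin 5 => ¬ C q.1 = C q.2).card := by exact_mod_cast h8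
      linarith
    · rw [Finset.disjoint_left]
      intro q h1 h2
      simp only [Finset.mem_product, Finset.mem_compl] at h1 h2
      exact h2.1 h1.1
  have h := le_trans hcount (Finset.sum_le_sum fun j _ => Finset.sum_le_sum fun j' _ => hpair j j')
  simp only [Finset.sum_add_distrib, ← Finset.mul_sum] at h
  rw [sum_sum_sub_sq C, sum_sum_three M, Fintype.card_fin] at h
  simp only [hC] at h ⊢
  rw [Finset.sum_comm (f := fun j i => M i j)] at h
  push_cast at h
  linarith

/-- The norm bound for an element of order 21. -/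
theorem three_residue_le (M : Fin 3 → Fin 7 → ℕ) {n : ℕ} (hn : ∑ i, ∑ j, M i j = n) :
    3 * (((n % 7 : ℕ) : ℤ) * (7 - (n % 7 : ℕ))) ≤
      (7 * ∑ j, (∑ i, (M i j : ℤ)) ^ 2 - (n : ℤ) ^ 2) +
      (21 * ∑ i, ∑ j, (M i j : ℤ) ^ 2 - 3 * ∑ i, (∑ j, (M i j : ℤ)) ^ 2 -
        (7 * ∑ j, (∑ i, (M i j : ℤ)) ^ 2 - (n : ℤ) ^ 2)) := by
  set C := fun j => ∑ i, M i j with hC
  have hpair : ∀ j j', 3 * |(C j : ℤ) - C j'| ≤ ((∑ i, (M i j : ℤ)) - ∑ i, (M i j' : ℤ)) ^ 2 +
      (3 * ∑ i, ((M i j : ℤ) - M i j') ^ 2 -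
        ((∑ i, (M i j : ℤ)) - ∑ i, (M i j' : ℤ)) ^ 2) := by
    intro j j'
    have hsum : ∑ i, ((M i j : ℤ) - M i j') = (C j : ℤ) - C j' := by
      rw [Finset.sum_sub_distrib]; simp [hC]
    have e : ((∑ i, (M i j : ℤ)) - ∑ i, (M i j' : ℤ)) = (C j : ℤ) - C j' := by simp [hC]
    have h0 := three_sub_nonneg fun i => (M i j : ℤ) - M i j'
    rw [hsum] at h0
    rw [e]
    set s := (C j : ℤ) - C j'
    by_cases h3 : 3 ≤ |s|
    · nlinarith [sq_abs s]
    · by_cases hs : (3 : ℤ) ∣ s
      · have : s = 0 := Int.eq_zero_of_abs_lt_dvd hs (by omega)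
        rw [this] at h0 ⊢
        simp only [abs_zero]
        linarith
      · have h2 := two_le_three_sub (fun i => (M i j : ℤ) - M i j') (by rwa [hsum])
        rw [hsum] at h2
        nlinarith [sq_abs s, abs_nonneg s, mul_self_nonneg (|s| - 1),
          mul_nonneg (show (0 : ℤ) ≤ |s| - 1 by
            have : s ≠ 0 := fun e' => hs (e' ▸ dvd_zero _)
            linarith [Int.one_le_abs this]) (show (0 : ℤ) ≤ 2 - |s| by omega)]
  have h1 := residue_le_sum_abs n C (by rw [hC, Finset.sum_comm, hn])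
  rw [Fintype.card_fin] at h1
  have h := Finset.sum_le_sum (s := Finset.univ) fun j _ =>
    Finset.sum_le_sum (s := Finset.univ) fun j' _ => hpair j j'
  simp only [Finset.sum_add_distrib, ← Finset.mul_sum] at h
  rw [sum_sum_sub_sq fun j => ∑ i, (M i j : ℤ), sum_sum_three fun i j => (M i j : ℤ),
    Fintype.card_fin] at h
  have hn' : (∑ i, ∑ j, (M i j : ℤ)) = n := by rw [← hn]; push_cast; rfl
  rw [Finset.sum_comm (f := fun j i => (M i j : ℤ)), hn'] at h
  push_cast at h h1 ⊢
  linarith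

end Combinatorics

end Cfsg.Agent.H11
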