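import Cfsg.Agent.H11.OrbSex
import Cfsg.Agent.H11.Classes
import Cfsg.Agent.H11.Sextets

/-!
The orbits of a sextet stabiliser on sextets, and its maximality.
-/

set_option autoImplicit false

namespace Cfsg.Agent.H11

open Cfsg Cfsg.Agent.H12 MulAction
open scoped Pointwise

/-- The first sextet as masks is nondegenerate. -/
theorem sextet0_card : (fins sextet0).card = sextet0.length := fins_sextet0_mem.1

/-- The generators fix the first sextet. -/
theorem sexGens_fix : ∀ x ∈ sexGens,
    genOK x = true ∧ permOf x.1 • fins sextet0 = fins sextet0 := by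
  have h : (sexGens.all fun x => genOK x &&
      allList sextet0 fun m => memList (imgFast x.2 m) sextet0) = true := by
    decide +kernel
  have hlt : ∀ m ∈ sextet0, m < 2 ^ 24 := by decide +kernel
  intro x hx
  have := List.all_eq_true.1 h x hx
  simp only [Bool.and_eq_true] at this
  exact ⟨this.1, smul_fins_eq_self this.1 hlt sextet0_card this.2⟩

/-- The class sizes of sextets relative to a sextet. -/
def sexCount : ℕ → ℕ := fun c => if c = 48 then 90 else if c = 36 then 240 else
  if c = 32 then 1440 else 1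

/-- Each class of sextets is one orbit. -/
theorem sex_orbit : ∀ c ∈ [32, 36, 48, 96], ∃ x,
    orbit ↥(stabilizer M24 (fins sextet0)) x = phiClass id id sextets (fins sextet0) c ∧
    (phiClass id id sextets (fins sextet0) c).ncard = sexCount c ∧ x ∈ sextets := by
  have key : ∀ {c r n l : ℕ} {t : List ℕ},
      classCheck 1771 sextList sextImg sexGens sextet0 c r n l t = true →
      orbit ↥(stabilizer M24 (fins sextet0)) (sextSet r) =
        phiClass id id sextets (fins sextet0) c ∧
      (phiClass id id sextets (fins sextet0) c).ncard = n ∧ sextSet r ∈ sextets := fun h =>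
    orbit_eq_phiClass (famA := id) (famB := id) (fun _ _ => rfl) (fun _ _ => rfl)
      (fun g hg _ ho => H11.smul_mem_sextets hg ho) H12.sextets_eq (by decide) sextSet_injOn
      (fun i hi => sextList_spec hi) ⟨rfl, sextet0_card⟩ sexGens_fix
      (fun x hx i hi j hj hc => sextImg_spec hx hi hj hc) h
  intro c hc
  simp only [List.mem_cons, List.not_mem_nil, or_false] at hc
  rcases hc with rfl | rfl | rfl | rfl
  exacts [⟨_, key sexClass32⟩, ⟨_, key sexClass36⟩, ⟨_, key sexClass48⟩, ⟨_, key sexClass96⟩]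

/-- The classes cover the sextets. -/
theorem sex_cover (g : M24) (x : Finset (Finset GolayPt)) (hx : x ∈ sextets) :
    phi (g • fins sextet0) x ∈ [32, 36, 48, 96] :=
  phi_mem_of_cover (famA := id) (famB := id) (fun _ _ => rfl) (fun _ _ => rfl)
    (fun g hg _ ho => H11.smul_mem_sextets hg ho) H12.sextets_eq
    (fun i hi => sextList_spec hi) (LA := sextet0) ⟨rfl, sextet0_card⟩ sexCover g hx

/-- The stabiliser of a sextet has four orbits on sextets and is maximal. -/
theorem sextet_stab_orbits {S : Finset (Finset GolayPt)} (hS : S ∈ sextets) :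
    ∃ X₁ ∈ sextets, ∃ X₂ ∈ sextets, ∃ X₃ ∈ sextets,
      (orbit ↥(stabilizer M24 S) X₁).ncard = 90 ∧ (orbit ↥(stabilizer M24 S) X₂).ncard = 240 ∧
      (orbit ↥(stabilizer M24 S) X₃).ncard = 1440 ∧
      sextets = {S} ∪ orbit ↥(stabilizer M24 S) X₁ ∪ orbit ↥(stabilizer M24 S) X₂ ∪
        orbit ↥(stabilizer M24 S) X₃ ∧ IsCoatom (stabilizer M24 S) := by
  obtain ⟨g, hg, rfl⟩ := exists_smul_sextet0 hS
  have ex : ∀ c ∈ [32, 36, 48, 96], ∃ X ∈ sextets,
      orbit ↥(stabilizer M24 (g • fins sextet0)) X =
        phiClass id id sextets (g • fins sextet0) c ∧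
      (phiClass id id sextets (g • fins sextet0) c).ncard = sexCount c := fun c hc =>
    let ⟨_, hx⟩ := sex_orbit c hc
    exists_orbit_of_smul (famA := id) (famB := id) (S := sextets) (fun _ _ => rfl) (fun _ _ => rfl)
      (fun g hg _ ho => H11.smul_mem_sextets hg ho) hx (⟨g, hg⟩ : M24)
  obtain ⟨X₁, h1, o1, n1⟩ := ex 48 (by simp)
  obtain ⟨X₂, h2, o2, n2⟩ := ex 36 (by simp)
  obtain ⟨X₃, h3, o3, n3⟩ := ex 32 (by simp)
  obtain ⟨X₀, h0, o0, n0⟩ := ex 96 (by simp)
  refine ⟨X₁, h1, X₂, h2, X₃, h3, by rw [o1, n1]; rfl, by rw [o2, n2]; rfl, by rw [o3, n3]; rfl,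
    ?_, ?_⟩
  · have hself : phi (g • fins sextet0) (g • fins sextet0) = 96 := by
      rw [phi_smul, phi_fins sextet0_card sextet0_card]
      decide +kernel
    ext X
    simp only [o1, o2, o3, Set.mem_union, Set.mem_singleton_iff]
    constructor
    · intro hX
      have h : phi (g • fins sextet0) X ∈ [32, 36, 48, 96] := sex_cover ⟨g, hg⟩ X hX
      simp only [List.mem_cons, List.not_mem_nil, or_false] at h
      rcases h with h | h | h | h
      · exact Or.inr ⟨hX, h⟩
      · exact Or.inl (Or.inr ⟨hX, h⟩)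
      · exact Or.inl (Or.inl (Or.inr ⟨hX, h⟩))
      · refine Or.inl (Or.inl (Or.inl ?_))
        rw [show sexCount 96 = 1 from rfl, Set.ncard_eq_one] at n0
        obtain ⟨a, ha⟩ := n0
        have hX' : X ∈ ({a} : Set (Finset (Finset GolayPt))) := ha ▸ ⟨hX, h⟩
        have hS' : g • fins sextet0 ∈ ({a} : Set (Finset (Finset GolayPt))) := ha ▸ ⟨hS, hself⟩
        exact hX'.trans hS'.symm
    · rintro (((rfl | h) | h) | h)
      exacts [hS, h.1, h.1, h.1]
  · refine isCoatom_of_classes (famA := id) (famB := id) (fun _ _ => rfl) (fun _ _ => rfl)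
      (fun g hg _ ho => H11.smul_mem_sextets hg ho) sex_orbit sex_cover ⟨g, hg⟩ _
      (orbit_sextet hS) rfl H11.card_sextets (by decide) (c₀ := 96) ?_ rfl (by decide +kernel)
    change phi (g • fins sextet0) (g • fins sextet0) = 96
    rw [phi_smul, phi_fins sextet0_card sextet0_card]
    decide +kernel

end Cfsg.Agent.H11
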