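import Cfsg.Agent.H11.M24Transitive

/-!
The automorphism group of the code has two orbits on sequences of six distinct points, and lists
of the masks of all subsets of a given size.
-/

set_option autoImplicit false

namespace Cfsg.Agent.H11

open Cfsg Cfsg.Agent.H12 MulAction
open scoped Pointwise

/-- A sixth point goes to any other point on the same side of the octad of five base points. -/
theorem exists_fix5_apply {a b : GolayPt} (ha : ∀ i ∈ base5, a ≠ pt i) (hb : ∀ i ∈ base5, b ≠ pt i)
    (h : a ∈ fin octad0 ↔ b ∈ fin octad0) :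
    ∃ g ∈ M24, (∀ i ∈ base5, g (pt i) = pt i) ∧ g a = b := by
  have hc : ((m24Perms.filter fun P => base5.all fun i => app P i == i).all fun P =>
      m24Perms.contains P) = true ∧
    ((List.range 24).all fun n => base5.contains n ||
      (m24Chain.getD 5 (0, [])).2.any fun P => (m24Chain.getD 6 (0, [])).2.any fun Q =>
        app P (app Q (if octad0.testBit n then 7 else 5)) == n) = true ∧
    (((m24Chain.getD 5 (0, [])).2 ++ (m24Chain.getD 6 (0, [])).2).all fun P =>
      m24Perms.contains P && base5.all fun i => app P i == i) = true := by decide +kernel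
  obtain ⟨-, hcov, hmem⟩ := hc
  simp only [List.all_eq_true, Bool.and_eq_true, List.contains_iff_mem, beq_iff_eq, List.mem_range,
    Bool.or_eq_true, List.any_eq_true] at hcov hmem
  have key : ∀ c : GolayPt, (∀ i ∈ base5, c ≠ pt i) →
      ∃ g ∈ M24, (∀ i ∈ base5, g (pt i) = pt i) ∧
        g (pt (if octad0.testBit (idx c) then 7 else 5)) = c := by
    intro c hc
    rcases hcov (idx c) (idx_lt c) with h | ⟨P, hP, Q, hQ, hPQ⟩
    · exact absurd (pt_idx c).symm (hc _ h)
    obtain ⟨hP1, hP2⟩ := hmem P (List.mem_append_left _ hP)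
    obtain ⟨hQ1, hQ2⟩ := hmem Q (List.mem_append_right _ hQ)
    have hPp := m24Perms_mem P hP1
    have hQp := m24Perms_mem Q hQ1
    refine ⟨permOf P * permOf Q, mul_mem (m24Gens_le hPp.2) (m24Gens_le hQp.2), fun i hi => ?_, ?_⟩
    · have hi24 : i < 24 := (by decide : ∀ b ∈ base5, b < 24) i hi
      rw [Equiv.Perm.mul_apply, permOf_pt hQp.1 hi24, hQ2 i hi, permOf_pt hPp.1 hi24, hP2 i hi]
    · have h24 : (if octad0.testBit (idx c) then 7 else 5) < 24 := by split_ifs <;> decide
      rw [Equiv.Perm.mul_apply, permOf_pt hQp.1 h24, permOf_pt hPp.1 (app_lt hQp.1 h24), hPQ,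
        pt_idx]
  obtain ⟨g, hg, hgf, hga⟩ := key a ha
  obtain ⟨k, hk, hkf, hkb⟩ := key b hb
  refine ⟨k * g⁻¹, mul_mem hk (inv_mem hg), fun i hi => ?_, ?_⟩
  · rw [Equiv.Perm.mul_apply, show g⁻¹ (pt i) = pt i by
      rw [Equiv.Perm.inv_eq_iff_eq, hgf i hi], hkf i hi]
  · rw [mem_fin, mem_fin] at h
    have e : octad0.testBit (idx a) = octad0.testBit (idx b) := Bool.eq_iff_iff.2 h
    rw [Equiv.Perm.mul_apply, show g⁻¹ a = pt (if octad0.testBit (idx a) then 7 else 5) by
      rw [Equiv.Perm.inv_eq_iff_eq, hga], e, hkb]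

/-- A list of six distinct points in an octad has that property preserved. -/
theorem octad_of_base5_image {g : Equiv.Perm GolayPt} (hg : g ∈ M24) {o : Finset GolayPt}
    (ho : o ∈ octads) (h : ∀ i ∈ base5, g (pt i) ∈ o) : g • fin octad0 = o := by
  refine octad_eq_of_five (smul_mem_octads hg fin_octad0_mem) ho ?_
  have hsub : g • fin 31 ⊆ g • fin octad0 ∩ o := by
    intro p hp
    obtain ⟨q, hq, rfl⟩ := Finset.mem_smul_finset.1 hp
    have hq' : idx q ∈ base5 :=
      (by decide +kernel : ∀ n < 24, (31 : ℕ).testBit n = true → n ∈ base5) _ (idx_lt q)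
        (mem_fin.1 hq)
    refine Finset.mem_inter.2 ⟨Finset.smul_mem_smul_finset ?_, pt_idx q ▸ h _ hq'⟩
    exact mem_fin.2 ((by decide +kernel : ∀ n ∈ base5, octad0.testBit n = true) _ hq')
  calc 5 = (fin 31).card := by rw [card_fin]; decide +kernel
    _ = (g • fin 31).card := (Finset.card_smul_finset ..).symm
    _ ≤ _ := Finset.card_le_card hsub

/-- Two lists of six distinct points, both or neither inside an octad, correspond under an
automorphism of the code. -/
theorem exists_map_six (xs ys : List GolayPt) (a b : GolayPt) (hxs : xs.length = 5)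
    (hys : ys.length = 5) (hxn : (xs ++ [a]).Nodup) (hyn : (ys ++ [b]).Nodup)
    (h : (∃ o ∈ octads, ∀ x ∈ xs ++ [a], x ∈ o) ↔ (∃ o ∈ octads, ∀ y ∈ ys ++ [b], y ∈ o)) :
    ∃ g ∈ M24, (xs ++ [a]).map g = ys ++ [b] := by
  obtain ⟨hxn5, -, hxa⟩ := List.nodup_append.1 hxn
  obtain ⟨hyn5, -, hyb⟩ := List.nodup_append.1 hyn
  obtain ⟨g, hg, hgx⟩ := exists_map_base5 xs hxs hxn5
  obtain ⟨k, hk, hky⟩ := exists_map_base5 ys hys hyn5
  have side : ∀ (g : Equiv.Perm GolayPt), g ∈ M24 → ∀ (zs : List GolayPt) (c : GolayPt),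
      base5.map (fun i => g (pt i)) = zs →
      ((∃ o ∈ octads, ∀ z ∈ zs ++ [c], z ∈ o) ↔ g⁻¹ c ∈ fin octad0) := by
    intro g hg zs c hz
    constructor
    · rintro ⟨o, ho, hmem⟩
      have := octad_of_base5_image hg ho (fun i hi => hmem _
        (List.mem_append_left _ (hz ▸ List.mem_map_of_mem hi)))
      rw [← Finset.smul_mem_smul_finset_iff g, Equiv.Perm.smul_def, this,
        show g (g⁻¹ c) = c by simp]
      exact hmem c (List.mem_append_right _ (List.mem_singleton_self c))
    · intro hc
      refine ⟨g • fin octad0, smul_mem_octads hg fin_octad0_mem, fun z hzm => ?_⟩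
      rcases List.mem_append.1 hzm with hzm | hzm
      · rw [← hz] at hzm
        obtain ⟨i, hi, rfl⟩ := List.mem_map.1 hzm
        exact Finset.smul_mem_smul_finset (a := g)
          (mem_fin.2 (by
            rw [idx_pt ((by decide : ∀ b ∈ base5, b < 24) i hi)]
            exact (by decide +kernel : ∀ n ∈ base5, octad0.testBit n = true) i hi))
      · rw [List.mem_singleton] at hzm
        subst hzm
        have := Finset.smul_mem_smul_finset (a := g) hc
        simpa [Equiv.Perm.smul_def] using this
  have hne : ∀ (g : Equiv.Perm GolayPt) (zs : List GolayPt) (c : GolayPt),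
      base5.map (fun i => g (pt i)) = zs → (∀ z ∈ zs, z ≠ c) → ∀ i ∈ base5, g⁻¹ c ≠ pt i := by
    intro g zs c hz hc i hi e
    refine hc (g (pt i)) (hz ▸ List.mem_map_of_mem hi) ?_
    rw [← e]; simp
  obtain ⟨m, hm, hmf, hma⟩ := exists_fix5_apply
    (hne g xs a hgx fun z hz => hxa z hz a (List.mem_singleton_self a))
    (hne k ys b hky fun z hz => hyb z hz b (List.mem_singleton_self b))
    ((side g hg xs a hgx).symm.trans (h.trans (side k hk ys b hky)))
  refine ⟨k * m * g⁻¹, mul_mem (mul_mem hk hm) (inv_mem hg), ?_⟩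
  rw [List.map_append, List.map_singleton, ← hgx, ← hky, List.map_map]
  congr 1
  · refine List.map_congr_left fun i hi => ?_
    simp [Function.comp, hmf i hi]
  · rw [Equiv.Perm.mul_apply, Equiv.Perm.mul_apply, hma]
    simp

/-- The masks of the subsets with `k` points. -/
def subsetMasks (k : ℕ) : List ℕ :=
  (List.sublistsLen k (List.range 24)).map fun l => l.foldr (fun i m => (1 <<< i) ||| m) 0

/-- The subset masks give exactly the sets with `k` points. -/
theorem mem_subsetMasks {k : ℕ} {s : Finset GolayPt} :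
    (∃ m ∈ subsetMasks k, fin m = s) ↔ s.card = k := by
  constructor
  · rintro ⟨m, hm, rfl⟩
    obtain ⟨l, hl, rfl⟩ := List.mem_map.1 hm
    obtain ⟨hsub, hlen⟩ := List.mem_sublistsLen.1 hl
    have : fin (l.foldr (fun i m => (1 <<< i) ||| m) 0) = (l.map pt).toFinset := by
      ext p
      simp only [mem_fin, testBit_foldr_or, List.mem_toFinset, List.mem_map]
      refine ⟨fun h => ⟨_, h, pt_idx p⟩, ?_⟩
      rintro ⟨i, hi, rfl⟩
      rwa [idx_pt (List.mem_range.1 (hsub.subset hi))]
    rw [this, List.toFinset_card_of_nodup, List.length_map, hlen]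
    exact (hsub.nodup List.nodup_range).map_on fun x hx y hy e =>
      pt_inj (List.mem_range.1 (hsub.subset hx)) (List.mem_range.1 (hsub.subset hy)) e
  · intro hs
    obtain ⟨m, hm, rfl⟩ := exists_mask s
    let l := (List.range 24).filter fun i => m.testBit i
    have hl : l.foldr (fun i m => (1 <<< i) ||| m) 0 = m := by
      refine Nat.eq_of_testBit_eq fun i => Bool.eq_iff_iff.2 ?_
      rw [testBit_foldr_or, List.mem_filter, List.mem_range]
      refine ⟨fun h => h.2, fun h => ⟨?_, h⟩⟩
      by_contra hc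
      rw [Nat.testBit_lt_two_pow (lt_of_lt_of_le hm
        (Nat.pow_le_pow_right (by decide) (not_lt.1 hc)))] at h
      cases h
    refine ⟨m, List.mem_map.2 ⟨l, List.mem_sublistsLen.2 ⟨List.filter_sublist, ?_⟩, hl⟩, rfl⟩
    rw [← hs]
    have hnd : l.Nodup := List.nodup_range.filter _
    rw [← List.toFinset_card_of_nodup hnd]
    refine Finset.card_bij (fun i _ => pt i) ?_ ?_ ?_
    · intro i hi
      simp only [l, List.mem_toFinset, List.mem_filter, List.mem_range] at hi
      exact (pt_mem_fin hi.1).2 hi.2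
    · intro i hi j hj e
      simp only [l, List.mem_toFinset, List.mem_filter, List.mem_range] at hi hj
      exact pt_inj hi.1 hj.1 e
    · intro p hp
      exact ⟨idx p, by simp [l, idx_lt p, mem_fin.1 hp], pt_idx p⟩

/-- Counting the sets of a given size with a decidable property. -/
theorem ncard_subsets_filter (k : ℕ) {P : Finset GolayPt → Prop} (p : ℕ → Bool)
    (hp : ∀ m ∈ subsetMasks k, P (fin m) ↔ p m = true) :
    {s : Finset GolayPt | s.card = k ∧ P s}.ncard = ((subsetMasks k).filter p).length := by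
  have hnd : ((subsetMasks k).map fin).Nodup := by
    refine List.dedup_eq_self.1 ((List.dedup_sublist _).eq_of_length ?_)
    have e : ((subsetMasks k).map fin).toFinset =
        Finset.powersetCard k (Finset.univ : Finset GolayPt) := by
      ext s; simp [← mem_subsetMasks]
    have h := congrArg Finset.card e
    rw [List.card_toFinset, Finset.card_powersetCard, Finset.card_univ] at h
    rw [h, List.length_map, subsetMasks, List.length_map, List.length_sublistsLen,
      List.length_range]
    congr 1
  have e : {s : Finset GolayPt | s.card = k ∧ P s} =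
      ((((subsetMasks k).filter p).map fin).toFinset : Set (Finset GolayPt)) := by
    ext s
    simp only [Set.mem_ofPred_eq, List.coe_toFinset, List.mem_map, List.mem_filter]
    constructor
    · rintro ⟨hs, hP⟩
      obtain ⟨m, hm, rfl⟩ := mem_subsetMasks.2 hs
      exact ⟨m, ⟨hm, (hp m hm).1 hP⟩, rfl⟩
    · rintro ⟨m, ⟨hm, hpm⟩, rfl⟩
      exact ⟨mem_subsetMasks.1 ⟨m, hm, rfl⟩, (hp m hm).2 hpm⟩
  rw [e, Set.ncard_coe_finset,
    List.toFinset_card_of_nodup ((List.filter_sublist.map fin).nodup hnd), List.length_map]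

end Cfsg.Agent.H11
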