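import Cfsg.Agent.H11.SixTuples
import Cfsg.Agent.H11.Maximal
import Cfsg.Agent.H11.OctadList

/-!
Stabilisers of pairs and triples of points in the automorphism group of the code.
-/

set_option autoImplicit false

namespace Cfsg.Agent.H11

open Cfsg Cfsg.Agent.H12 MulAction
open scoped Pointwise

/-- Lists of at most five distinct points of equal length correspond under an automorphism. -/
theorem exists_map_short {xs ys : List GolayPt} (hx : xs.Nodup) (hy : ys.Nodup)
    (hlen : xs.length = ys.length) (h5 : xs.length ≤ 5) : ∃ g ∈ M24, xs.map g = ys := by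
  haveI := isMultiplyPretransitive_five
  haveI : IsMultiplyPretransitive M24 GolayPt xs.length :=
    isMultiplyPretransitive_of_le (n := 5) h5 (by simp)
  let e : Fin xs.length ↪ GolayPt := ⟨xs.get, List.nodup_iff_injective_get.1 hx⟩
  let f : Fin xs.length ↪ GolayPt :=
    ⟨fun i => ys.get (i.cast hlen), (List.nodup_iff_injective_get.1 hy).comp (Fin.cast_injective _)⟩
  obtain ⟨g, hg⟩ := exists_smul_eq M24 e f
  refine ⟨g, g.2, List.ext_get (by simp [hlen]) fun i h1 h2 => ?_⟩
  have := Function.Embedding.ext_iff.1 hg ⟨i, by simpa using h1⟩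
  simpa [e, f, Function.Embedding.smul_apply, Subgroup.smul_def] using this

/-- An image of lists gives an image of sets. -/
theorem smul_toFinset_of_map {g : Equiv.Perm GolayPt} {s t : Finset GolayPt} {xs : List GolayPt}
    {ys : List GolayPt} (hs : xs.toFinset = s) (ht : ys.toFinset = t) (h : xs.map g = ys) :
    g • s = t := by
  rw [← hs, ← ht, ← h]
  ext p
  simp [Finset.mem_smul_finset, Equiv.Perm.smul_def]

/-- Pairs of sets with at most five points in the union and the same sizes correspond. -/
theorem exists_smul_pair {s t s' t' : Finset GolayPt} (hs : s.card = s'.card)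
    (ht : t.card = t'.card) (hst : (s ∩ t).card = (s' ∩ t').card) (h5 : (s ∪ t).card ≤ 5) :
    ∃ g ∈ M24, g • s = s' ∧ g • t = t' := by
  have nd : ∀ u v : Finset GolayPt,
      ((u ∩ v).toList ++ (u \ v).toList ++ (v \ u).toList).Nodup ∧
      ((u ∩ v).toList ++ (u \ v).toList ++ (v \ u).toList).length = (u ∪ v).card := by
    intro u v
    constructor
    · refine List.nodup_append.2 ⟨List.nodup_append.2 ⟨Finset.nodup_toList _, Finset.nodup_toList _,
        ?_⟩, Finset.nodup_toList _, ?_⟩ <;>
      · intro a ha b hb e
        subst e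
        simp at ha hb
        tauto
    · simp only [List.length_append, Finset.length_toList]
      have := Finset.card_sdiff_add_card_inter u v
      have := Finset.card_sdiff_add_card v u
      rw [Finset.union_comm v u] at *
      omega
  have hB : (s \ t).card = (s' \ t').card := by
    have := Finset.card_sdiff_add_card_inter s t
    have := Finset.card_sdiff_add_card_inter s' t'
    omega
  have hC : (t \ s).card = (t' \ s').card := by
    have := Finset.card_sdiff_add_card_inter t s
    have := Finset.card_sdiff_add_card_inter t' s'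
    rw [Finset.inter_comm t s, Finset.inter_comm t' s'] at *
    omega
  obtain ⟨g, hg, h⟩ := exists_map_short (nd s t).1 (nd s' t').1
    (by simp only [List.length_append, Finset.length_toList]; omega)
    (by rw [(nd s t).2]; exact h5)
  simp only [List.map_append] at h
  obtain ⟨hAB, hC'⟩ := List.append_inj h (by
    simp only [List.length_append, List.length_map, Finset.length_toList]; omega)
  obtain ⟨hA', hB'⟩ := List.append_inj hAB (by simpa using hst)
  refine ⟨g, hg, smul_toFinset_of_map (xs := (s ∩ t).toList ++ (s \ t).toList)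
      (ys := (s' ∩ t').toList ++ (s' \ t').toList) ?_ ?_
      (by rw [List.map_append]; exact congrArg₂ (· ++ ·) hA' hB'),
    smul_toFinset_of_map (xs := (s ∩ t).toList ++ (t \ s).toList)
      (ys := (s' ∩ t').toList ++ (t' \ s').toList) ?_ ?_
      (by rw [List.map_append]; exact congrArg₂ (· ++ ·) hA' hC')⟩ <;>
  · ext p; simp; tauto

/-- Two sets of at most five points of equal size correspond. -/
theorem exists_smul_small {s s' : Finset GolayPt} (h : s.card = s'.card) (h5 : s.card ≤ 5) :
    ∃ g ∈ M24, g • s = s' := by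
  obtain ⟨g, hg, h1, -⟩ := exists_smul_pair (t := ∅) (t' := ∅) h rfl (by simp) (by simpa using h5)
  exact ⟨g, hg, h1⟩

/-- The orbit of a small set is all sets of its size. -/
theorem orbit_small {s : Finset GolayPt} {k : ℕ} (hk : k ≤ 5) (hs : s.card = k) :
    orbit M24 s = {t : Finset GolayPt | t.card = k} := by
  ext t
  constructor
  · rintro ⟨g, rfl⟩
    simp [Finset.card_smul_finset, hs, Subgroup.smul_def]
  · intro ht
    obtain ⟨g, hg, h⟩ := exists_smul_small (s := s) (s' := t) (hs.trans ht.symm) (hs ▸ hk)
    exact ⟨⟨g, hg⟩, h⟩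

/-- The octads through three given base points. -/
def triadOctads : List ℕ := octadList.filter fun o => o &&& 7 == 7

/-- The test for a triad together with the base triad lying in an octad. -/
def inOctad7 (m : ℕ) : Bool := triadOctads.any fun o => o &&& (7 ||| m) == 7 ||| m

/-- The test is correct. -/
theorem inOctad7_iff {m : ℕ} (hm : m < 2 ^ 24) :
    (∃ o ∈ octads, fin 7 ∪ fin m ⊆ o) ↔ inOctad7 m = true := by
  have hor : 7 ||| m < 2 ^ 24 := Nat.or_lt_two_pow (by decide) hm
  simp only [inOctad7, triadOctads, List.any_eq_true, List.mem_filter, beq_iff_eq, ← fin_lor]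
  constructor
  · rintro ⟨o, ho, hsub⟩
    obtain ⟨a, ha, rfl⟩ := mem_octads_iff.1 ho
    rw [subset_fin_iff hor, Nat.and_comm] at hsub
    refine ⟨a, ⟨octadMasks_eq ▸ ha, ?_⟩, hsub⟩
    have h7 : (7 : ℕ) &&& (7 ||| m) = 7 := by
      apply Nat.eq_of_testBit_eq
      intro i
      simp only [Nat.testBit_and, Nat.testBit_or]
      cases (7 : ℕ).testBit i <;> simp
    calc a &&& 7 = a &&& ((7 ||| m) &&& 7) := by rw [Nat.and_comm (7 ||| m) 7, h7]
      _ = (a &&& (7 ||| m)) &&& 7 := (Nat.and_assoc ..).symm
      _ = (7 ||| m) &&& 7 := by rw [hsub]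
      _ = 7 := by rw [Nat.and_comm, h7]
  · rintro ⟨a, ⟨ha, -⟩, hsub⟩
    refine ⟨fin a, mem_octads_iff.2 ⟨a, octadMasks_eq.symm ▸ ha, rfl⟩, ?_⟩
    rw [subset_fin_iff hor, Nat.and_comm, hsub]

/-- The label of a set relative to a set: the size of the intersection, and 4 for a disjoint
set not in a common octad. -/
noncomputable def triadClass (T U : Finset GolayPt) : ℕ :=
  haveI := Classical.propDecidable (∃ o ∈ octads, T ∪ U ⊆ o)
  if Disjoint T U ∧ ¬ (∃ o ∈ octads, T ∪ U ⊆ o) then 4 else (T ∩ U).card

/-- Sets are moved with their labels. -/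
theorem triadClass_smul {g : Equiv.Perm GolayPt} (hg : g ∈ M24) (T U : Finset GolayPt) :
    triadClass (g • T) (g • U) = triadClass T U := by
  have key : ∀ (g : Equiv.Perm GolayPt), g ∈ M24 → ∀ T U : Finset GolayPt,
      (∃ o ∈ octads, T ∪ U ⊆ o) → ∃ o ∈ octads, g • T ∪ g • U ⊆ o := by
    rintro g hg T U ⟨o, ho, h⟩
    exact ⟨g • o, smul_mem_octads hg ho, by
      rw [← Finset.smul_finset_union]; exact Finset.smul_finset_subset_smul_finset h⟩
  have h1 : (∃ o ∈ octads, g • T ∪ g • U ⊆ o) ↔ ∃ o ∈ octads, T ∪ U ⊆ o := by
    refine ⟨fun h => ?_, key g hg T U⟩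
    simpa [inv_smul_smul] using key g⁻¹ (inv_mem hg) _ _ h
  have h2 : Disjoint (g • T) (g • U) ↔ Disjoint T U := by
    rw [Finset.disjoint_iff_inter_eq_empty, Finset.disjoint_iff_inter_eq_empty,
      ← Finset.smul_finset_inter, Finset.smul_finset_eq_empty]
  simp only [triadClass, ← Finset.smul_finset_inter, Finset.card_smul_finset]
  have h3 := and_congr h2 (not_congr h1)
  split_ifs with a b b <;> first | rfl | exact absurd (h3.1 a) b | exact absurd (h3.2 b) a

/-- Triads disjoint from a triad with the same label correspond under its stabiliser. -/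
theorem exists_smul_disjoint_triad {T U U' : Finset GolayPt} (hT : T.card = 3) (hU : U.card = 3)
    (hU' : U'.card = 3) (hd : Disjoint T U) (hd' : Disjoint T U')
    (h : (∃ o ∈ octads, T ∪ U ⊆ o) ↔ (∃ o ∈ octads, T ∪ U' ⊆ o)) :
    ∃ g ∈ M24, g • T = T ∧ g • U = U' := by
  obtain ⟨t1, t2, t3, h12, h13, h23, rfl⟩ := Finset.card_eq_three.1 hT
  obtain ⟨u1, u2, u3, g12, g13, g23, rfl⟩ := Finset.card_eq_three.1 hU
  obtain ⟨v1, v2, v3, k12, k13, k23, rfl⟩ := Finset.card_eq_three.1 hU'
  simp only [Finset.disjoint_insert_left, Finset.disjoint_singleton_left, Finset.mem_insert,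
    Finset.mem_singleton, not_or] at hd hd'
  obtain ⟨⟨a1, a2, a3⟩, ⟨b1, b2, b3⟩, c1, c2, c3⟩ := hd
  obtain ⟨⟨a1', a2', a3'⟩, ⟨b1', b2', b3'⟩, c1', c2', c3'⟩ := hd'
  obtain ⟨g, hg, hmap⟩ := exists_map_six [t1, t2, t3, u1, u2] [t1, t2, t3, v1, v2] u3 v3 rfl rfl
    (by simp [*]) (by simp [*]) (by
      have e : ∀ (a b c d e f : GolayPt) (o : Finset GolayPt),
          (∀ x ∈ [a, b, c, d, e] ++ [f], x ∈ o) ↔ ({a, b, c} ∪ {d, e, f} : Finset GolayPt) ⊆ o := by
        intro a b c d e f o
        simp [Finset.subset_iff]
        tauto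
      simpa only [e] using h)
  simp only [List.cons_append, List.nil_append, List.map_cons, List.map_nil, List.cons.injEq,
    and_true] at hmap
  obtain ⟨e1, e2, e3, f1, f2, f3⟩ := hmap
  exact ⟨g, hg, by simp [Finset.smul_finset_insert, Finset.smul_finset_singleton, *],
    by simp [Finset.smul_finset_insert, Finset.smul_finset_singleton, *]⟩

/-- The number of triads with a given label relative to a triad. -/
theorem card_triadClass {T : Finset GolayPt} (hT : T.card = 3) :
    {U : Finset GolayPt | U.card = 3 ∧ triadClass T U = 3}.ncard = 1 ∧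
    {U : Finset GolayPt | U.card = 3 ∧ triadClass T U = 2}.ncard = 63 ∧
    {U : Finset GolayPt | U.card = 3 ∧ triadClass T U = 1}.ncard = 630 ∧
    {U : Finset GolayPt | U.card = 3 ∧ triadClass T U = 0}.ncard = 210 ∧
    {U : Finset GolayPt | U.card = 3 ∧ triadClass T U = 4}.ncard = 1120 := by
  obtain ⟨g, hg, rfl⟩ := exists_smul_small (s := fin 7) (s' := T)
    (by rw [hT, card_fin]; decide +kernel) (by rw [card_fin]; decide +kernel)
  have e : ∀ c, {U : Finset GolayPt | U.card = 3 ∧ triadClass (g • fin 7) U = c}.ncard =
      ((subsetMasks 3).filter fun m =>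
        (if 7 &&& m == 0 && !inOctad7 m then 4 else pop (7 &&& m)) == c).length := by
    intro c
    have e' : {U : Finset GolayPt | U.card = 3 ∧ triadClass (g • fin 7) U = c} =
        (fun U => g • U) '' {U | U.card = 3 ∧ triadClass (fin 7) U = c} := by
      ext U
      simp only [Set.mem_image, Set.mem_ofPred_eq]
      constructor
      · intro h
        exact ⟨g⁻¹ • U, ⟨by rw [Finset.card_smul_finset]; exact h.1, by
          rw [← triadClass_smul hg, smul_inv_smul]; exact h.2⟩, smul_inv_smul g U⟩
      · rintro ⟨V, h, rfl⟩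
        exact ⟨by rw [Finset.card_smul_finset]; exact h.1, by rw [triadClass_smul hg]; exact h.2⟩
    rw [e', Set.ncard_image_of_injective _ (MulAction.injective g)]
    refine ncard_subsets_filter 3 _ fun m hm => ?_
    have hm24 : m < 2 ^ 24 := (by
      have h : (subsetMasks 3).all (fun m => decide (m < 2 ^ 24)) = true := by decide +kernel
      simpa using List.all_eq_true.1 h m hm)
    rw [beq_iff_eq]
    by_cases hc : (7 &&& m == 0 && !inOctad7 m) = true
    · rw [if_pos hc]
      simp only [Bool.and_eq_true, beq_iff_eq, Bool.not_eq_true'] at hc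
      rw [triadClass, if_pos ⟨(disjoint_fin_iff (by decide)).2 hc.1, by
        rw [inOctad7_iff hm24, hc.2]; simp⟩]
    · rw [if_neg hc]
      simp only [Bool.and_eq_true, beq_iff_eq, Bool.not_eq_true'] at hc
      rw [triadClass, if_neg (fun h => hc ⟨(disjoint_fin_iff (by decide)).1 h.1, by
        rw [inOctad7_iff hm24] at h; simpa using h.2⟩), ← fin_land, card_fin]
  simp only [e]
  decide +kernel

/-- The orbits of a triad stabiliser on disjoint triads. -/
theorem triad_orbits (T : Finset GolayPt) (hT : T.card = 3) :
    {U : Finset GolayPt | U.card = 3 ∧ Disjoint T U ∧ (∃ o ∈ octads, T ∪ U ⊆ o)}.ncard = 210 ∧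
    {U : Finset GolayPt | U.card = 3 ∧ Disjoint T U ∧ ¬ (∃ o ∈ octads, T ∪ U ⊆ o)}.ncard = 1120 := by
  obtain ⟨-, -, -, h0, h4⟩ := card_triadClass hT
  constructor
  · rw [← h0]
    congr 1
    ext U
    simp only [Set.mem_ofPred_eq, triadClass]
    refine and_congr_right fun hU => ?_
    split_ifs with h
    · exact iff_of_false (fun h' => h.2 h'.2) (by decide)
    · rw [Finset.card_eq_zero, ← Finset.disjoint_iff_inter_eq_empty]
      exact ⟨fun h' => h'.1, fun hd => ⟨hd, not_not.1 fun hn => h ⟨hd, hn⟩⟩⟩
  · rw [← h4]
    congr 1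
    ext U
    simp only [Set.mem_ofPred_eq, triadClass]
    refine and_congr_right fun hU => ?_
    split_ifs with h
    · simp [h]
    · refine iff_of_false (fun h' => h h') fun h' => ?_
      have := Finset.card_le_card (Finset.inter_subset_left (s₁ := T) (s₂ := U))
      omega

/-- The stabiliser of three points is maximal. -/
theorem isCoatom_triad {s : Finset GolayPt} (hs : s.card = 3) :
    IsCoatom (stabilizer M24 s) := by
  have ho := orbit_small (s := s) (k := 3) (by decide) hs
  obtain ⟨h3, h2, h1, h0, h4⟩ := card_triadClass hs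
  have hle : ∀ y : Finset GolayPt, (s ∩ y).card ≤ 3 := fun y =>
    hs ▸ Finset.card_le_card Finset.inter_subset_left
  have hrs : triadClass s s = 3 := by
    rw [triadClass, if_neg (fun h => ?_), Finset.inter_self, hs]
    have := disjoint_self.1 h.1
    rw [Finset.bot_eq_empty] at this
    simp [this] at hs
  refine isCoatom_stabilizer_of_classes s (triadClass s) {0, 1, 2, 3, 4}
    (fun c => if c = 3 then 1 else if c = 2 then 63 else if c = 1 then 630 else
      if c = 0 then 210 else 1120) 2024 ?_ (by decide) ?_ ?_ (by rw [hrs]; rfl) ?_ ?_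
  · rw [ho]
    have := ncard_subsets_filter 3 (P := fun _ => True) (fun _ => true) (fun _ _ => by simp)
    simp only [and_true] at this
    rw [this]
    decide +kernel
  · intro y _
    have := hle y
    simp only [Finset.mem_insert, Finset.mem_singleton]
    unfold triadClass
    split_ifs <;> omega
  · intro c hc
    have e : {y | y ∈ orbit M24 s ∧ triadClass s y = c} =
        {U : Finset GolayPt | U.card = 3 ∧ triadClass s U = c} := by rw [ho]; rfl
    rw [e]
    simp only [Finset.mem_insert, Finset.mem_singleton] at hc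
    rcases hc with rfl | rfl | rfl | rfl | rfl
    exacts [h0, h1, h2, h3, h4]
  · intro y hy z hz hr
    rw [ho] at hy hz
    have hfin : ∃ g ∈ M24, g • s = s ∧ g • y = z := by
      by_cases hd : Disjoint s y
      · have hd' : Disjoint s z := by
          by_contra hc
          simp only [triadClass, hc, false_and, if_false] at hr
          have h1 : (s ∩ z).card ≠ 0 := fun h => hc (Finset.disjoint_iff_inter_eq_empty.2
            (Finset.card_eq_zero.1 h))
          have h2 : (s ∩ y).card = 0 :=
            Finset.card_eq_zero.2 (Finset.disjoint_iff_inter_eq_empty.1 hd)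
          have h3 := hle z
          split_ifs at hr <;> omega
        refine exists_smul_disjoint_triad hs hy hz hd hd' ?_
        simp only [triadClass, hd, hd', true_and,
          Finset.disjoint_iff_inter_eq_empty.1 hd, Finset.disjoint_iff_inter_eq_empty.1 hd'] at hr
        by_cases h1 : ∃ o ∈ octads, s ∪ y ⊆ o <;> by_cases h2 : ∃ o ∈ octads, s ∪ z ⊆ o
        · exact iff_of_true h1 h2
        · simp [h1, h2] at hr
          contradiction
        · simp [h1, h2] at hr
          contradiction
        · exact iff_of_false h1 h2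
      · have h1 : (s ∩ y).card ≠ 0 := fun h => hd (Finset.disjoint_iff_inter_eq_empty.2
          (Finset.card_eq_zero.1 h))
        simp only [triadClass, hd, false_and, if_false] at hr
        have := hle y
        refine exists_smul_pair rfl (hy.trans hz.symm) ?_ ?_
        · split_ifs at hr
          · omega
          · exact hr
        · have := Finset.card_union_add_card_inter s y
          have : y.card = 3 := hy
          omega
    obtain ⟨g, hg, h1, h2⟩ := hfin
    exact ⟨⟨g, hg⟩, h1, h2⟩
  · rw [hrs]
    decide +kernel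

/-- The stabiliser of two points is maximal. -/
theorem isCoatom_duad {s : Finset GolayPt} (hs : s.card = 2) :
    IsCoatom (stabilizer M24 s) := by
  have ho := orbit_small (s := s) (k := 2) (by decide) hs
  obtain ⟨g, hg, hgs⟩ := exists_smul_small (s := fin 3) (s' := s)
    (by rw [hs, card_fin]; decide +kernel) (by rw [card_fin]; decide +kernel)
  refine isCoatom_stabilizer_of_classes s (fun y => (s ∩ y).card) {0, 1, 2}
    (fun c => if c = 2 then 1 else if c = 1 then 44 else 231) 276 ?_ (by decide) ?_ ?_ ?_ ?_ ?_
  · rw [ho]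
    have := ncard_subsets_filter 2 (P := fun _ => True) (fun _ => true) (fun _ _ => by simp)
    simp only [and_true] at this
    rw [this]
    decide +kernel
  · intro y _
    have := hs ▸ Finset.card_le_card (Finset.inter_subset_left (s₁ := s) (s₂ := y))
    simp only [Finset.mem_insert, Finset.mem_singleton]
    omega
  · intro c hc
    have e : {y | y ∈ orbit M24 s ∧ (s ∩ y).card = c} =
        (fun U => g • U) '' {U : Finset GolayPt | U.card = 2 ∧ (fin 3 ∩ U).card = c} := by
      ext U
      rw [ho]
      simp only [Set.mem_image, Set.mem_ofPred_eq, ← hgs]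
      constructor
      · intro h
        refine ⟨g⁻¹ • U, ⟨by rw [Finset.card_smul_finset]; exact h.1, ?_⟩, smul_inv_smul g U⟩
        rw [← h.2, ← Finset.card_smul_finset g, Finset.smul_finset_inter, smul_inv_smul]
      · rintro ⟨V, h, rfl⟩
        exact ⟨by rw [Finset.card_smul_finset]; exact h.1,
          by rw [← Finset.smul_finset_inter, Finset.card_smul_finset]; exact h.2⟩
    rw [e, Set.ncard_image_of_injective _ (MulAction.injective g),
      ncard_subsets_filter 2 (fun m => pop (3 &&& m) == c)
        (fun m _ => by rw [← fin_land, card_fin, beq_iff_eq])]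
    simp only [Finset.mem_insert, Finset.mem_singleton] at hc
    rcases hc with rfl | rfl | rfl <;> decide +kernel
  · simp [hs]
  · intro y hy z hz hr
    rw [ho] at hy hz
    obtain ⟨k, hk, h1, h2⟩ := exists_smul_pair (s := s) (t := y) (s' := s) (t' := z) rfl
      (hy.trans hz.symm) hr ((Finset.card_union_le _ _).trans
        (by rw [hs, show y.card = 2 from hy]; decide))
    exact ⟨⟨k, hk⟩, h1, h2⟩
  · simp only [Finset.inter_self, hs]
    decide +kernel

end Cfsg.Agent.H11
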