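import Cfsg.Prelude.Def_SporadicCombinatorics
import Cfsg.Agent.H11.OctadCounts

/-!
Trios of octads: the third octad of two disjoint ones, and the number of trios.
-/

set_option autoImplicit false

namespace Cfsg.Agent.H11

open Cfsg Cfsg.Agent.H12 MulAction
open scoped Pointwise

/-- The complement of two disjoint octads is an octad. -/
theorem compl_union_mem_octads {o o' : Finset GolayPt} (ho : o ∈ octads) (ho' : o' ∈ octads)
    (hd : Disjoint o o') : (o ∪ o')ᶜ ∈ octads := by
  refine ⟨?_, ?_⟩
  · obtain ⟨a, ha, rfl⟩ := mem_supports_iff.1 ho.1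
    obtain ⟨b, hb, rfl⟩ := mem_supports_iff.1 ho'.1
    refine mem_supports_iff.2 ⟨allMask ^^^ (a ^^^ b), xor_mem_spanMasks _
      (inCode_iff.1 (by decide +kernel)) (xor_mem_spanMasks _ ha hb), ?_⟩
    rw [fin_allMask_xor, ← Finset.compl_eq_univ_sdiff, compl_inj_iff]
    ext p
    have : ¬ (a.testBit (idx p) = true ∧ b.testBit (idx p) = true) := fun h =>
      Finset.disjoint_left.1 hd (mem_fin.2 h.1) (mem_fin.2 h.2)
    simp only [mem_fin, Finset.mem_union, Nat.testBit_xor]
    revert this
    cases a.testBit (idx p) <;> cases b.testBit (idx p) <;> simp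
  · rw [Finset.card_compl, Finset.card_union_of_disjoint hd, ho.2, ho'.2]
    decide

/-- A fixed octad is disjoint from thirty octads. -/
theorem card_disjoint_octads {o : Finset GolayPt} (ho : o ∈ octads) :
    {o' : Finset GolayPt | o' ∈ octads ∧ Disjoint o o'}.ncard = 30 := by
  obtain ⟨g, hg, rfl⟩ := exists_smul_octad0 ho
  have e : {o' : Finset GolayPt | o' ∈ octads ∧ Disjoint (g • fin octad0) o'} =
      (fun o => g • o) '' {o' | o' ∈ octads ∧ Disjoint (fin octad0) o'} := by
    ext o'
    simp only [Set.mem_image, Set.mem_ofPred_eq]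
    constructor
    · rintro ⟨h1, h2⟩
      refine ⟨g⁻¹ • o', ⟨smul_mem_octads (inv_mem hg) h1, ?_⟩, smul_inv_smul g o'⟩
      rw [Finset.disjoint_left] at h2 ⊢
      intro x hx hx'
      exact h2 (Finset.smul_mem_smul_finset hx) (Finset.mem_inv_smul_finset_iff.1 hx')
    · rintro ⟨o'', ⟨h1, h2⟩, rfl⟩
      refine ⟨smul_mem_octads hg h1, ?_⟩
      rw [Finset.disjoint_left] at h2 ⊢
      intro x hx hx'
      rw [← Finset.inv_smul_mem_iff] at hx hx'
      exact h2 hx hx'
  rw [e, Set.ncard_image_of_injective _ (MulAction.injective g),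
    ncard_octads_filter (fun m => octad0 &&& m == 0)
      (fun m _ => by rw [disjoint_fin_iff (by decide +kernel), beq_iff_eq])]
  decide +kernel

open Classical in
/-- There are 3795 trios. -/
theorem card_trios : Cfsg.trios.ncard = 3795 := by
  let O : Finset (Finset GolayPt) := Finset.univ.filter (· ∈ octads)
  let T : Finset (Finset (Finset GolayPt)) := Finset.univ.filter (· ∈ trios)
  let D : Finset (Finset GolayPt × Finset GolayPt) :=
    (O ×ˢ O).filter fun p => Disjoint p.1 p.2
  let f : Finset GolayPt × Finset GolayPt → Finset (Finset GolayPt) :=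
    fun p => {p.1, p.2, (p.1 ∪ p.2)ᶜ}
  have hmap : ∀ p ∈ D, f p ∈ T := by
    rintro ⟨a, b⟩ hp
    simp only [D, O, Finset.mem_filter, Finset.mem_product, Finset.mem_univ, true_and] at hp
    obtain ⟨⟨ha, hb⟩, hd⟩ := hp
    have hab : a ≠ b := fun e => by
      subst e
      rw [disjoint_self, Finset.bot_eq_empty] at hd
      rw [hd] at ha
      exact absurd ha.2 (by simp)
    have hc := compl_union_mem_octads ha hb hd
    have hac : Disjoint a (a ∪ b)ᶜ := disjoint_compl_right.mono_left Finset.subset_union_left
    have hbc : Disjoint b (a ∪ b)ᶜ := disjoint_compl_right.mono_left Finset.subset_union_right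
    have hne : ∀ u v : Finset GolayPt, u ∈ octads → Disjoint u v → u ≠ v := by
      intro u v hu huv e
      subst e
      rw [disjoint_self, Finset.bot_eq_empty] at huv
      rw [huv] at hu
      exact absurd hu.2 (by simp)
    simp only [T, f, Finset.mem_filter, Finset.mem_univ, true_and]
    refine ⟨?_, ?_, ?_⟩
    · rw [Finset.card_eq_three]
      exact ⟨a, b, _, hab, hne _ _ ha hac, hne _ _ hb hbc, rfl⟩
    · simp only [Finset.mem_insert, Finset.mem_singleton]
      rintro x (rfl | rfl | rfl) <;> assumption
    · simp only [Finset.mem_insert, Finset.mem_singleton]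
      rintro x (rfl | rfl | rfl) y (rfl | rfl | rfl) hxy <;>
        first | exact absurd rfl hxy | assumption | exact hd.symm | exact hac.symm | exact hbc.symm
  have hfib : ∀ t ∈ T, (D.filter fun p => f p = t).card = 6 := by
    intro t ht
    simp only [T, Finset.mem_filter, Finset.mem_univ, true_and] at ht
    obtain ⟨h3, ho, hd⟩ := ht
    have : D.filter (fun p => f p = t) = t.offDiag := by
      ext ⟨a, b⟩
      simp only [D, O, f, Finset.mem_filter, Finset.mem_product, Finset.mem_univ, true_and,
        Finset.mem_offDiag]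
      constructor
      · rintro ⟨⟨⟨ha, hb⟩, hab⟩, rfl⟩
        refine ⟨by simp, by simp, fun e => ?_⟩
        subst e
        rw [disjoint_self, Finset.bot_eq_empty] at hab
        rw [hab] at ha
        exact absurd ha.2 (by simp)
      · rintro ⟨ha, hb, hne⟩
        refine ⟨⟨⟨ho a ha, ho b hb⟩, hd a ha b hb hne⟩, ?_⟩
        obtain ⟨c, hc, hca, hcb⟩ : ∃ c ∈ t, c ≠ a ∧ c ≠ b := by
          have hlt : ({a, b} : Finset (Finset GolayPt)).card < t.card := by
            rw [Finset.card_pair hne, h3]; decide
          obtain ⟨c, hc, hc'⟩ := Finset.exists_mem_notMem_of_card_lt_card hlt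
          simp only [Finset.mem_insert, Finset.mem_singleton, not_or] at hc'
          exact ⟨c, hc, hc'.1, hc'.2⟩
        have hcc : c = (a ∪ b)ᶜ := by
          refine Finset.eq_of_subset_of_card_le (fun x hx => ?_) ?_
          · rw [Finset.mem_compl, Finset.mem_union]
            rintro (h | h)
            · exact Finset.disjoint_left.1 (hd c hc a ha hca) hx h
            · exact Finset.disjoint_left.1 (hd c hc b hb hcb) hx h
          · rw [(compl_union_mem_octads (ho a ha) (ho b hb) (hd a ha b hb hne)).2, (ho c hc).2]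
        rw [← hcc]
        refine (Finset.eq_of_subset_of_card_le ?_ ?_)
        · simp [Finset.subset_iff, ha, hb, hc]
        · rw [h3]
          exact (Finset.card_eq_three.2 ⟨a, b, c, hne, hca.symm, hcb.symm, rfl⟩).ge
    rw [this, Finset.offDiag_card, h3]
  have hD : D.card = 759 * 30 := by
    have hO : O.card = 759 := by
      rw [← card_octads_eq, Set.ncard_eq_toFinset_card']
      congr 1
      ext; simp [O]
    have hD1 := Finset.card_eq_sum_card_fiberwise (f := Prod.fst) (s := D) (t := O)
      fun p hp => (Finset.mem_product.1 (Finset.mem_filter.1 hp).1).1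
    rw [hD1, Finset.sum_congr rfl (g := fun _ => 30), Finset.sum_const, hO, smul_eq_mul]
    intro a ha
    have ha' : a ∈ octads := (Finset.mem_filter.1 ha).2
    rw [← card_disjoint_octads ha', Set.ncard_eq_toFinset_card']
    refine Finset.card_bij (fun p _ => p.2) ?_ ?_ ?_
    · intro p hp
      simp only [D, O, Finset.mem_filter, Finset.mem_product, Finset.mem_univ, true_and] at hp
      simp [hp.1.1.2, ← hp.2, hp.1.2]
    · intro p hp q hq h
      simp only [Finset.mem_filter] at hp hq
      exact Prod.ext (hp.2.trans hq.2.symm) h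
    · intro b hb
      simp only [Set.mem_toFinset, Set.mem_ofPred_eq] at hb
      exact ⟨(a, b), by simp [D, O, ha', hb.1, hb.2], rfl⟩
  have h := Finset.card_eq_sum_card_fiberwise (f := f) (s := D) (t := T) hmap
  rw [Finset.sum_congr rfl hfib, Finset.sum_const, smul_eq_mul, hD] at h
  rw [Set.ncard_eq_toFinset_card', show trios.toFinset = T by ext; simp [T]]
  omega

end Cfsg.Agent.H11
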