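import Cfsg.Agent.H11.OrbTri
import Cfsg.Agent.H11.Classes
import Cfsg.Agent.H11.Trios
import Cfsg.Agent.H11.OctadOrbits

/-!
The automorphism group of the code is transitive on trios; the orbits of a trio stabiliser on
trios, and its maximality.
-/

set_option autoImplicit false

namespace Cfsg.Agent.H11

open Cfsg Cfsg.Agent.H12 MulAction
open scoped Pointwise

/-- The masks of a trio through the first octad. -/
def trio0 : List ℕ := [5279, 1009728, 15762208]

/-- The first trio has three members. -/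
theorem trio0_card : (fins trio0).card = trio0.length := by
  have h : ∀ m ∈ trio0, m < 2 ^ 24 := by decide +kernel
  rw [fins, List.toFinset_card_of_nodup (List.Nodup.map_on
    (fun x hx y hy e => fin_inj (h x hx) (h y hy) e) (by decide +kernel)), List.length_map]

/-- The first trio is a trio. -/
theorem fins_trio0_mem : fins trio0 ∈ trios := by
  have h : (trio0.all fun a => decide (a < 2 ^ 24) && inCode a && pop a == 8 &&
      trio0.all fun b => a == b || a &&& b == 0) = true := by decide +kernel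
  simp only [List.all_eq_true, Bool.and_eq_true, decide_eq_true_eq, beq_iff_eq,
    Bool.or_eq_true] at h
  refine ⟨trio0_card, ?_, ?_⟩
  · intro s hs
    obtain ⟨a, ha, rfl⟩ := mem_fins.1 hs
    exact H11.mem_octads_iff.2
      ⟨a, List.mem_filter.2 ⟨inCode_iff.1 (h a ha).1.1.2, by simp [(h a ha).1.2]⟩, rfl⟩
  · intro s hs u hu hsu
    obtain ⟨a, ha, rfl⟩ := mem_fins.1 hs
    obtain ⟨b, hb, rfl⟩ := mem_fins.1 hu
    rcases (h a ha).2 b hb with e | e
    · exact absurd (by rw [e]) hsu
    · exact (disjoint_fin_iff (h a ha).1.1.1).2 e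

/-- The third octad of a trio. -/
theorem trio_eq_insert {T : Finset (Finset GolayPt)} (hT : T ∈ trios) {a b : Finset GolayPt}
    (ha : a ∈ T) (hb : b ∈ T) (hne : a ≠ b) : T = {a, b, (a ∪ b)ᶜ} := by
  obtain ⟨h3, ho, hd⟩ := hT
  have hlt : ({a, b} : Finset (Finset GolayPt)).card < T.card := by
    rw [Finset.card_pair hne, h3]; decide
  obtain ⟨c, hc, hc'⟩ := Finset.exists_mem_notMem_of_card_lt_card hlt
  simp only [Finset.mem_insert, Finset.mem_singleton, not_or] at hc'
  have hcc : c = (a ∪ b)ᶜ := by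
    refine Finset.eq_of_subset_of_card_le (fun x hx => ?_) ?_
    · rw [Finset.mem_compl, Finset.mem_union]
      rintro (h | h)
      · exact Finset.disjoint_left.1 (hd c hc a ha hc'.1) hx h
      · exact Finset.disjoint_left.1 (hd c hc b hb hc'.2) hx h
    · rw [(compl_union_mem_octads (ho a ha) (ho b hb) (hd a ha b hb hne)).2, (ho c hc).2]
  rw [← hcc]
  refine (Finset.eq_of_subset_of_card_le ?_ ?_).symm
  · simp [Finset.subset_iff, ha, hb, hc]
  · rw [h3]
    exact (Finset.card_eq_three.2 ⟨a, b, c, hne, (Ne.symm hc'.1), (Ne.symm hc'.2), rfl⟩).ge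

/-- Trios are mapped to trios. -/
theorem smul_mem_trios' {g : Equiv.Perm GolayPt} (hg : g ∈ M24) {T : Finset (Finset GolayPt)}
    (hT : T ∈ trios) : g • T ∈ trios :=
  H12.smul_mem_trios hg hT

/-- Two ordered pairs of disjoint octads correspond. -/
theorem exists_smul_disjoint_octads {a b a' b' : Finset GolayPt} (ha : a ∈ octads) (hb : b ∈ octads)
    (ha' : a' ∈ octads) (hb' : b' ∈ octads) (hd : Disjoint a b) (hd' : Disjoint a' b') :
    ∃ g ∈ M24, g • a = a' ∧ g • b = b' := by
  obtain ⟨g, hg, rfl⟩ := exists_smul_octad ha ha'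
  have h0 : (g • a ∩ g • b).card = (g • a ∩ b').card := by
    rw [← Finset.smul_finset_inter, Finset.disjoint_iff_inter_eq_empty.1 hd,
      Finset.disjoint_iff_inter_eq_empty.1 hd']
    simp
  obtain ⟨k, hk, hka, hkb⟩ :=
    octad_stab_transitive ha' (H11.smul_mem_octads hg hb) hb' h0
  exact ⟨k * g, mul_mem hk hg, by rw [mul_smul, hka], by rw [mul_smul, hkb]⟩

/-- Every trio is the image of the first one. -/
theorem exists_smul_trio0 {T : Finset (Finset GolayPt)} (hT : T ∈ trios) :
    ∃ g ∈ M24, g • fins trio0 = T := by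
  obtain ⟨a, ha, b, hb, hne⟩ := Finset.one_lt_card.1 (by rw [hT.1]; decide : 1 < T.card)
  have h0 := fins_trio0_mem
  have ha0 : fin 5279 ∈ fins trio0 := mem_fins.2 ⟨5279, by decide +kernel, rfl⟩
  have hb0 : fin 1009728 ∈ fins trio0 := mem_fins.2 ⟨1009728, by decide +kernel, rfl⟩
  have hne0 : fin 5279 ≠ fin 1009728 := fun e => by
    have := fin_inj (by decide) (by decide) e
    cases this
  obtain ⟨g, hg, hga, hgb⟩ := exists_smul_disjoint_octads (h0.2.1 _ ha0) (h0.2.1 _ hb0)
    (hT.2.1 a ha) (hT.2.1 b hb) (h0.2.2 _ ha0 _ hb0 hne0) (hT.2.2 a ha b hb hne)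
  refine ⟨g, hg, ?_⟩
  have h1 := trio_eq_insert (smul_mem_trios' hg h0) (a := a) (b := b)
    (hga ▸ Finset.smul_mem_smul_finset ha0) (hgb ▸ Finset.smul_mem_smul_finset hb0) hne
  rw [h1, ← trio_eq_insert hT ha hb hne]

/-- The trios form one orbit. -/
theorem orbit_trio {T : Finset (Finset GolayPt)} (hT : T ∈ trios) :
    MulAction.orbit M24 T = trios := by
  ext T'
  constructor
  · rintro ⟨g, rfl⟩; exact smul_mem_trios' g.2 hT
  · intro hT'
    obtain ⟨g, hg, rfl⟩ := exists_smul_trio0 hT
    obtain ⟨k, hk, rfl⟩ := exists_smul_trio0 hT'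
    exact ⟨⟨k * g⁻¹, mul_mem hk (inv_mem hg)⟩, by
      change (k * g⁻¹) • g • fins trio0 = k • fins trio0
      rw [mul_smul, inv_smul_smul]⟩

/-- The generators fix the first trio. -/
theorem triGens_fix : ∀ x ∈ triGens,
    genOK x = true ∧ permOf x.1 • fins trio0 = fins trio0 := by
  have h : (triGens.all fun x => genOK x &&
      allList trio0 fun m => memList (imgFast x.2 m) trio0) = true := by
    decide +kernel
  have hlt : ∀ m ∈ trio0, m < 2 ^ 24 := by decide +kernel
  intro x hx
  have := List.all_eq_true.1 h x hx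
  simp only [Bool.and_eq_true] at this
  exact ⟨this.1, smul_fins_eq_self this.1 hlt trio0_card this.2⟩

/-- The class sizes of trios relative to a trio. -/
def triCount : ℕ → ℕ := fun c => if c = 128 then 42 else if c = 96 then 56 else
  if c = 80 then 1008 else if c = 72 then 2688 else 1

/-- Each class of trios is one orbit. -/
theorem tri_orbit : ∀ c ∈ [72, 80, 96, 128, 192], ∃ x,
    orbit ↥(stabilizer M24 (fins trio0)) x = phiClass id id trios (fins trio0) c ∧
    (phiClass id id trios (fins trio0) c).ncard = triCount c ∧ x ∈ trios := by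
  have key : ∀ {c r n l : ℕ} {t : List ℕ},
      classCheck 3795 trioList trioImg triGens trio0 c r n l t = true →
      orbit ↥(stabilizer M24 (fins trio0)) (trioSet r) =
        phiClass id id trios (fins trio0) c ∧
      (phiClass id id trios (fins trio0) c).ncard = n ∧ trioSet r ∈ trios := fun h =>
    orbit_eq_phiClass (famA := id) (famB := id) (fun _ _ => rfl) (fun _ _ => rfl)
      (fun g hg _ ho => smul_mem_trios' hg ho) H12.trios_eq (by decide) trioSet_injOn
      (fun i hi => trioList_spec hi) ⟨rfl, trio0_card⟩ triGens_fix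
      (fun x hx i hi j hj hc => trioImg_spec hx hi hj hc) h
  intro c hc
  simp only [List.mem_cons, List.not_mem_nil, or_false] at hc
  rcases hc with rfl | rfl | rfl | rfl | rfl
  exacts [⟨_, key triClass72⟩, ⟨_, key triClass80⟩, ⟨_, key triClass96⟩, ⟨_, key triClass128⟩,
    ⟨_, key triClass192⟩]

/-- The classes cover the trios. -/
theorem tri_cover (g : M24) (x : Finset (Finset GolayPt)) (hx : x ∈ trios) :
    phi (g • fins trio0) x ∈ [72, 80, 96, 128, 192] :=
  phi_mem_of_cover (famA := id) (famB := id) (fun _ _ => rfl) (fun _ _ => rfl)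
    (fun g hg _ ho => smul_mem_trios' hg ho) H12.trios_eq
    (fun i hi => trioList_spec hi) (LA := trio0) ⟨rfl, trio0_card⟩ triCover g hx

/-- The stabiliser of a trio has five orbits on trios and is maximal. -/
theorem trio_stab_orbits {T : Finset (Finset GolayPt)} (hT : T ∈ trios) :
    ∃ X₁ ∈ trios, ∃ X₂ ∈ trios, ∃ X₃ ∈ trios, ∃ X₄ ∈ trios,
      (orbit ↥(stabilizer M24 T) X₁).ncard = 42 ∧ (orbit ↥(stabilizer M24 T) X₂).ncard = 56 ∧
      (orbit ↥(stabilizer M24 T) X₃).ncard = 1008 ∧ (orbit ↥(stabilizer M24 T) X₄).ncard = 2688 ∧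
      trios = {T} ∪ orbit ↥(stabilizer M24 T) X₁ ∪ orbit ↥(stabilizer M24 T) X₂ ∪
        orbit ↥(stabilizer M24 T) X₃ ∪ orbit ↥(stabilizer M24 T) X₄ ∧
      IsCoatom (stabilizer M24 T) := by
  obtain ⟨g, hg, rfl⟩ := exists_smul_trio0 hT
  have ex : ∀ c ∈ [72, 80, 96, 128, 192], ∃ X ∈ trios,
      orbit ↥(stabilizer M24 (g • fins trio0)) X = phiClass id id trios (g • fins trio0) c ∧
      (phiClass id id trios (g • fins trio0) c).ncard = triCount c := fun c hc =>
    let ⟨_, hx⟩ := tri_orbit c hc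
    exists_orbit_of_smul (famA := id) (famB := id) (S := trios) (fun _ _ => rfl) (fun _ _ => rfl)
      (fun g hg _ ho => smul_mem_trios' hg ho) hx (⟨g, hg⟩ : M24)
  obtain ⟨X₁, h1, o1, n1⟩ := ex 128 (by simp)
  obtain ⟨X₂, h2, o2, n2⟩ := ex 96 (by simp)
  obtain ⟨X₃, h3, o3, n3⟩ := ex 80 (by simp)
  obtain ⟨X₄, h4, o4, n4⟩ := ex 72 (by simp)
  obtain ⟨X₀, h0, o0, n0⟩ := ex 192 (by simp)
  refine ⟨X₁, h1, X₂, h2, X₃, h3, X₄, h4, by rw [o1, n1]; rfl, by rw [o2, n2]; rfl,
    by rw [o3, n3]; rfl, by rw [o4, n4]; rfl, ?_, ?_⟩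
  · have hself : phi (g • fins trio0) (g • fins trio0) = 192 := by
      rw [phi_smul, phi_fins trio0_card trio0_card]
      decide +kernel
    ext X
    simp only [o1, o2, o3, o4, Set.mem_union, Set.mem_singleton_iff]
    constructor
    · intro hX
      have h : phi (g • fins trio0) X ∈ [72, 80, 96, 128, 192] := tri_cover ⟨g, hg⟩ X hX
      simp only [List.mem_cons, List.not_mem_nil, or_false] at h
      rcases h with h | h | h | h | h
      · exact Or.inr ⟨hX, h⟩
      · exact Or.inl (Or.inr ⟨hX, h⟩)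
      · exact Or.inl (Or.inl (Or.inr ⟨hX, h⟩))
      · exact Or.inl (Or.inl (Or.inl (Or.inr ⟨hX, h⟩)))
      · refine Or.inl (Or.inl (Or.inl (Or.inl ?_)))
        rw [show triCount 192 = 1 from rfl, Set.ncard_eq_one] at n0
        obtain ⟨a, ha⟩ := n0
        have hX' : X ∈ ({a} : Set (Finset (Finset GolayPt))) := ha ▸ ⟨hX, h⟩
        have hS' : g • fins trio0 ∈ ({a} : Set (Finset (Finset GolayPt))) := ha ▸ ⟨hT, hself⟩
        exact hX'.trans hS'.symm
    · rintro ((((rfl | h) | h) | h) | h)
      exacts [hT, h.1, h.1, h.1, h.1]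
  · refine isCoatom_of_classes (famA := id) (famB := id) (fun _ _ => rfl) (fun _ _ => rfl)
      (fun g hg _ ho => smul_mem_trios' hg ho) tri_orbit tri_cover ⟨g, hg⟩ _
      (orbit_trio hT) rfl H11.card_trios (by decide) (c₀ := 192) ?_ rfl (by decide +kernel)
    change phi (g • fins trio0) (g • fins trio0) = 192
    rw [phi_smul, phi_fins trio0_card trio0_card]
    decide +kernel

end Cfsg.Agent.H11
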