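import Cfsg.Agent.H11.StructData
import Cfsg.Agent.H11.FamilyStab
import Cfsg.Agent.H11.OctadStab
import Cfsg.Agent.H11.TrioOrbits

/-!
The structure of a trio stabiliser in the automorphism group of the code: the kernel of its action
on the three octads and the seven refining sextets is elementary of order 64, with quotient the
product of the general linear group of degree 3 over two elements and the symmetric group of
degree 3.
-/

set_option autoImplicit false

namespace Cfsg.Agent.H11

open Cfsg Cfsg.Agent.H12 MulAction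
open scoped Pointwise Matrix

/-- The number of a vector over two elements. -/
def trioVecIdx (v : Fin 3 → ZMod 2) : ℕ := (v 0).val + 2 * (v 1).val + 4 * (v 2).val

/-- The vector with a given number. -/
def trioVec (i : ℕ) : Fin 3 → ZMod 2 := fun j => if i.testBit j.val then 1 else 0

/-- The matrix of a nine-bit code, column by column. -/
def trioMat (c : ℕ) : Matrix (Fin 3) (Fin 3) (ZMod 2) :=
  Matrix.of fun i j => if c.testBit (3 * j.val + i.val) then 1 else 0

/-- The sextet of a vector (empty for zero). -/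
def trioX (v : Fin 3 → ZMod 2) : Finset (Finset GolayPt) :=
  fins (trioSextets.getD (trioVecIdx v) [])

/-- Equality of mask lists as sets. -/
def sameMasks (L L' : List ℕ) : Bool := (L.all L'.contains) && L'.all L.contains

/-- A table entry checks: it moves the sextets by its matrix and the octads as requested. -/
def trioEntryOK (P c d : ℕ) : Bool :=
  preserves P && sameMasks (trio0.map (imgMask P)) trio0 &&
  ((List.range 8).all fun i => sameMasks ((trioSextets.getD i []).map (imgMask P))
    (trioSextets.getD (trioVecIdx (trioMat c *ᵥ trioVec i)) [])) &&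
  decide (trioMat c * trioMat d = 1) && decide (trioMat d * trioMat c = 1)

/-- The tables of the first trio, checked. -/
theorem trioStruct_check :
    ((trioKer.all fun P => trioEntryOK P 273 273 && repackOK P &&
      (trio0.all fun m => imgMask P m == m) &&
      (List.range 24).all fun i => app P (app P i) == i) &&
    decide trioKer.Nodup && trioKer.length == 64 &&
    (trioLin.all fun x => trioEntryOK x.1 x.2.1 x.2.2 &&
      trio0.all fun m => imgMask x.1 m == m) &&
    decide ((trioLin.map fun x => x.2.1).Nodup) &&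
    (trioLin.all fun x => decide (x.2.1 < 512)) && trioLin.length == 168 &&
    (trioSwaps.all fun x => trioEntryOK x.1 x.2.1 x.2.2) &&
    (trio0.all fun a => trio0.all fun b => a == b || trioSwaps.any fun x =>
      imgMask x.1 a == b && imgMask x.1 b == a &&
      trio0.all fun c => c == a || c == b || imgMask x.1 c == c) &&
    ((List.range 8).all fun i => (List.range 8).all fun j => i == j ||
      !sameMasks (trioSextets.getD i []) (trioSextets.getD j [])) &&
    ((List.range 8).all fun i => (trioSextets.getD i []).all fun m => decide (m < 2 ^ 24))) = true := by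
  decide +kernel

/-- The code 273 is the identity matrix. -/
theorem trioMat_one : trioMat 273 = 1 := by decide +kernel

/-- The codes below 512 give different matrices. -/
theorem trioMat_injective {c d : ℕ} (hc : c < 512) (hd : d < 512) (h : trioMat c = trioMat d) :
    c = d := by
  apply Nat.eq_of_testBit_eq
  intro k
  by_cases hk : k < 9
  · have := congrFun (congrFun h ⟨k % 3, Nat.mod_lt _ (by decide)⟩) ⟨k / 3, by omega⟩
    simp only [trioMat, Matrix.of_apply, show 3 * (k / 3) + k % 3 = k from Nat.div_add_mod k 3] at this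
    revert this
    cases c.testBit k <;> cases d.testBit k <;> simp
  · rw [Nat.testBit_lt_two_pow (lt_of_lt_of_le hc ((by decide : 512 ≤ 2 ^ 9).trans
      (Nat.pow_le_pow_right (by decide) (not_lt.1 hk)))),
      Nat.testBit_lt_two_pow (lt_of_lt_of_le hd ((by decide : 512 ≤ 2 ^ 9).trans
      (Nat.pow_le_pow_right (by decide) (not_lt.1 hk))))]

/-- Numbers of vectors are below 8. -/
theorem trioVecIdx_lt : ∀ v, trioVecIdx v < 8 := by decide +kernel

/-- Each vector is the vector of its number. -/
theorem trioVec_idx : ∀ v, trioVec (trioVecIdx v) = v := by decide +kernel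

/-- Different vectors have different sextets. -/
theorem trioX_injective : Function.Injective trioX := by
  intro v w h
  have hc := trioStruct_check
  simp only [Bool.and_eq_true, List.all_eq_true, List.mem_range, Bool.or_eq_true, beq_iff_eq,
    Bool.not_eq_true', decide_eq_true_eq] at hc
  rw [← trioVec_idx v, ← trioVec_idx w]
  rcases hc.1.2 _ (trioVecIdx_lt v) _ (trioVecIdx_lt w) with e | e
  · rw [e]
  · exfalso
    have : sameMasks (trioSextets.getD (trioVecIdx v) []) (trioSextets.getD (trioVecIdx w) [])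
        = true := by
      simp only [sameMasks, Bool.and_eq_true, List.all_eq_true, List.contains_iff_mem]
      constructor
      · intro m hm
        obtain ⟨m', hm', e'⟩ := mem_fins.1 ((Finset.ext_iff.1 h (fin m)).1 (mem_fins.2 ⟨m, hm, rfl⟩))
        rwa [← fin_inj (hc.2 _ (trioVecIdx_lt w) m' hm') (hc.2 _ (trioVecIdx_lt v) m hm) e']
      · intro m hm
        obtain ⟨m', hm', e'⟩ := mem_fins.1 ((Finset.ext_iff.1 h (fin m)).2 (mem_fins.2 ⟨m, hm, rfl⟩))
        rwa [← fin_inj (hc.2 _ (trioVecIdx_lt v) m' hm') (hc.2 _ (trioVecIdx_lt w) m hm) e']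
    rw [this] at e
    cases e

/-- Equal mask sets give equal families. -/
theorem fins_eq_of_sameMasks {L L' : List ℕ} (h : sameMasks L L' = true) : fins L = fins L' := by
  simp only [sameMasks, Bool.and_eq_true, List.all_eq_true, List.contains_iff_mem] at h
  exact fins_eq_of_subset h.1 h.2

/-- A checked entry as an element of the stabiliser with its matrix. -/
theorem trioEntry_spec {P c d : ℕ} (h : trioEntryOK P c d = true) :
    isPerm P = true ∧ ∃ g : stabilizer M24 (fins trio0),
      ((g : M24) : Equiv.Perm GolayPt) = permOf P ∧ ∃ A : GL (Fin 3) (ZMod 2),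
      (A : Matrix (Fin 3) (Fin 3) (ZMod 2)) = trioMat c ∧
      ∀ v, permOf P • trioX v = trioX ((A : Matrix (Fin 3) (Fin 3) (ZMod 2)) *ᵥ v) := by
  simp only [trioEntryOK, Bool.and_eq_true, List.all_eq_true, decide_eq_true_eq,
    List.mem_range] at h
  obtain ⟨⟨⟨⟨hP, hT⟩, hX⟩, h1⟩, h2⟩ := h
  have hperm : isPerm P = true := by
    simp only [preserves, Bool.and_eq_true] at hP
    exact hP.1
  refine ⟨hperm, ⟨⟨permOf P, permOf_mem_M24 hP⟩, ?_⟩, rfl, ⟨trioMat c, trioMat d, h1, h2⟩, rfl,
    fun v => ?_⟩
  · rw [mem_stabilizer_iff, Subgroup.smul_def]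
    change permOf P • fins trio0 = fins trio0
    rw [smul_fins hperm]
    exact fins_eq_of_sameMasks hT
  · have := fins_eq_of_sameMasks (hX _ (trioVecIdx_lt v))
    rw [trioVec_idx] at this
    rw [trioX, smul_fins hperm, this]
    rfl

/-- The elements acting linearly on the seven sextets. -/
noncomputable def trioLinear : Subgroup (stabilizer M24 (fins trio0)) where
  carrier := {g | ∃ A : GL (Fin 3) (ZMod 2), ∀ v,
    ((g : M24) : Equiv.Perm GolayPt) • trioX v =
      trioX ((A : Matrix (Fin 3) (Fin 3) (ZMod 2)) *ᵥ v)}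
  one_mem' := ⟨1, fun v => by
    rw [OneMemClass.coe_one, OneMemClass.coe_one, one_smul, Units.val_one, Matrix.one_mulVec]⟩
  mul_mem' := by
    rintro g h ⟨A, hA⟩ ⟨B, hB⟩
    exact ⟨A * B, fun v => by
      rw [Subgroup.coe_mul, Subgroup.coe_mul, mul_smul, hB, hA, Units.val_mul,
        Matrix.mulVec_mulVec]⟩
  inv_mem' := by
    rintro g ⟨A, hA⟩
    refine ⟨A⁻¹, fun v => ?_⟩
    rw [Subgroup.coe_inv, Subgroup.coe_inv, inv_smul_eq_iff, hA, Matrix.mulVec_mulVec,
      ← Units.val_mul, mul_inv_cancel, Units.val_one, Matrix.one_mulVec]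

/-- A matrix is determined by its action on the sextets. -/
theorem trioMatrix_unique {A B : GL (Fin 3) (ZMod 2)}
    (h : ∀ v, trioX ((A : Matrix (Fin 3) (Fin 3) (ZMod 2)) *ᵥ v) =
      trioX ((B : Matrix (Fin 3) (Fin 3) (ZMod 2)) *ᵥ v)) : A = B := by
  apply Units.ext
  apply Matrix.ext_of_mulVec_single
  intro i
  exact trioX_injective (h _)

/-- The matrix and the permutation of the octads of a linear element. -/
noncomputable def trioHom :
    trioLinear →* GL (Fin 3) (ZMod 2) × Equiv.Perm ↥(fins trio0) :=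
  MonoidHom.prod
    { toFun := fun g => g.2.choose
      map_one' := trioMatrix_unique fun v => by
        rw [← ((1 : trioLinear).2.choose_spec v)]
        simp
      map_mul' := fun g h => trioMatrix_unique fun v => by
        rw [← ((g * h).2.choose_spec v), Units.val_mul, ← Matrix.mulVec_mulVec,
          ← g.2.choose_spec, ← h.2.choose_spec]
        simp [mul_smul] }
    ((familyHom (fins trio0)).comp trioLinear.subtype)

/-- The hom at an element with a known matrix. -/
theorem trioHom_fst {g : trioLinear} {A : GL (Fin 3) (ZMod 2)}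
    (h : ∀ v, (((g : stabilizer M24 (fins trio0)) : M24) : Equiv.Perm GolayPt) • trioX v =
      trioX ((A : Matrix (Fin 3) (Fin 3) (ZMod 2)) *ᵥ v)) : (trioHom g).1 = A :=
  trioMatrix_unique fun v => by rw [← h v]; exact (g.2.choose_spec v).symm

/-- Elements fixing all three octads act trivially on them. -/
theorem familyHom_eq_one {P : ℕ} (hP : isPerm P = true) {g : stabilizer M24 (fins trio0)}
    (hg : ((g : M24) : Equiv.Perm GolayPt) = permOf P) (h : ∀ m ∈ trio0, imgMask P m = m) :
    familyHom (fins trio0) g = 1 := by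
  rw [← MonoidHom.mem_ker, mem_ker_familyHom]
  intro t ht
  obtain ⟨m, hm, rfl⟩ := mem_fins.1 ht
  rw [hg, smul_fin hP, h m hm]

/-- The general linear group of degree 3 over two elements has order 168. -/
theorem card_GL3 : Nat.card (GL (Fin 3) (ZMod 2)) = 168 := by
  rw [Matrix.card_GL_field]
  simp [Fin.prod_univ_three]

/-- The structural map is onto. -/
theorem trioHom_surjective : Function.Surjective trioHom := by
  have hc := trioStruct_check
  simp only [Bool.and_eq_true, List.all_eq_true, List.mem_range, Bool.or_eq_true, beq_iff_eq,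
    decide_eq_true_eq, List.any_eq_true] at hc
  obtain ⟨⟨⟨⟨⟨⟨⟨⟨-, hlin⟩, hnd⟩, hlt⟩, hlen⟩, hswap⟩, hsw⟩, -⟩, -⟩ := hc
  have hA : ∀ A : GL (Fin 3) (ZMod 2),
      (A, (1 : Equiv.Perm ↥(fins trio0))) ∈ trioHom.range := by
    let T : Set (GL (Fin 3) (ZMod 2)) :=
      {A | (A, (1 : Equiv.Perm ↥(fins trio0))) ∈ trioHom.range}
    suffices hT : T = Set.univ from fun A => (hT ▸ Set.mem_univ A : A ∈ T)
    refine Set.eq_of_subset_of_ncard_le (Set.subset_univ _) ?_ Set.finite_univ
    rw [Set.ncard_univ, card_GL3]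
    have hsub : ((trioLin.map fun x => trioMat x.2.1).toFinset :
        Set (Matrix (Fin 3) (Fin 3) (ZMod 2))) ⊆
        (fun A : GL (Fin 3) (ZMod 2) => (A : Matrix (Fin 3) (Fin 3) (ZMod 2))) '' T := by
      intro M hM
      simp only [List.coe_toFinset, Set.mem_ofPred_eq, List.mem_map] at hM
      obtain ⟨x, hx, rfl⟩ := hM
      obtain ⟨hperm, g, hg, A, hA, hgA⟩ := trioEntry_spec (hlin x hx).1
      refine ⟨A, ⟨⟨g, A, fun v => by rw [hg]; exact hgA v⟩, Prod.ext (trioHom_fst fun v => ?_) ?_⟩, hA⟩
      · change ((g : M24) : Equiv.Perm GolayPt) • trioX v = _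
        rw [hg]; exact hgA v
      · exact familyHom_eq_one hperm hg (hlin x hx).2
    have h1 := Set.ncard_le_ncard hsub
    rw [Set.ncard_coe_finset, List.toFinset_card_of_nodup, List.length_map, hlen] at h1
    · exact h1.trans (Set.ncard_image_le (Set.toFinite _))
    · refine (List.Nodup.of_map _ hnd).map_on fun x hx y hy e => ?_
      exact List.inj_on_of_nodup_map hnd hx hy
        (trioMat_injective (hlt x hx) (hlt y hy) e)
  have hS : ((trioHom.range).comap (MonoidHom.inr (GL (Fin 3) (ZMod 2))
      (Equiv.Perm ↥(fins trio0)))) = ⊤ := by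
    rw [eq_top_iff, ← Equiv.Perm.closure_isSwap, Subgroup.closure_le]
    rintro _ ⟨a, b, hab, rfl⟩
    obtain ⟨i, hi, hia⟩ := mem_fins.1 a.2
    obtain ⟨j, hj, hjb⟩ := mem_fins.1 b.2
    rcases hsw i hi j hj with e | ⟨x, hx, ⟨hxi, hxj⟩, hxk⟩
    · exact absurd (Subtype.ext (by rw [← hia, ← hjb, e])) hab
    obtain ⟨hperm, g, hg, A, -, hgA⟩ := trioEntry_spec (hswap x hx)
    let e : trioLinear := ⟨g, A, fun v => by rw [hg]; exact hgA v⟩
    have he : trioHom e = (A, Equiv.swap a b) := by
      refine Prod.ext (trioHom_fst fun v => ?_) ?_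
      · change ((g : M24) : Equiv.Perm GolayPt) • trioX v = _
        rw [hg]; exact hgA v
      refine Equiv.ext fun t => Subtype.ext ?_
      change ((g : M24) : Equiv.Perm GolayPt) • (t : Finset GolayPt) = _
      rw [hg]
      obtain ⟨k, hk, hkt⟩ := mem_fins.1 t.2
      rw [← hkt, smul_fin hperm]
      rcases eq_or_ne t a with rfl | h1
      · rw [Equiv.swap_apply_left, ← hjb]
        have hki : k = i := fin_inj
          ((by decide +kernel : ∀ m ∈ trio0, m < 2 ^ 24) k hk)
          ((by decide +kernel : ∀ m ∈ trio0, m < 2 ^ 24) i hi) (hkt.trans hia.symm)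
        rw [hki, hxi]
      · rcases eq_or_ne t b with rfl | h2
        · rw [Equiv.swap_apply_right, ← hia]
          have hkj : k = j := fin_inj
            ((by decide +kernel : ∀ m ∈ trio0, m < 2 ^ 24) k hk)
            ((by decide +kernel : ∀ m ∈ trio0, m < 2 ^ 24) j hj) (hkt.trans hjb.symm)
          rw [hkj, hxj]
        · rw [Equiv.swap_apply_of_ne_of_ne h1 h2, ← hkt]
          rcases hxk k hk with (rfl | rfl) | e
          · exact absurd (Subtype.ext (hkt.symm.trans hia)) h1
          · exact absurd (Subtype.ext (hkt.symm.trans hjb)) h2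
          · rw [e]
    have := mul_mem (hA A⁻¹) (⟨e, he⟩ : (A, Equiv.swap a b) ∈ trioHom.range)
    rwa [Prod.mk_mul_mk, inv_mul_cancel, one_mul] at this
  rintro ⟨A, σ⟩
  have h1 : ((1 : GL (Fin 3) (ZMod 2)), σ) ∈ trioHom.range :=
    (hS ▸ Subgroup.mem_top σ : σ ∈ (trioHom.range).comap (MonoidHom.inr _ _))
  have := mul_mem (hA A) h1
  rwa [Prod.mk_mul_mk, mul_one, one_mul] at this

/-- A kernel table entry. -/
theorem trioKer_spec {P : ℕ} (hPm : P ∈ trioKer) : isPerm P = true ∧ repackOK P = true ∧
    (∀ i < 24, app P (app P i) = i) ∧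
    ∃ x : trioHom.ker, (((x : trioLinear) : stabilizer M24 (fins trio0)) : Equiv.Perm GolayPt) =
      permOf P := by
  have hc := trioStruct_check
  simp only [Bool.and_eq_true, List.all_eq_true, List.mem_range, beq_iff_eq] at hc
  obtain ⟨⟨⟨hok, hrep⟩, hfix⟩, hsq⟩ := hc.1.1.1.1.1.1.1.1.1.1 P hPm
  obtain ⟨hperm, g, hg, A, hA, hgA⟩ := trioEntry_spec hok
  refine ⟨hperm, hrep, hsq, ⟨⟨g, A, fun v => by rw [hg]; exact hgA v⟩, ?_⟩, hg⟩
  rw [MonoidHom.mem_ker]
  refine Prod.ext ((trioHom_fst (A := A) fun v => ?_).trans (Units.ext ?_)) ?_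
  · change ((g : M24) : Equiv.Perm GolayPt) • trioX v = _
    rw [hg]; exact hgA v
  · rw [hA, trioMat_one]; rfl
  · exact familyHom_eq_one hperm hg hfix

/-- The kernel as the image of the table. -/
noncomputable def trioKerElt (P : {P // P ∈ trioKer}) : trioHom.ker :=
  (trioKer_spec P.2).2.2.2.choose

/-- The linear elements are everything, and the kernel consists of the 64 table entries. -/
theorem trioLinear_eq_top_and_ker :
    trioLinear = ⊤ ∧ Nat.card trioHom.ker = 64 ∧ Function.Surjective trioKerElt := by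
  have hc := trioStruct_check
  simp only [Bool.and_eq_true, beq_iff_eq, decide_eq_true_eq] at hc
  have hnd := hc.1.1.1.1.1.1.1.1.1.2
  have hlen := hc.1.1.1.1.1.1.1.1.2
  have hinj : Function.Injective trioKerElt := fun P Q e => by
    apply Subtype.ext
    have h1 := (trioKer_spec P.2).2.2.2.choose_spec
    have h2 := (trioKer_spec Q.2).2.2.2.choose_spec
    exact eq_of_permOf_eq (trioKer_spec P.2).1 (trioKer_spec Q.2).1 (trioKer_spec P.2).2.1
      (trioKer_spec Q.2).2.1 (h1.symm.trans ((congrArg (fun x : trioHom.ker =>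
        (((x : trioLinear) : stabilizer M24 (fins trio0)) : Equiv.Perm GolayPt)) e).trans h2))
  have hc64 : Nat.card {P // P ∈ trioKer} = 64 := by
    rw [Nat.card_eq_fintype_card, ← hlen, ← List.toFinset_card_of_nodup hnd]
    exact Fintype.card_of_subtype _ fun x => List.mem_toFinset
  have h64 : 64 ≤ Nat.card trioHom.ker := hc64 ▸ Nat.card_le_card_of_injective _ hinj
  have hH := Subgroup.card_mul_index trioHom.ker
  rw [Subgroup.index_ker, MonoidHom.range_eq_top.2 trioHom_surjective, Subgroup.card_top,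
    Nat.card_prod, card_GL3, Nat.card_perm, Nat.card_eq_finsetCard, fins_trio0_mem.1,
    show Nat.factorial 3 = 6 by decide] at hH
  have hstab := card_stabilizer_of_orbit (fins trio0) (H11.orbit_trio fins_trio0_mem) H11.card_trios
  have hle := trioLinear.card_le_card_group
  clear hlen hnd hc
  have key : ∀ a l s : ℕ, a * (168 * 6) = l → 64 ≤ a → 3795 * s = 244823040 → l ≤ s →
      l = s ∧ a = 64 := by
    intro a l s h1 h2 h3 h4
    omega
  obtain ⟨hls, ha⟩ := key _ _ _ hH h64 hstab hle
  refine ⟨Subgroup.eq_top_of_card_eq _ hls, ha, ?_⟩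
  exact (hinj.bijective_of_nat_card_le (ha.trans hc64.symm).le).2

/-- The structure of a trio stabiliser. -/
theorem trio_stabilizer_structure {T : Finset (Finset GolayPt)} (hT : T ∈ trios) :
    (∀ e : Equiv.Perm ↥T, ∃ g ∈ stabilizer M24 T, ∀ o : ↥T,
      (g : Equiv.Perm GolayPt) • (o : Finset GolayPt) = ((e o : ↥T) : Finset GolayPt)) ∧
    ∃ (N : Subgroup ↥(stabilizer M24 T)) (_ : N.Normal), Nat.card N = 64 ∧
      (∀ x ∈ N, x * x = 1) ∧
      Nonempty (↥(stabilizer M24 T) ⧸ N ≃* GL (Fin 3) (ZMod 2) × Equiv.Perm (Fin 3)) := by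
  obtain ⟨g, hg, rfl⟩ := exists_smul_trio0 hT
  obtain ⟨htop, hker, hsur⟩ := trioLinear_eq_top_and_ker
  have hsw : ∀ a ∈ fins trio0, ∀ b ∈ fins trio0, a ≠ b →
      ∃ k ∈ stabilizer M24 (fins trio0), (k : Equiv.Perm GolayPt) • a = b ∧
        (k : Equiv.Perm GolayPt) • b = a ∧
        ∀ c ∈ fins trio0, c ≠ a → c ≠ b → (k : Equiv.Perm GolayPt) • c = c := by
    intro a ha b hb hab
    obtain ⟨x, hx⟩ := trioHom_surjective (1, Equiv.swap ⟨a, ha⟩ ⟨b, hb⟩)
    have hx2 : familyHom (fins trio0) x.1 = Equiv.swap ⟨a, ha⟩ ⟨b, hb⟩ := congrArg Prod.snd hx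
    refine ⟨x.1.1, x.1.2, ?_, ?_, fun c hc hca hcb => ?_⟩
    · have := congrArg Subtype.val (Equiv.congr_fun hx2 ⟨a, ha⟩)
      rwa [familyHom_apply, Equiv.swap_apply_left] at this
    · have := congrArg Subtype.val (Equiv.congr_fun hx2 ⟨b, hb⟩)
      rwa [familyHom_apply, Equiv.swap_apply_right] at this
    · have := congrArg Subtype.val (Equiv.congr_fun hx2 ⟨c, hc⟩)
      rwa [familyHom_apply, Equiv.swap_apply_of_ne_of_ne (fun e => hca (congrArg Subtype.val e))
        (fun e => hcb (congrArg Subtype.val e))] at this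
  refine ⟨fun e => ?_, ?_⟩
  · have hsurj : (familyHom ((⟨g, hg⟩ : M24) • fins trio0)).range = ⊤ :=
      familyHom_range_eq_top (swaps_smul ⟨g, hg⟩ hsw)
    obtain ⟨k, hk⟩ := (hsurj ▸ Subgroup.mem_top e : e ∈ (familyHom (g • fins trio0)).range)
    exact ⟨k, k.2, fun t => (familyHom_apply k t).symm.trans (by rw [hk])⟩
  let E : stabilizer M24 (g • fins trio0) ≃* trioLinear :=
    (stabilizerEquivStabilizer (g := (⟨g, hg⟩ : M24)) (a := fins trio0) rfl).symm.trans
      (Subgroup.topEquiv.symm.trans (MulEquiv.subgroupCongr htop.symm))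
  let F : GL (Fin 3) (ZMod 2) × Equiv.Perm ↥(fins trio0) ≃*
      GL (Fin 3) (ZMod 2) × Equiv.Perm (Fin 3) :=
    MulEquiv.prodCongr (MulEquiv.refl _)
      (Equiv.permCongrHom ((fins trio0).equivFinOfCardEq fins_trio0_mem.1))
  let φ := (F.toMonoidHom.comp trioHom).comp E.toMonoidHom
  have hmem : ∀ x, x ∈ φ.ker ↔ E x ∈ trioHom.ker := fun x => by
    simp only [φ, MonoidHom.mem_ker, MonoidHom.comp_apply, MulEquiv.coe_toMonoidHom]
    exact F.map_eq_one_iff
  refine ⟨φ.ker, MonoidHom.normal_ker φ, ?_, ?_, ⟨QuotientGroup.quotientKerEquivOfSurjective φ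
    (F.surjective.comp (trioHom_surjective.comp E.surjective))⟩⟩
  · rw [← hker]
    exact Nat.card_congr (E.toEquiv.subtypeEquiv hmem)
  · intro x hx
    obtain ⟨P, hP⟩ := hsur ⟨E x, (hmem x).1 hx⟩
    apply E.injective
    rw [map_mul, map_one]
    have h1 := (trioKer_spec P.2).2.2.2.choose_spec
    have hP' : trioKerElt P = ⟨E x, (hmem x).1 hx⟩ := hP
    rw [trioKerElt] at hP'
    rw [hP'] at h1
    apply Subtype.ext
    apply Subtype.ext
    apply Subtype.ext
    change (((E x : trioLinear) : stabilizer M24 (fins trio0)) : Equiv.Perm GolayPt) *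
      (((E x : trioLinear) : stabilizer M24 (fins trio0)) : Equiv.Perm GolayPt) = 1
    rw [h1]
    refine Equiv.ext (forall_pt.2 fun n hn => ?_)
    have hp := (trioKer_spec P.2).1
    rw [Equiv.Perm.mul_apply, permOf_pt hp hn, permOf_pt hp (app_lt hp hn),
      (trioKer_spec P.2).2.2.1 n hn, Equiv.Perm.one_apply]

end Cfsg.Agent.H11
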